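import Cfsg.Agent.Lib.Basic.NormalComp
import Cfsg.Agent.Lib.Basic.Solv1
import Cfsg.Agent.Lib.Basic.Hall
import Cfsg.Agent.Lib.Basic.Hall2
import Cfsg.Agent.Lib.Basic.MinNormal

/-!
# Carter subgroups: images, covering.
-/

set_option autoImplicit false

namespace Cfsg.Agent.Lib.Basic

open Subgroup Cfsg

open scoped Pointwise

variable {G : Type*} [Group G]

theorem isNilpotent_of_injective' {Q : Type*} [Group Q] (f : G →* Q) (hf : Function.Injective f)
    (hQ : Group.IsNilpotent Q) : Group.IsNilpotent G := by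
  haveI := hQ
  exact Group.nilpotent_of_surjective (MonoidHom.ofInjective hf).symm.toMonoidHom
    (MonoidHom.ofInjective hf).symm.surjective

section decomp

variable [Finite G]

set_option linter.unusedSectionVars false

/-- A `p'`-element of a product `K₁ K₂` of a commuting `p`-group and `p'`-group lies in `K₂`. -/
theorem mem_right_of_coprime {K₁ K₂ : Subgroup G} {p : ℕ} [hp : Fact p.Prime] (hK₁ : IsPGroup p K₁)
    (hK₂ : (Nat.card K₂).Coprime p)
    (hcomm : ∀ x ∈ K₁, ∀ y ∈ K₂, x * y = y * x) {x : G} (hx : x ∈ K₁ ⊔ K₂)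
    (hc : (orderOf x).Coprime p) : x ∈ K₂ := by
  obtain ⟨a, ha, b, hb, rfl⟩ := exists_mul_of_mem_sup_of_commute hcomm hx
  have hcab : Commute a b := hcomm a ha b hb
  set m := orderOf (a * b) * orderOf b with hm
  have h1 : (a * b) ^ m = 1 := by
    rw [hm, pow_mul, pow_orderOf_eq_one, one_pow]
  have h2 : b ^ m = 1 := by
    rw [hm, mul_comm, pow_mul, pow_orderOf_eq_one, one_pow]
  rw [hcab.mul_pow, h2, mul_one] at h1
  obtain ⟨k, hk⟩ := IsPGroup.iff_card.mp hK₁
  have h3 : orderOf a ∣ p ^ k := by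
    rw [← hk]
    exact Subgroup.orderOf_dvd_natCard _ ha
  have h4 : orderOf a ∣ m := orderOf_dvd_of_pow_eq_one h1
  have hmc : m.Coprime p := by
    rw [hm]
    refine Nat.Coprime.mul_left hc ?_
    exact Nat.Coprime.coprime_dvd_left (Subgroup.orderOf_dvd_natCard _ hb) hK₂
  have h5 : orderOf a = 1 := Nat.eq_one_of_dvd_coprimes (Nat.Coprime.pow_right k hmc) h4 h3
  rw [orderOf_eq_one_iff.mp h5, one_mul]
  exact hb

/-- A `p`-element of a product `K₁ K₂` of a commuting `p`-group and `p'`-group lies in `K₁`. -/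
theorem mem_left_of_pElement {K₁ K₂ : Subgroup G} {p : ℕ} [hp : Fact p.Prime] (hK₁ : IsPGroup p K₁)
    (hK₂ : (Nat.card K₂).Coprime p)
    (hcomm : ∀ x ∈ K₁, ∀ y ∈ K₂, x * y = y * x) {x : G} (hx : x ∈ K₁ ⊔ K₂)
    {e : ℕ} (hc : x ^ p ^ e = 1) : x ∈ K₁ := by
  obtain ⟨a, ha, b, hb, rfl⟩ := exists_mul_of_mem_sup_of_commute hcomm hx
  have hcab : Commute a b := hcomm a ha b hb
  obtain ⟨k, hk⟩ := IsPGroup.iff_card.mp hK₁
  have h3 : a ^ p ^ k = 1 := by
    rw [← hk]
    have := pow_card_eq_one' (x := (⟨a, ha⟩ : K₁))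
    exact congrArg Subtype.val this
  have h1 : (a * b) ^ (p ^ e * p ^ k) = 1 := by
    rw [pow_mul, hc, one_pow]
  have h2 : a ^ (p ^ e * p ^ k) = 1 := by
    rw [mul_comm, pow_mul, h3, one_pow]
  rw [hcab.mul_pow, h2, one_mul] at h1
  have h4 : orderOf b ∣ p ^ (e + k) := by
    rw [pow_add]
    exact orderOf_dvd_of_pow_eq_one h1
  have h5 : orderOf b ∣ Nat.card K₂ := Subgroup.orderOf_dvd_natCard _ hb
  have h6 : orderOf b = 1 := Nat.eq_one_of_dvd_coprimes (Nat.Coprime.pow_right (e + k) hK₂) h5 h4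
  rw [orderOf_eq_one_iff.mp h6, mul_one]
  exact ha

/-- A subgroup which normalizes `H₁`, `Q` normalizes their join. -/
theorem mem_normalizer_sup {A B : Subgroup G} {x : G} (hA : x ∈ normalizer (A : Set G))
    (hB : x ∈ normalizer (B : Set G)) : x ∈ normalizer ((A ⊔ B : Subgroup G) : Set G) := by
  apply mem_normalizer_of_conj_smul_eq
  rw [conj_smul_sup, conj_smul_le_of_normalizer hA, conj_smul_le_of_normalizer hB]

/-- A subgroup which normalizes `A`, `B` normalizes their meet. -/
theorem mem_normalizer_inf' {A B : Subgroup G} {x : G} (hA : x ∈ normalizer (A : Set G))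
    (hB : x ∈ normalizer (B : Set G)) : x ∈ normalizer ((A ⊓ B : Subgroup G) : Set G) := by
  apply mem_normalizer_of_conj_smul_eq
  rw [conj_smul_inf, conj_smul_le_of_normalizer hA, conj_smul_le_of_normalizer hB]

theorem lt_normalizer_of_isNilpotent {H : Subgroup G} (hG : Group.IsNilpotent G) (hne : H ≠ ⊤) :
    H < normalizer (H : Set G) :=
  lt_normalizer_of_isSubnormal (isSubnormal_of_isNilpotent H) hne

end decomp

section carter

variable [Finite G]

set_option linter.unusedSectionVars false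

theorem isCarter_conj {C : Subgroup G} (hC : IsCarterSubgroup C) (g : G) :
    IsCarterSubgroup (MulAut.conj g • C) := by
  refine ⟨isNilpotent_conj_smul hC.1 g, le_antisymm ?_ Subgroup.le_normalizer⟩
  intro x hx
  have h1 := conj_smul_le_of_normalizer hx
  have h2 : g⁻¹ * x * g ∈ normalizer (C : Set G) := by
    apply mem_normalizer_of_conj_smul_eq
    rw [conj_smul_mul, conj_smul_mul, h1, conj_inv_smul_conj]
  rw [hC.2] at h2
  exact mem_conj_smul.mpr h2

theorem isCarter_subgroupOf {C K : Subgroup G} (hC : IsCarterSubgroup C) (hCK : C ≤ K) :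
    IsCarterSubgroup (C.subgroupOf K) := by
  refine ⟨isNilpotent_subgroupOf_of_le hCK hC.1, le_antisymm ?_ Subgroup.le_normalizer⟩
  intro x hx
  have h1 : (x : G) ∈ normalizer (C : Set G) := by
    apply mem_normalizer_of_conj_smul_eq
    have h2 := conj_smul_le_of_normalizer hx
    have h3 := congrArg (Subgroup.map K.subtype) h2
    rw [map_conj_smul, Subgroup.map_subgroupOf_eq_of_le hCK] at h3
    exact h3
  rw [hC.2] at h1
  exact h1

/-- The key lemma for normal `p`-subgroups. -/
theorem normalizer_sup_le_of_pGroup [Group.IsSolvable G] {H N : Subgroup G} (hH : IsCarterSubgroup H)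
    [hNn : N.Normal] {p : ℕ} [hp : Fact p.Prime] (hNp : IsPGroup p N) :
    normalizer ((H ⊔ N : Subgroup G) : Set G) ≤ H ⊔ N := by
  classical
  obtain ⟨hnil, hself⟩ := hH
  obtain ⟨H₁, Q, hH₁, hQ, hsup, hH₁p, hQc, hcard, hcomm⟩ := exists_nilpotent_decomp hnil p
  set L : Subgroup G := H ⊔ N with hL
  intro x hx
  have hHL : H ≤ L := le_sup_left
  have hNL : N ≤ L := le_sup_right
  have hQL : Q ≤ L := hQ.trans hHL
  -- `p'`-elements of `L` lie in `Q N`
  have hRmem : ∀ y ∈ L, (orderOf y).Coprime p → y ∈ Q ⊔ N := by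
    intro y hy hyc
    rw [hL, Subgroup.mem_sup_of_normal_right] at hy
    obtain ⟨h, hh, n, hn, rfl⟩ := hy
    rw [← hsup] at hh
    obtain ⟨h₁, hh₁, q₁, hq₁, rfl⟩ := exists_mul_of_mem_sup_of_commute hcomm hh
    have hc1 : Commute h₁ q₁ := hcomm h₁ hh₁ q₁ hq₁
    have hq₁c : (orderOf q₁).Coprime p :=
      Nat.Coprime.coprime_dvd_left (Subgroup.orderOf_dvd_natCard _ hq₁) hQc
    set m := orderOf (h₁ * q₁ * n) * orderOf q₁ with hm
    have hmc : m.Coprime p := Nat.Coprime.mul_left hyc hq₁c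
    have h1 : ((h₁ * q₁ * n : G) : G ⧸ N) ^ m = 1 := by
      rw [← QuotientGroup.mk_pow, hm, pow_mul, pow_orderOf_eq_one, one_pow]
      rfl
    have h2 : ((h₁ * q₁ * n : G) : G ⧸ N) = ((h₁ * q₁ : G) : G ⧸ N) := by
      rw [QuotientGroup.mk_mul, (QuotientGroup.eq_one_iff n).mpr hn, mul_one]
    rw [h2, ← QuotientGroup.mk_pow, hc1.mul_pow] at h1
    have h3 : q₁ ^ m = 1 := by
      rw [hm, mul_comm, pow_mul, pow_orderOf_eq_one, one_pow]
    rw [h3, mul_one, QuotientGroup.eq_one_iff] at h1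
    obtain ⟨k, hk⟩ := IsPGroup.iff_card.mp hH₁p
    have h4 : orderOf h₁ ∣ p ^ k := by
      rw [← hk]
      exact Subgroup.orderOf_dvd_natCard _ hh₁
    have h5 : m.Coprime (orderOf h₁) := Nat.Coprime.coprime_dvd_right h4 (Nat.Coprime.pow_right k hmc)
    obtain ⟨l, hl⟩ := exists_pow_eq_self_of_coprime h5
    have h6 : h₁ ∈ N := by
      rw [← hl]
      exact N.pow_mem h1 l
    have h7 : h₁ * q₁ = q₁ * h₁ := hc1
    rw [h7, mul_assoc]
    refine Subgroup.mul_mem_sup hq₁ (N.mul_mem h6 hn)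
  -- the conjugate of `Q`
  set Q' : Subgroup G := MulAut.conj x • Q with hQ'
  set R : Subgroup G := Q ⊔ N with hR
  have hxL : ∀ y ∈ L, x * y * x⁻¹ ∈ L := fun y hy => (Subgroup.mem_normalizer_iff.mp hx y).mp hy
  have hQ'R : Q' ≤ R := by
    intro y hy
    rw [hQ', mem_conj_smul] at hy
    have h1 : y = x * (x⁻¹ * y * x) * x⁻¹ := by group
    have h2 : y ∈ L := by
      rw [h1]
      exact hxL _ (hQL hy)
    refine hRmem y h2 ?_
    have h3 : orderOf y = orderOf (x⁻¹ * y * x) := by
      have := MulEquiv.orderOf_eq (MulAut.conj x⁻¹) y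
      rw [← this]
      simp [MulAut.conj_apply]
    rw [h3]
    exact Nat.Coprime.coprime_dvd_left (Subgroup.orderOf_dvd_natCard _ hy) hQc
  have hQR : Q ≤ R := le_sup_left
  have hcopQN : (Nat.card Q).Coprime (Nat.card N) := by
    obtain ⟨k, hk⟩ := IsPGroup.iff_card.mp hNp
    rw [hk]
    exact Nat.Coprime.pow_right k hQc
  have hperm : (Q : Set G) * N = N * Q := by
    rw [← Subgroup.mul_normal, ← Subgroup.normal_mul, sup_comm]
  have hRcard : Nat.card R = Nat.card Q * Nat.card N := card_sup_of_permute_of_coprime hperm hcopQN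
  have hidx : (Q.subgroupOf R).index = Nat.card N := by
    have h1 := Subgroup.card_mul_index (Q.subgroupOf R)
    rw [card_subgroupOf_of_le hQR, hRcard] at h1
    exact Nat.eq_of_mul_eq_mul_left Nat.card_pos h1
  obtain ⟨r, hr⟩ := hall_conj (Q'.subgroupOf R) (Q.subgroupOf R)
    (by
      rw [card_subgroupOf_of_le hQ'R, hQ', card_conj_smul]
      have h1 := Subgroup.card_mul_index (Q'.subgroupOf R)
      rw [card_subgroupOf_of_le hQ'R, hQ', card_conj_smul, hRcard] at h1
      have h2 := Nat.eq_of_mul_eq_mul_left Nat.card_pos h1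
      rw [h2]
      exact hcopQN)
    (by rw [card_subgroupOf_of_le hQ'R, card_subgroupOf_of_le hQR, hQ', card_conj_smul])
  have hconj := conj_smul_of_subgroupOf hQ'R hQR r hr
  have hrmem : (r : G) ∈ Q ⊔ N := r.2
  rw [Subgroup.mem_sup_of_normal_right] at hrmem
  obtain ⟨q₀, hq₀, n₀, hn₀, hqn⟩ := hrmem
  have hqself : MulAut.conj q₀⁻¹ • Q = Q :=
    conj_smul_le_of_normalizer (Subgroup.le_normalizer (Q.inv_mem hq₀))
  have hnQ' : MulAut.conj n₀ • Q' = Q := by
    rw [← hqn, conj_smul_mul] at hconj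
    have h1 := congrArg (fun S => MulAut.conj q₀⁻¹ • S) hconj
    simp only [conj_inv_smul_conj] at h1
    rw [h1, hqself]
  set y : G := n₀ * x with hy
  set M : Subgroup G := normalizer (Q : Set G) with hM
  have hyM : y ∈ M := by
    apply mem_normalizer_of_conj_smul_eq
    rw [hy, conj_smul_mul]
    exact hnQ'
  have hyL : y ∈ normalizer (L : Set G) :=
    Subgroup.mul_mem _ (Subgroup.le_normalizer (hNL hn₀)) hx
  -- `H ≤ M`
  have hH₁M : H₁ ≤ M := fun h hh => mem_normalizer_of_commute_all fun q hq => hcomm h hh q hq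
  have hHM : H ≤ M := by
    rw [← hsup]
    exact sup_le hH₁M Subgroup.le_normalizer
  -- `D = N ∩ M`
  set D : Subgroup G := N ⊓ M with hD
  have hDp : IsPGroup p D := hNp.to_le inf_le_left
  have hQNdisj : Disjoint Q N := Subgroup.disjoint_of_coprime_natCard hcopQN
  have hDQ : ∀ d ∈ D, ∀ q ∈ Q, d * q = q * d := by
    intro d hd q hq
    have h1 : d * q * d⁻¹ * q⁻¹ ∈ Q :=
      Q.mul_mem ((Subgroup.mem_normalizer_iff.mp hd.2 q).mp hq) (Q.inv_mem hq)
    have h2 : d * q * d⁻¹ * q⁻¹ ∈ N := by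
      have h3 : d * (q * d⁻¹ * q⁻¹) ∈ N := N.mul_mem hd.1 (hNn.conj_mem _ (N.inv_mem hd.1) q)
      convert h3 using 1
      group
    have h4 := Subgroup.disjoint_def.mp hQNdisj h1 h2
    rw [mul_inv_eq_one, mul_inv_eq_iff_eq_mul] at h4
    exact h4
  have hH₁D : H₁ ≤ normalizer (D : Set G) := by
    intro h hh
    apply mem_normalizer_inf'
    · rw [Subgroup.normalizer_eq_top_iff.mpr hNn]
      trivial
    · exact Subgroup.le_normalizer (hH₁M hh)
  have hWp : IsPGroup p (H₁ ⊔ D : Subgroup G) := hH₁p.to_sup_of_normal_right' hDp hH₁D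
  set W : Subgroup G := H₁ ⊔ D with hW
  -- `D ≤ H₁`
  have hDH₁ : W ≤ H₁ := by
    by_contra hnot
    have hH₁W : H₁ ≤ W := le_sup_left
    have hne : H₁.subgroupOf W ≠ ⊤ := by
      intro h
      exact hnot (Subgroup.subgroupOf_eq_top.mp h)
    have hWnil : Group.IsNilpotent W := hWp.isNilpotent
    have hlt := lt_normalizer_of_isNilpotent hWnil hne
    obtain ⟨w, hw, hwn⟩ := SetLike.exists_of_lt hlt
    have hwH₁ : (w : G) ∈ normalizer (H₁ : Set G) := by
      apply mem_normalizer_of_conj_smul_eq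
      have h2 := conj_smul_le_of_normalizer hw
      have h3 := congrArg (Subgroup.map W.subtype) h2
      rw [map_conj_smul, Subgroup.map_subgroupOf_eq_of_le hH₁W] at h3
      exact h3
    have hWQ : W ≤ centralizer (Q : Set G) := by
      refine sup_le ?_ ?_
      · intro h hh
        exact Subgroup.mem_centralizer_iff.mpr fun q hq => (hcomm h hh q hq).symm
      · intro d hd
        exact Subgroup.mem_centralizer_iff.mpr fun q hq => (hDQ d hd q hq).symm
    have hwQ : (w : G) ∈ normalizer (Q : Set G) :=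
      mem_normalizer_of_commute_all fun q hq => (Subgroup.mem_centralizer_iff.mp (hWQ w.2) q hq).symm
    have hwH : (w : G) ∈ H := by
      rw [← hself, ← hsup]
      exact mem_normalizer_sup hwH₁ hwQ
    obtain ⟨e, he⟩ := hWp w
    have hwe : (w : G) ^ p ^ e = 1 := congrArg Subtype.val he
    have hwm := mem_left_of_pElement hH₁p hQc hcomm (hsup ▸ hwH) hwe
    exact hwn hwm
  have hDH : D ≤ H := by
    intro d hd
    exact hH₁ (hDH₁ (le_sup_right (a := H₁) hd))
  -- `L ∩ M = H`
  have hLM : L ⊓ M = H := by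
    refine le_antisymm ?_ (le_inf hHL hHM)
    rintro z ⟨hzL, hzM⟩
    have hzL' : z ∈ H ⊔ N := hzL
    rw [Subgroup.mem_sup_of_normal_right] at hzL'
    obtain ⟨h, hh, n, hn, rfl⟩ := hzL'
    have hnM : n ∈ M := by
      have : n = h⁻¹ * (h * n) := by group
      rw [this]
      exact M.mul_mem (M.inv_mem (hHM hh)) hzM
    exact H.mul_mem hh (hDH ⟨hn, hnM⟩)
  have hyH : y ∈ H := by
    rw [← hself, ← hLM]
    exact mem_normalizer_inf' hyL (Subgroup.le_normalizer hyM)
  have hxe : x = n₀⁻¹ * y := by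
    rw [hy]
    group
  rw [hxe]
  exact L.mul_mem (hNL (N.inv_mem hn₀)) (hHL hyH)

end carter

/-- The image of a Carter subgroup: normalizers of `H ⊔ N`. -/
theorem normalizer_sup_le.{u} : ∀ (n : ℕ) {G : Type u} [Group G] [Finite G] [Group.IsSolvable G]
    (H N : Subgroup G) [N.Normal], Nat.card G = n → IsCarterSubgroup H →
    normalizer ((H ⊔ N : Subgroup G) : Set G) ≤ H ⊔ N := by
  intro n
  induction n using Nat.strong_induction_on with
  | _ n ih =>
  intro G _ _ _ H N hNn hn hH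
  by_cases hNb : N = ⊥
  · rw [hNb, sup_bot_eq, hH.2]
  obtain ⟨M, hmin, hMN⟩ := exists_isMinNormal_le hNn hNb
  obtain ⟨hMn, hMb, -⟩ := id hmin
  haveI := hMn
  obtain ⟨-, p, hp, hMp⟩ := hmin.isPGroup
  haveI hfp : Fact p.Prime := ⟨hp⟩
  have h1 := normalizer_sup_le_of_pGroup hH hMp
  set π := QuotientGroup.mk' M with hπ
  have hπs : Function.Surjective π := QuotientGroup.mk'_surjective M
  have hlt : Nat.card (G ⧸ M) < n := by
    rw [← hn, ← Subgroup.index_eq_card]
    have h2 := Subgroup.card_mul_index M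
    have h3 : 1 < Nat.card M := by
      haveI := (Subgroup.nontrivial_iff_ne_bot M).mpr hMb
      exact Finite.one_lt_card
    have h4 : 0 < M.index := Nat.pos_of_ne_zero Subgroup.index_ne_zero_of_finite
    rw [← h2]
    nlinarith
  -- the image is Carter
  have hcom : ∀ {X : Subgroup G}, M ≤ X → (X.map π).comap π = X := by
    intro X hX
    rw [Subgroup.comap_map_eq, hπ, QuotientGroup.ker_mk']
    exact sup_eq_left.mpr hX
  have hCar : IsCarterSubgroup (H.map π) := by
    refine ⟨isNilpotent_map_of_isNilpotent π hH.1, le_antisymm ?_ Subgroup.le_normalizer⟩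
    intro y hy
    obtain ⟨x, rfl⟩ := hπs y
    have h2 : x ∈ normalizer (((H.map π).comap π : Subgroup G) : Set G) :=
      Subgroup.le_normalizer_comap π hy
    have h3 : (H.map π).comap π = H ⊔ M := by
      rw [Subgroup.comap_map_eq, hπ, QuotientGroup.ker_mk']
    rw [h3] at h2
    have h4 := h1 h2
    rw [← h3] at h4
    exact h4
  haveI hNbar : (N.map π).Normal := hNn.map π hπs
  have h2 := ih _ hlt (H.map π) (N.map π) rfl hCar
  intro x hx
  have h3 : π x ∈ normalizer (((H ⊔ N).map π : Subgroup (G ⧸ M)) : Set (G ⧸ M)) :=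
    Subgroup.le_normalizer_map π ⟨x, hx, rfl⟩
  rw [Subgroup.map_sup] at h3
  have h4 := h2 h3
  rw [← Subgroup.map_sup] at h4
  have hMle : M ≤ H ⊔ N := hMN.trans le_sup_right
  have h5 : x ∈ ((H ⊔ N).map π).comap π := h4
  rwa [hcom hMle] at h5

variable [Finite G] [Group.IsSolvable G]

/-- The image of a Carter subgroup under a surjection is Carter. -/
theorem isCarter_map {Q : Type*} [Group Q] (f : G →* Q) (hf : Function.Surjective f) {H : Subgroup G}
    (hH : IsCarterSubgroup H) : IsCarterSubgroup (H.map f) := by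
  refine ⟨isNilpotent_map_of_isNilpotent f hH.1, le_antisymm ?_ Subgroup.le_normalizer⟩
  intro y hy
  obtain ⟨x, rfl⟩ := hf y
  have h2 : x ∈ normalizer (((H.map f).comap f : Subgroup G) : Set G) :=
    Subgroup.le_normalizer_comap f hy
  have h3 : (H.map f).comap f = H ⊔ f.ker := Subgroup.comap_map_eq f H
  rw [h3] at h2
  have h4 := normalizer_sup_le _ H f.ker rfl hH h2
  rw [← h3] at h4
  exact h4

/-- Covering of nilpotent quotients. -/
theorem sup_ker_eq_top_of_isCarter {Q : Type*} [Group Q] (f : G →* Q) (hQ : Group.IsNilpotent Q)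
    {H : Subgroup G} (hH : IsCarterSubgroup H) : H ⊔ f.ker = ⊤ := by
  have hs : Function.Surjective f.rangeRestrict := f.rangeRestrict_surjective
  haveI : Finite f.range := Finite.of_surjective f.rangeRestrict hs
  have h1 := isCarter_map f.rangeRestrict hs hH
  have hnil : Group.IsNilpotent f.range := by
    haveI := hQ
    infer_instance
  have h2 : H.map f.rangeRestrict = ⊤ := by
    by_contra hne
    have h3 := lt_normalizer_of_isNilpotent hnil hne
    rw [h1.2] at h3
    exact lt_irrefl _ h3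
  have h3 : (H.map f.rangeRestrict).comap f.rangeRestrict = H ⊔ f.rangeRestrict.ker :=
    Subgroup.comap_map_eq _ H
  rw [h2, Subgroup.comap_top, MonoidHom.ker_rangeRestrict] at h3
  exact h3.symm

theorem isCarter_eq_top_of_isNilpotent {H : Subgroup G} (hH : IsCarterSubgroup H)
    (hG : Group.IsNilpotent G) : H = ⊤ := by
  by_contra hne
  have h3 := lt_normalizer_of_isNilpotent hG hne
  rw [hH.2] at h3
  exact lt_irrefl _ h3

end Cfsg.Agent.Lib.Basic
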