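import Cfsg.Agent.Lib.Basic.Carter1
import Cfsg.Agent.Lib.Coprime.Wielandt

/-!
# Carter subgroups: existence and conjugacy: S0045.
-/

set_option autoImplicit false

namespace Cfsg.Agent.Lib.Basic

open Subgroup Cfsg

open scoped Pointwise

variable {G : Type*} [Group G]

theorem mem_map_subtype_iff {U : Subgroup G} {C : Subgroup U} {y : U} : (y : G) ∈ C.map U.subtype ↔ y ∈ C := by
  constructor
  · rintro ⟨z, hz, e⟩
    have : z = y := Subtype.ext e
    exact this ▸ hz
  · intro h
    exact ⟨y, h, rfl⟩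

theorem isCarter_map_subtype {U : Subgroup G} {C₀ : Subgroup U} (hC₀ : IsCarterSubgroup C₀) [Finite G]
    (h : normalizer ((C₀.map U.subtype : Subgroup G) : Set G) ≤ U) : IsCarterSubgroup (C₀.map U.subtype) := by
  refine ⟨isNilpotent_map_of_isNilpotent _ hC₀.1, le_antisymm ?_ Subgroup.le_normalizer⟩
  intro x hx
  have hxU := h hx
  have h1 : (⟨x, hxU⟩ : U) ∈ normalizer (C₀ : Set U) := by
    refine Cfsg.Agent.Lib.Coprime.Wielandt.mem_normalizer_of_le_comap ?_
    intro c hc
    have h2 : (c : G) ∈ C₀.map U.subtype := mem_map_subtype_iff.mpr hc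
    have h3 := (Subgroup.mem_normalizer_iff.mp hx (c : G)).mp h2
    show (⟨x, hxU⟩ * c * (⟨x, hxU⟩ : U)⁻¹ : U) ∈ C₀
    exact mem_map_subtype_iff.mp h3
  rw [hC₀.2] at h1
  exact mem_map_subtype_iff.mpr h1

/-- The main case in the existence proof. -/
theorem exists_carter_of_nilpotent_quotient [Finite G] [Group.IsSolvable G] {N : Subgroup G}
    [hNn : N.Normal] {p : ℕ} [hp : Fact p.Prime] (hNp : IsPGroup p N) (hQ : Group.IsNilpotent (G ⧸ N))
    (ih : ∀ U : Subgroup G, U ≠ ⊤ → ∃ C₀ : Subgroup U, IsCarterSubgroup C₀) :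
    ∃ C : Subgroup G, IsCarterSubgroup C := by
  classical
  set π := QuotientGroup.mk' N with hπ
  have hπs : Function.Surjective π := QuotientGroup.mk'_surjective N
  have hnil_top : Group.IsNilpotent (⊤ : Subgroup (G ⧸ N)) :=
    Group.nilpotent_of_surjective (Subgroup.topEquiv (G := G ⧸ N)).symm.toMonoidHom
      (Subgroup.topEquiv (G := G ⧸ N)).symm.surjective
  obtain ⟨K₁, K₂, -, -, hsup, hK₁p, hK₂c, hKcard, hKcomm⟩ := exists_nilpotent_decomp hnil_top p
  haveI hK₂n : K₂.Normal := by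
    rw [← Subgroup.normalizer_eq_top_iff, eq_top_iff, ← hsup]
    refine sup_le (fun h hh => mem_normalizer_of_commute_all fun q hq => hKcomm h hh q hq) Subgroup.le_normalizer
  haveI hK₁n : K₁.Normal := by
    rw [← Subgroup.normalizer_eq_top_iff, eq_top_iff, ← hsup]
    exact sup_le Subgroup.le_normalizer (fun h hh => mem_normalizer_of_commute_all fun q hq => (hKcomm q hq h hh).symm)
  set R : Subgroup G := K₂.comap π with hR
  set P : Subgroup G := K₁.comap π with hP
  haveI hRn : R.Normal := hK₂n.comap π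
  haveI hPn : P.Normal := hK₁n.comap π
  have hNR : N ≤ R := fun x hx => by
    change π x ∈ K₂
    have : π x = 1 := (QuotientGroup.eq_one_iff x).mpr hx
    rw [this]
    exact K₂.one_mem
  have hNP : N ≤ P := fun x hx => by
    change π x ∈ K₁
    have : π x = 1 := (QuotientGroup.eq_one_iff x).mpr hx
    rw [this]
    exact K₁.one_mem
  have hRcard : Nat.card R = Nat.card N * Nat.card K₂ := card_comap_mk K₂
  have hPcard : Nat.card P = Nat.card N * Nat.card K₁ := card_comap_mk K₁
  obtain ⟨a, ha⟩ := IsPGroup.iff_card.mp hNp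
  obtain ⟨b, hb⟩ := IsPGroup.iff_card.mp hK₁p
  have hPp : IsPGroup p P := by
    refine IsPGroup.of_card (n := a + b) ?_
    rw [hPcard, ha, hb, pow_add]
  have hcop1 : (Nat.card K₂).Coprime (Nat.card N) := by
    rw [ha]
    exact Nat.Coprime.pow_right a hK₂c
  obtain ⟨T₀, hT₀⟩ := hall_exists _ (Nat.card K₂) (Nat.card N) rfl
    (by rw [hRcard, mul_comm]) hcop1
  set T : Subgroup G := T₀.map R.subtype with hT
  have hTR : T ≤ R := Subgroup.map_subtype_le _
  have hTcard : Nat.card T = Nat.card K₂ := by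
    rw [hT, Subgroup.card_map_of_injective R.subtype_injective, hT₀]
  have hTc : (Nat.card T).Coprime p := by rw [hTcard]; exact hK₂c
  have hTN : Disjoint T N := by
    refine Subgroup.disjoint_of_coprime_natCard ?_
    rw [ha]
    exact Nat.Coprime.pow_right a hTc
  have hTord : ∀ t ∈ T, (orderOf t).Coprime p := fun t ht =>
    Nat.Coprime.coprime_dvd_left (Subgroup.orderOf_dvd_natCard _ ht) hTc
  -- relative index
  have hTrel : T.relIndex R = Nat.card N := by
    have h1 := Subgroup.card_mul_index (T.subgroupOf R)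
    rw [card_subgroupOf_of_le hTR, hRcard, hTcard, mul_comm (Nat.card N)] at h1
    exact Nat.eq_of_mul_eq_mul_left Nat.card_pos h1
  have hTidx : T.index = Nat.card P := by
    have h1 := Subgroup.card_mul_index T
    have h2 : Nat.card G = Nat.card N * (Nat.card K₁ * Nat.card K₂) := by
      rw [hKcard, Nat.card_congr (Subgroup.topEquiv (G := G ⧸ N)).toEquiv, ← Subgroup.index_eq_card,
        mul_comm]
      exact (Subgroup.index_mul_card N).symm
    rw [h2, hTcard] at h1
    rw [hPcard]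
    refine Nat.eq_of_mul_eq_mul_left (Nat.card_pos (α := K₂)) ?_
    rw [h1]
    ring
  obtain ⟨c, hc⟩ := IsPGroup.iff_card.mp hPp
  -- Frattini
  set U : Subgroup G := normalizer (T : Set G) with hU
  have hfrat : R ⊔ U = ⊤ := by
    refine hall_frattini_argument R inferInstance T hTR ?_
    rw [hTrel, ha, hTcard]
    exact Nat.Coprime.pow_right a hK₂c
  have hTU : T ≤ U := Subgroup.le_normalizer
  by_cases hUtop : U = ⊤
  · -- `G` is nilpotent
    haveI hTn : T.Normal := Subgroup.normalizer_eq_top_iff.mp hUtop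
    have hsup2 : P ⊔ R = ⊤ := by
      rw [hP, hR, Subgroup.comap_sup_eq π K₁ K₂ hπs, hsup, Subgroup.comap_top]
    have hRle : R ≤ P ⊔ T := by
      intro x hx
      -- `R = T N`
      have hle : T ⊔ N ≤ R := sup_le hTR hNR
      have hcardsup : Nat.card ((T ⊔ N : Subgroup G)) = Nat.card T * Nat.card N := by
        refine card_sup_of_permute_of_coprime ?_ ?_
        · rw [← Subgroup.mul_normal, ← Subgroup.normal_mul, sup_comm]
        · rw [ha]
          exact Nat.Coprime.pow_right a hTc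
      have heq : T ⊔ N = R := by
        refine Subgroup.eq_of_le_of_card_ge hle ?_
        rw [hcardsup, hRcard, hTcard, mul_comm]
      rw [← heq] at hx
      exact (sup_le (le_sup_right : T ≤ P ⊔ T) (hNP.trans le_sup_left)) hx
    have hsup3 : P ⊔ T = ⊤ := by
      rw [eq_top_iff, ← hsup2]
      exact sup_le le_sup_left hRle
    have hTnil : Group.IsNilpotent T := by
      refine isNilpotent_of_injective' (π.comp T.subtype) ?_ hQ
      rw [injective_iff_map_eq_one]
      intro t ht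
      have h1 : (t : G) ∈ N := (QuotientGroup.eq_one_iff (t : G)).mp ht
      have h2 := Subgroup.disjoint_def.mp hTN t.2 h1
      exact Subtype.ext h2
    have hGnil : Group.IsNilpotent G := isNilpotent_of_sup_eq_top hPn hTn hPp.isNilpotent hTnil hsup3
    refine ⟨⊤, ?_, Subgroup.normalizer_eq_top_iff.mpr inferInstance⟩
    exact Group.nilpotent_of_surjective (Subgroup.topEquiv (G := G)).symm.toMonoidHom
      (Subgroup.topEquiv (G := G)).symm.surjective
  -- the proper case
  obtain ⟨C₀, hC₀⟩ := ih U hUtop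
  set C : Subgroup G := C₀.map U.subtype with hC
  have hCU : C ≤ U := Subgroup.map_subtype_le _
  have hCnil : Group.IsNilpotent C := isNilpotent_map_of_isNilpotent _ hC₀.1
  let f : U →* G ⧸ N := π.comp U.subtype
  have hcov := sup_ker_eq_top_of_isCarter f hQ hC₀
  have hfker : ∀ k : U, k ∈ f.ker ↔ (k : G) ∈ N := by
    intro k
    rw [MonoidHom.mem_ker]
    exact QuotientGroup.eq_one_iff (k : G)
  obtain ⟨C₁, C₂, hC₁C, hC₂C, hCsup, hC₁p, hC₂c, -, hCcomm⟩ := exists_nilpotent_decomp hCnil p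
  -- `C₂ ≤ T`
  haveI hT'n : (T.subgroupOf U).Normal := Subgroup.normal_in_normalizer
  have hC₂T : C₂ ≤ T := by
    intro x hx
    have hxU : x ∈ U := hCU (hC₂C hx)
    have h1 : ((⟨x, hxU⟩ : U) : U ⧸ T.subgroupOf U) ^ (T.subgroupOf U).index = 1 := by
      rw [Subgroup.index_eq_card]
      exact pow_card_eq_one'
    have h2 : ((⟨x, hxU⟩ : U) : U ⧸ T.subgroupOf U) ^ orderOf x = 1 := by
      rw [← QuotientGroup.mk_pow]
      have h3 : (⟨x, hxU⟩ : U) ^ orderOf x = 1 := Subtype.ext (pow_orderOf_eq_one x)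
      rw [h3]
      rfl
    have h4 : (T.subgroupOf U).index ∣ p ^ c := by
      rw [← hc, ← hTidx, ← Subgroup.relIndex_mul_index hTU]
      exact Dvd.intro _ rfl
    have h5 : (orderOf x).Coprime ((T.subgroupOf U).index) :=
      Nat.Coprime.coprime_dvd_right h4 (Nat.Coprime.pow_right c
        (Nat.Coprime.coprime_dvd_left (Subgroup.orderOf_dvd_natCard _ hx) hC₂c))
    have h6 := Nat.eq_one_of_dvd_coprimes h5 (orderOf_dvd_of_pow_eq_one h2) (orderOf_dvd_of_pow_eq_one h1)
    have h7 := orderOf_eq_one_iff.mp h6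
    have h8 : (⟨x, hxU⟩ : U) ∈ T.subgroupOf U := (QuotientGroup.eq_one_iff _).mp h7
    exact h8
  -- `T ≤ C₂`
  have hTC₂ : T ≤ C₂ := by
    intro t ht
    have htU : t ∈ U := hTU ht
    have h1 : (⟨t, htU⟩ : U) ∈ C₀ ⊔ f.ker := by rw [hcov]; trivial
    rw [Subgroup.mem_sup_of_normal_right] at h1
    obtain ⟨c₀, hc₀, k, hk, e⟩ := h1
    have e' : (c₀ : G) * k = t := congrArg Subtype.val e
    have hc₀C : (c₀ : G) ∈ C := mem_map_subtype_iff.mpr hc₀
    have hkN : (k : G) ∈ N := (hfker k).mp hk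
    rw [← hCsup] at hc₀C
    obtain ⟨c₁, hc₁, c₂, hc₂, e2⟩ := exists_mul_of_mem_sup_of_commute hCcomm hc₀C
    -- `k` commutes with `T`
    have hkT : ∀ s ∈ T, (k : G) * s = s * k := by
      intro s hs
      have h2 : (k : G) * s * (k : G)⁻¹ * s⁻¹ ∈ T :=
        T.mul_mem ((Subgroup.mem_normalizer_iff.mp k.2 s).mp hs) (T.inv_mem hs)
      have h3 : (k : G) * s * (k : G)⁻¹ * s⁻¹ ∈ N := by
        have h4 : (k : G) * (s * (k : G)⁻¹ * s⁻¹) ∈ N := N.mul_mem hkN (hNn.conj_mem _ (N.inv_mem hkN) s)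
        convert h4 using 1
        group
      have h4 := Subgroup.disjoint_def.mp hTN h2 h3
      rw [mul_inv_eq_one, mul_inv_eq_iff_eq_mul] at h4
      exact h4
    have hc₂T : c₂ ∈ T := hC₂T hc₂
    -- the `p`-group
    have hN₀U : ∀ u ∈ U, u ∈ normalizer ((N ⊓ U : Subgroup G) : Set G) := by
      intro u hu
      apply mem_normalizer_inf'
      · rw [Subgroup.normalizer_eq_top_iff.mpr hNn]
        trivial
      · exact Subgroup.le_normalizer hu
    have hWp : IsPGroup p (C₁ ⊔ (N ⊓ U) : Subgroup G) :=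
      hC₁p.to_sup_of_normal_right' (hNp.to_le inf_le_left) (fun u hu => hN₀U u (hCU (hC₁C hu)))
    have hw : c₁ * k ∈ (C₁ ⊔ (N ⊓ U) : Subgroup G) := Subgroup.mul_mem_sup hc₁ ⟨hkN, k.2⟩
    have hte : t * c₂⁻¹ = c₁ * k := by
      rw [← e', ← e2]
      have h2 := hkT c₂ hc₂T
      calc c₁ * c₂ * (k : G) * c₂⁻¹ = c₁ * ((c₂ * k) * c₂⁻¹) := by group
        _ = c₁ * ((k * c₂) * c₂⁻¹) := by rw [h2]
        _ = c₁ * k := by group
    have htT : t * c₂⁻¹ ∈ T := T.mul_mem ht (T.inv_mem hc₂T)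
    obtain ⟨e3, he3⟩ := hWp ⟨c₁ * k, hw⟩
    have he3' : (c₁ * (k : G)) ^ p ^ e3 = 1 := congrArg Subtype.val he3
    have h5 : orderOf (t * c₂⁻¹) = 1 := by
      rw [hte]
      have h6 := hTord _ (hte ▸ htT)
      exact Nat.eq_one_of_dvd_coprimes (Nat.Coprime.pow_right e3 h6) dvd_rfl (orderOf_dvd_of_pow_eq_one he3')
    have h6 := orderOf_eq_one_iff.mp h5
    rw [mul_inv_eq_one] at h6
    rw [h6]
    exact hc₂
  refine ⟨C, isCarter_map_subtype hC₀ ?_⟩
  -- the normalizer of `C` normalizes `T`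
  intro x hx
  refine Cfsg.Agent.Lib.Coprime.Wielandt.mem_normalizer_of_le_comap ?_
  intro t ht
  have h1 : t ∈ C := hC₂C (hTC₂ ht)
  have h2 : x * t * x⁻¹ ∈ C := (Subgroup.mem_normalizer_iff.mp hx t).mp h1
  have h3 : orderOf (x * t * x⁻¹) = orderOf t := by
    have := MulEquiv.orderOf_eq (MulAut.conj x) t
    simpa [MulAut.conj_apply] using this
  have h4 : (orderOf (x * t * x⁻¹)).Coprime p := by
    rw [h3]
    exact hTord t ht
  rw [← hCsup] at h2
  exact hC₂T (mem_right_of_coprime hC₁p hC₂c hCcomm h2 h4)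

/-- Existence of Carter subgroups. -/
theorem exists_carter.{u} : ∀ (n : ℕ) {G : Type u} [Group G] [Finite G] [Group.IsSolvable G],
    Nat.card G = n → ∃ C : Subgroup G, IsCarterSubgroup C := by
  intro n
  induction n using Nat.strong_induction_on with
  | _ n ih =>
  intro G _ _ _ hn
  by_cases hnt : Nontrivial G
  swap
  · rw [not_nontrivial_iff_subsingleton] at hnt
    refine ⟨⊤, ?_, Subgroup.normalizer_eq_top_iff.mpr inferInstance⟩
    infer_instance
  obtain ⟨N, hmin⟩ := exists_isMinNormal (G := G)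
  obtain ⟨hNn, hNb, -⟩ := id hmin
  haveI := hNn
  obtain ⟨-, p, hp, hNp⟩ := hmin.isPGroup
  haveI hfp : Fact p.Prime := ⟨hp⟩
  have hpropU : ∀ U : Subgroup G, U ≠ ⊤ → ∃ C₀ : Subgroup U, IsCarterSubgroup C₀ := by
    intro U hU
    refine ih (Nat.card U) ?_ rfl
    rw [← hn]
    refine lt_of_le_of_ne (Subgroup.card_le_card_group U) ?_
    intro he
    exact hU ((Subgroup.card_eq_iff_eq_top _).mp he)
  have hlt : Nat.card (G ⧸ N) < n := by
    rw [← hn, ← Subgroup.index_eq_card]
    have h2 := Subgroup.card_mul_index N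
    have h3 : 1 < Nat.card N := by
      haveI := (Subgroup.nontrivial_iff_ne_bot N).mpr hNb
      exact Finite.one_lt_card
    have h4 : 0 < N.index := Nat.pos_of_ne_zero Subgroup.index_ne_zero_of_finite
    rw [← h2]
    nlinarith
  obtain ⟨Kb, hKb⟩ := ih _ hlt (G := G ⧸ N) rfl
  set π := QuotientGroup.mk' N with hπ
  have hπs : Function.Surjective π := QuotientGroup.mk'_surjective N
  set K : Subgroup G := Kb.comap π with hK
  by_cases hKt : K = ⊤
  · -- nilpotent quotient
    have h1 : Kb = ⊤ := by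
      rw [eq_top_iff]
      intro y _
      obtain ⟨x, rfl⟩ := hπs y
      have : x ∈ K := by rw [hKt]; trivial
      exact this
    have hQ : Group.IsNilpotent (G ⧸ N) := by
      have h2 := hKb.1
      rw [h1] at h2
      haveI := h2
      exact Group.nilpotent_of_surjective (Subgroup.topEquiv (G := G ⧸ N)).toMonoidHom
        (Subgroup.topEquiv (G := G ⧸ N)).surjective
    exact exists_carter_of_nilpotent_quotient hNp hQ hpropU
  -- proper preimage
  obtain ⟨C₀, hC₀⟩ := hpropU K hKt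
  -- `C N = K`
  let f : K →* Kb := (π.comp K.subtype).codRestrict Kb (fun x => x.2)
  have hQ : Group.IsNilpotent Kb := hKb.1
  have hcov := sup_ker_eq_top_of_isCarter f hQ hC₀
  have hfker : ∀ k : K, k ∈ f.ker ↔ (k : G) ∈ N := by
    intro k
    rw [MonoidHom.mem_ker]
    constructor
    · intro h
      have h2 : π (k : G) = 1 := congrArg Subtype.val h
      exact (QuotientGroup.eq_one_iff (k : G)).mp h2
    · intro h
      apply Subtype.ext
      exact (QuotientGroup.eq_one_iff (k : G)).mpr h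
  refine ⟨C₀.map K.subtype, isCarter_map_subtype hC₀ ?_⟩
  intro x hx
  -- `x` normalizes `K`
  have hxK : x ∈ normalizer (K : Set G) := by
    refine Cfsg.Agent.Lib.Coprime.Wielandt.mem_normalizer_of_le_comap ?_
    intro k hk
    have h1 : (⟨k, hk⟩ : K) ∈ C₀ ⊔ f.ker := by rw [hcov]; trivial
    rw [Subgroup.mem_sup_of_normal_right] at h1
    obtain ⟨c₀, hc₀, l, hl, e⟩ := h1
    have e' : (c₀ : G) * l = k := congrArg Subtype.val e
    have h2 : x * (c₀ : G) * x⁻¹ ∈ C₀.map K.subtype :=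
      (Subgroup.mem_normalizer_iff.mp hx _).mp (mem_map_subtype_iff.mpr hc₀)
    have h3 : x * (l : G) * x⁻¹ ∈ N := hNn.conj_mem _ ((hfker l).mp hl) x
    have hNK : N ≤ K := fun y hy => by
      change π y ∈ Kb
      have : π y = 1 := (QuotientGroup.eq_one_iff y).mpr hy
      rw [this]
      exact Kb.one_mem
    have h4 : x * k * x⁻¹ = (x * (c₀ : G) * x⁻¹) * (x * (l : G) * x⁻¹) := by
      rw [← e']
      group
    show x * k * x⁻¹ ∈ K
    rw [h4]
    exact K.mul_mem (Subgroup.map_subtype_le _ h2) (hNK h3)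
  have h1 : π x ∈ normalizer (Kb : Set (G ⧸ N)) := by
    refine Cfsg.Agent.Lib.Coprime.Wielandt.mem_normalizer_of_le_comap ?_
    intro y hy
    obtain ⟨z, rfl⟩ := hπs y
    have h2 : x * z * x⁻¹ ∈ K := (Subgroup.mem_normalizer_iff.mp hxK z).mp hy
    have h3 : π (x * z * x⁻¹) ∈ Kb := h2
    rw [map_mul, map_mul, map_inv] at h3
    exact h3
  rw [hKb.2] at h1
  exact h1


/-- If `X M = G` with `M` normal, then `|G : X|` divides `|M|`. -/
theorem index_dvd_card_of_sup_eq_top [Finite G] {X M : Subgroup G} [hM : M.Normal] (h : X ⊔ M = ⊤) :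
    X.index ∣ Nat.card M := by
  have h1 : M.index = M.relIndex X := by
    rw [← Subgroup.relIndex_top_right, ← h, sup_comm]
    exact Subgroup.relIndex_sup_left X M
  have h2 := Subgroup.card_mul_index M
  have h3 := Subgroup.card_mul_index (M.subgroupOf X)
  have h4 := Subgroup.card_mul_index X
  have hr : M.relIndex X = (M.subgroupOf X).index := rfl
  rw [h1, hr] at h2
  rw [← h3, ← h2] at h4
  have h5 : (M.subgroupOf X).index ≠ 0 := Subgroup.index_ne_zero_of_finite
  have h6 : Nat.card (M.subgroupOf X) * X.index = Nat.card M := by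
    refine Nat.eq_of_mul_eq_mul_right (Nat.pos_of_ne_zero h5) ?_
    rw [← h4]
    ring
  exact Dvd.intro_left _ h6

/-- Uniqueness of the `p'`-part. -/
theorem card_eq_of_hall_parts {a b i j p : ℕ} (hp : p.Prime) (ha : a.Coprime p) (hb : b.Coprime p)
    (hi : ∃ k, i = p ^ k) (hj : ∃ k, j = p ^ k) (h : a * i = b * j) : a = b := by
  obtain ⟨k, rfl⟩ := hi
  obtain ⟨l, rfl⟩ := hj
  refine Nat.dvd_antisymm ?_ ?_
  · exact (Nat.Coprime.pow_right l ha).dvd_of_dvd_mul_right (Dvd.intro _ h)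
  · exact (Nat.Coprime.pow_right k hb).dvd_of_dvd_mul_right (Dvd.intro _ h.symm)

/-- Conjugacy of Carter subgroups. -/
theorem carter_conj.{u} : ∀ (n : ℕ) {G : Type u} [Group G] [Finite G] [Group.IsSolvable G],
    Nat.card G = n → ∀ C D : Subgroup G, IsCarterSubgroup C → IsCarterSubgroup D →
    ∃ g : G, MulAut.conj g • C = D := by
  intro n
  induction n using Nat.strong_induction_on with
  | _ n ih =>
  intro G _ _ _ hn C D hC hD
  classical
  by_cases hnt : Nontrivial G
  swap
  · rw [not_nontrivial_iff_subsingleton] at hnt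
    exact ⟨1, Subsingleton.elim _ _⟩
  -- proper subgroups
  have hprop : ∀ U : Subgroup G, U ≠ ⊤ → ∀ C D : Subgroup G, IsCarterSubgroup C → IsCarterSubgroup D →
      C ≤ U → D ≤ U → ∃ g : G, MulAut.conj g • C = D := by
    intro U hU C D hC hD hCU hDU
    have hlt : Nat.card U < n := by
      rw [← hn]
      refine lt_of_le_of_ne (Subgroup.card_le_card_group U) ?_
      intro he
      exact hU ((Subgroup.card_eq_iff_eq_top _).mp he)
    obtain ⟨c, hc⟩ := ih _ hlt (G := U) rfl (C.subgroupOf U) (D.subgroupOf U)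
      (isCarter_subgroupOf hC hCU) (isCarter_subgroupOf hD hDU)
    exact ⟨c, conj_smul_of_subgroupOf hCU hDU c hc⟩
  -- quotients
  have hquot : ∀ (M : Subgroup G) [M.Normal], M ≠ ⊥ → ∀ C D : Subgroup G, IsCarterSubgroup C →
      IsCarterSubgroup D → ∃ g : G, MulAut.conj g • (C ⊔ M) = D ⊔ M := by
    intro M hMn hMb C D hC hD
    set π := QuotientGroup.mk' M with hπ
    have hπs : Function.Surjective π := QuotientGroup.mk'_surjective M
    have hlt : Nat.card (G ⧸ M) < n := by
      rw [← hn, ← Subgroup.index_eq_card]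
      have h2 := Subgroup.card_mul_index M
      have h3 : 1 < Nat.card M := by
        haveI := (Subgroup.nontrivial_iff_ne_bot M).mpr hMb
        exact Finite.one_lt_card
      have h4 : 0 < M.index := Nat.pos_of_ne_zero Subgroup.index_ne_zero_of_finite
      rw [← h2]
      nlinarith
    obtain ⟨gb, hgb⟩ := ih _ hlt (G := G ⧸ M) rfl (C.map π) (D.map π)
      (isCarter_map π hπs hC) (isCarter_map π hπs hD)
    obtain ⟨g, rfl⟩ := hπs gb
    refine ⟨g, ?_⟩
    have h1 := congrArg (Subgroup.comap π) hgb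
    rw [comap_conj_smul, Subgroup.comap_map_eq, Subgroup.comap_map_eq, hπ, QuotientGroup.ker_mk'] at h1
    exact h1
  obtain ⟨N, hmin⟩ := exists_isMinNormal (G := G)
  obtain ⟨hNn, hNb, -⟩ := id hmin
  haveI := hNn
  obtain ⟨-, p, hp, hNp⟩ := hmin.isPGroup
  haveI hfp : Fact p.Prime := ⟨hp⟩
  obtain ⟨g, hg⟩ := hquot N hNb C D hC hD
  set C' : Subgroup G := MulAut.conj g • C with hC'def
  have hC' : IsCarterSubgroup C' := isCarter_conj hC g
  have hconjN : MulAut.conj g • N = N :=
    conj_smul_le_of_normalizer (by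
      rw [Subgroup.normalizer_eq_top_iff.mpr hNn]
      trivial)
  have hg' : C' ⊔ N = D ⊔ N := by
    rw [← hg, conj_smul_sup, hconjN]
  suffices hsuff : ∃ h : G, MulAut.conj h • C' = D by
    obtain ⟨h, hh⟩ := hsuff
    exact ⟨h * g, by rw [conj_smul_mul]; exact hh⟩
  by_cases hK : D ⊔ N = ⊤
  swap
  · exact hprop _ hK C' D hC' hD (le_sup_left.trans hg'.le) le_sup_left
  have hC'N : C' ⊔ N = ⊤ := hg'.trans hK
  obtain ⟨C₁, C₂, hC₁C, hC₂C, hCsup, hC₁p, hC₂c, hCcard, hCcomm⟩ := exists_nilpotent_decomp hC'.1 p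
  obtain ⟨D₁, D₂, hD₁D, hD₂D, hDsup, hD₁p, hD₂c, hDcard, hDcomm⟩ := exists_nilpotent_decomp hD.1 p
  obtain ⟨a, ha⟩ := IsPGroup.iff_card.mp hNp
  -- indices are powers of `p`
  have hidx : ∀ {X X₁ X₂ : Subgroup G}, X ⊔ N = ⊤ → IsPGroup p X₁ → X₂ ≤ X →
      Nat.card X₁ * Nat.card X₂ = Nat.card X → ∃ k, X₂.index = p ^ k := by
    intro X X₁ X₂ hX hX₁ hX₂ hcard
    obtain ⟨b, hb⟩ := IsPGroup.iff_card.mp hX₁
    have h1 := index_dvd_card_of_sup_eq_top hX
    rw [ha] at h1
    obtain ⟨k, -, hk⟩ := (Nat.dvd_prime_pow hp).mp h1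
    refine ⟨b + k, ?_⟩
    have h2 := Subgroup.card_mul_index X₂
    have h3 := Subgroup.card_mul_index X
    rw [← h2, ← hcard, hb, hk] at h3
    have h4 : 0 < Nat.card X₂ := Nat.card_pos
    have h5 : Nat.card X₂ * (p ^ b * p ^ k) = Nat.card X₂ * X₂.index := by
      rw [← h3]
      ring
    rw [pow_add]
    exact (Nat.eq_of_mul_eq_mul_left h4 h5).symm
  obtain ⟨i, hi⟩ := hidx hC'N hC₁p hC₂C hCcard
  obtain ⟨j, hj⟩ := hidx hK hD₁p hD₂D hDcard
  have hcard2 : Nat.card C₂ = Nat.card D₂ := by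
    refine card_eq_of_hall_parts hp hC₂c hD₂c ⟨i, hi⟩ ⟨j, hj⟩ ?_
    rw [Subgroup.card_mul_index, Subgroup.card_mul_index]
  obtain ⟨y, hy⟩ := hall_conj C₂ D₂ (by rw [hi]; exact Nat.Coprime.pow_right i hC₂c) hcard2.symm
  set C'' : Subgroup G := MulAut.conj y • C' with hC''def
  have hC'' : IsCarterSubgroup C'' := isCarter_conj hC' y
  suffices hsuff2 : ∃ h : G, MulAut.conj h • C'' = D by
    obtain ⟨h, hh⟩ := hsuff2
    exact ⟨h * y, by rw [conj_smul_mul]; exact hh⟩
  have hTC'' : D₂ ≤ C'' := by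
    rw [← hy, hC''def]
    exact Subgroup.pointwise_smul_le_pointwise_smul_iff.mpr hC₂C
  have hC₂N : C' ≤ normalizer (C₂ : Set G) := by
    rw [← hCsup]
    exact sup_le (fun h hh => mem_normalizer_of_commute_all fun q hq => hCcomm h hh q hq)
      Subgroup.le_normalizer
  have hC''T : C'' ≤ normalizer (D₂ : Set G) := by
    intro x hx
    have hx' : y⁻¹ * x * y ∈ C' := mem_conj_smul.mp hx
    apply mem_normalizer_of_conj_smul_eq
    rw [← hy]
    have h1 : x * y = y * (y⁻¹ * x * y) := by group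
    rw [← conj_smul_mul, h1, conj_smul_mul, conj_smul_le_of_normalizer (hC₂N hx')]
  have hDT : D ≤ normalizer (D₂ : Set G) := by
    rw [← hDsup]
    exact sup_le (fun h hh => mem_normalizer_of_commute_all fun q hq => hDcomm h hh q hq)
      Subgroup.le_normalizer
  by_cases hU : normalizer (D₂ : Set G) = ⊤
  swap
  · exact hprop _ hU C'' D hC'' hD hC''T hDT
  haveI hTn : D₂.Normal := Subgroup.normalizer_eq_top_iff.mp hU
  by_cases hTb : D₂ = ⊥
  · -- `G` is a `p`-group
    have hDp : IsPGroup p D := by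
      have : D = D₁ := by
        rw [← hDsup, hTb, sup_bot_eq]
      rw [this]
      exact hD₁p
    have hGp : IsPGroup p (D ⊔ N : Subgroup G) := hDp.to_sup_of_normal_right hNp
    rw [hK] at hGp
    have hGnil : Group.IsNilpotent G := by
      have h1 : IsPGroup p G := by
        intro x
        obtain ⟨k, hk⟩ := hGp ⟨x, trivial⟩
        exact ⟨k, congrArg Subtype.val hk⟩
      exact h1.isNilpotent
    refine ⟨1, ?_⟩
    rw [conj_smul_one, isCarter_eq_top_of_isNilpotent hC'' hGnil, isCarter_eq_top_of_isNilpotent hD hGnil]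
  obtain ⟨l, hl⟩ := hquot D₂ hTb C'' D hC'' hD
  refine ⟨l, ?_⟩
  rwa [sup_eq_left.mpr hTC'', sup_eq_left.mpr hD₂D] at hl

end Cfsg.Agent.Lib.Basic
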