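import Cfsg.Agent.Lib.Transfer.Focal
import Cfsg.Agent.Lib.Basic.SchurZassenhaus

/-!
# S0557: iterated focal subgroups and normal complements.
-/

set_option autoImplicit false

namespace Cfsg.Agent.Lib.Basic

open Subgroup

open scoped commutatorElement

variable {G : Type*} [Group G]

theorem focalSubgroup_mono {A B : Subgroup G} (h : A ≤ B) : focalSubgroup A ≤ focalSubgroup B := by
  refine Subgroup.closure_mono ?_
  rintro g ⟨hg, x, hx, u, rfl⟩
  exact ⟨h hg, x, h hx, u, rfl⟩

theorem focal_iterate_mono (n : ℕ) {A B : Subgroup G} (h : A ≤ B) :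
    (fun K : Subgroup G => focalSubgroup K)^[n] A ≤ (fun K : Subgroup G => focalSubgroup K)^[n] B :=
  (Monotone.iterate (fun _ _ hab => focalSubgroup_mono hab) n) h

theorem map_focalSubgroup_le {T A : Subgroup G} :
    (focalSubgroup (A.subgroupOf T)).map T.subtype ≤ focalSubgroup A := by
  rw [focalSubgroup_def, MonoidHom.map_closure]
  refine Subgroup.closure_mono ?_
  rintro _ ⟨g, ⟨hg, x, hx, u, rfl⟩, rfl⟩
  exact ⟨hg, x, hx, u, rfl⟩

theorem map_focal_iterate_le (T : Subgroup G) (n : ℕ) : ∀ A : Subgroup G, A ≤ T →
    ((fun K : Subgroup T => focalSubgroup K)^[n] (A.subgroupOf T)).map T.subtype ≤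
      (fun K : Subgroup G => focalSubgroup K)^[n] A := by
  induction n with
  | zero =>
    intro A hA
    simp only [Function.iterate_zero, id_eq]
    rw [Subgroup.map_subgroupOf_eq_of_le hA]
  | succ n ih =>
    intro A hA
    rw [Function.iterate_succ_apply, Function.iterate_succ_apply]
    have hle : (focalSubgroup (A.subgroupOf T)).map T.subtype ≤ T := Subgroup.map_subtype_le _
    have he : focalSubgroup (A.subgroupOf T) =
        ((focalSubgroup (A.subgroupOf T)).map T.subtype).subgroupOf T := by
      exact (Subgroup.comap_map_eq_self_of_injective T.subtype_injective _).symm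
    rw [he]
    exact (ih _ hle).trans (focal_iterate_mono n map_focalSubgroup_le)

/-- **S0557**. -/
theorem exists_normal_complement_of_focal_iterate.{u} : ∀ (n : ℕ) {G : Type u} [Group G] [Finite G]
    (H : Subgroup G), (Nat.card H).Coprime H.index →
    (fun K : Subgroup G => focalSubgroup K)^[n] H = ⊥ → ∃ N : Subgroup G, N.Normal ∧ IsComplement' N H := by
  intro n
  induction n with
  | zero =>
    intro G _ _ H _ hfoc
    have hH : H = ⊥ := hfoc
    rw [hH]
    exact ⟨⊤, inferInstance, isComplement'_top_bot⟩
  | succ n ih =>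
    intro G _ _ H hHall hfoc
    rw [Function.iterate_succ_apply] at hfoc
    set H₁ : Subgroup G := focalSubgroup H with hH₁
    have hcop : Nat.Coprime H.index (Nat.card (H ⧸ H.focalSubgroupOf)) := by
      refine Nat.Coprime.coprime_dvd_right ?_ hHall.symm
      rw [← Subgroup.index_eq_card]
      exact Subgroup.index_dvd_card _
    obtain ⟨h1, h2⟩ := Cfsg.Agent.Lib.Transfer.focal_general H hcop
    set T : Subgroup G := H.transferFocal.ker with hT
    haveI hTn : T.Normal := MonoidHom.normal_ker _
    have h1' : T ⊓ H = H₁ := h1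
    have hH₁T : H₁ ≤ T := by
      rw [← h1']
      exact inf_le_left
    have hH₁H : H₁ ≤ H := H.focalSubgroup_le
    -- cardinalities
    have hcardH : Nat.card H = Nat.card H₁ * T.index := by
      have h3 : T.index = (T.subgroupOf H).index := by
        rw [← Subgroup.relIndex_top_right, ← h2]
        exact Subgroup.relIndex_sup_left H T
      have h4 : Nat.card (T.subgroupOf H) = Nat.card H₁ := by
        rw [← Subgroup.inf_subgroupOf_right, h1']
        exact card_subgroupOf_of_le hH₁H
      rw [h3, ← h4]
      exact (Subgroup.card_mul_index _).symm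
    have hcardT : Nat.card T = Nat.card H₁ * H.index := by
      have h3 := Subgroup.card_mul_index T
      have h4 := Subgroup.card_mul_index H
      rw [hcardH, ← h3] at h4
      have h5 : T.index ≠ 0 := Subgroup.index_ne_zero_of_finite
      refine Nat.eq_of_mul_eq_mul_right (Nat.pos_of_ne_zero h5) ?_
      rw [← h4]
      ring
    set H' : Subgroup T := H₁.subgroupOf T with hH'
    have hH'card : Nat.card H' = Nat.card H₁ := card_subgroupOf_of_le hH₁T
    have hH'idx : H'.index = H.index := by
      have h3 := Subgroup.card_mul_index H'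
      rw [hH'card, hcardT] at h3
      exact Nat.eq_of_mul_eq_mul_left Nat.card_pos h3
    have hH'Hall : (Nat.card H').Coprime H'.index := by
      rw [hH'card, hH'idx]
      exact Nat.Coprime.coprime_dvd_left (Subgroup.card_dvd_of_le hH₁H) hHall
    have hiter : (fun K : Subgroup T => focalSubgroup K)^[n] H' = ⊥ := by
      have h3 := map_focal_iterate_le T n H₁ hH₁T
      rw [hfoc, le_bot_iff, Subgroup.map_eq_bot_iff_of_injective _ T.subtype_injective] at h3
      exact h3
    obtain ⟨N₁, hN₁n, hc⟩ := ih H' hH'Hall hiter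
    set N : Subgroup G := N₁.map T.subtype with hN
    have hNcard : Nat.card N = H.index := by
      rw [hN, Subgroup.card_map_of_injective T.subtype_injective, ← hH'idx]
      exact hc.index_eq_card.symm
    have hN₁idx : N₁.index = Nat.card H' := hc.symm.index_eq_card
    have hNn : N.Normal := by
      constructor
      rintro _ ⟨x, hx, rfl⟩ g
      have hy : g * (x : G) * g⁻¹ ∈ T := hTn.conj_mem _ x.2 g
      have hpow : (⟨g * (x : G) * g⁻¹, hy⟩ : T) ^ Nat.card N₁ = 1 := by
        apply Subtype.ext
        have h3 : x ^ Nat.card N₁ = 1 := by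
          have := pow_card_eq_one' (x := (⟨x, hx⟩ : N₁))
          exact congrArg Subtype.val this
        have h4 : (x : G) ^ Nat.card N₁ = 1 := congrArg Subtype.val h3
        simp only [Subgroup.coe_pow, OneMemClass.coe_one]
        rw [conj_pow, h4]
        group
      have hmem : (⟨g * (x : G) * g⁻¹, hy⟩ : T) ∈ N₁ := by
        rw [← QuotientGroup.eq_one_iff]
        have h5 : ((⟨g * (x : G) * g⁻¹, hy⟩ : T) : T ⧸ N₁) ^ Nat.card N₁ = 1 := by
          rw [← QuotientGroup.mk_pow, hpow]
          rfl
        have h6 : ((⟨g * (x : G) * g⁻¹, hy⟩ : T) : T ⧸ N₁) ^ N₁.index = 1 := by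
          rw [Subgroup.index_eq_card]
          exact pow_card_eq_one'
        have h7 : Nat.Coprime (Nat.card N₁) N₁.index := by
          rw [hN₁idx, ← hc.index_eq_card]
          exact hH'Hall.symm
        have h8 := orderOf_dvd_of_pow_eq_one h5
        have h9 := orderOf_dvd_of_pow_eq_one h6
        exact orderOf_eq_one_iff.mp (Nat.eq_one_of_dvd_coprimes h7 h8 h9)
      exact ⟨_, hmem, rfl⟩
    refine ⟨N, hNn, isComplement'_of_card_mul_and_disjoint ?_ ?_⟩
    · rw [hNcard, mul_comm]
      exact Subgroup.card_mul_index H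
    · rw [Subgroup.disjoint_def]
      rintro _ ⟨x, hx, rfl⟩ hxH
      have h3 : (x : G) ∈ H₁ := by
        rw [← h1']
        exact ⟨x.2, hxH⟩
      have h4 : x ∈ H' := h3
      have h5 := Subgroup.disjoint_def.mp hc.disjoint hx h4
      rw [h5]
      rfl

end Cfsg.Agent.Lib.Basic
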