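/-
Dedekind-style elimination for a group `K` acting (commutatively) on an abelian group and a group `H`
acting without fixed points on `K`, and the fixed-point theorem for Frobenius groups acting
coprimely on an abelian group.
-/
import Mathlib
import Cfsg.Agent.Lib.Basic.Nilpotent

set_option autoImplicit false

namespace Cfsg.Agent.Lib.Basic

open Subgroup

section ring

variable {R F : Type*} [Ring R] [Group F] (ρ : F →* R) (K H : Subgroup F) [Fintype K] [Fintype H]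

/-- the "Dedekind multiplier" -/
noncomputable def dedU (h₀ h : F) : R :=
  ∑ k : K, ρ (k : F)⁻¹ * (ρ (h * k * h⁻¹) - ρ (h₀ * k * h₀⁻¹))

variable {ρ K H}

omit [Fintype H] in
theorem dedU_comm (hHK : ∀ h ∈ H, ∀ k ∈ K, h * k * h⁻¹ ∈ K)
    (hcomm : ∀ x ∈ K, ∀ y ∈ K, ρ x * ρ y = ρ y * ρ x) {h₀ h l : F} (hh₀ : h₀ ∈ H) (hh : h ∈ H)
    (hl : l ∈ K) : dedU ρ K h₀ h * ρ l = ρ l * dedU ρ K h₀ h := by
  unfold dedU
  rw [Finset.sum_mul, Finset.mul_sum]
  refine Finset.sum_congr rfl fun k _ => ?_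
  have h1 := hcomm _ (K.inv_mem k.2) _ hl
  have h2 := hcomm _ (hHK h hh k k.2) _ hl
  have h3 := hcomm _ (hHK h₀ hh₀ k k.2) _ hl
  rw [mul_assoc, sub_mul, h2, h3, ← mul_sub, ← mul_assoc, h1, mul_assoc]

omit [Fintype H] in
theorem dedU_self (h₀ : F) : dedU ρ K h₀ h₀ = 0 := by
  unfold dedU
  simp

omit [Fintype H] in
/-- The key computation. -/
theorem dedU_one (hHK : ∀ h ∈ H, ∀ k ∈ K, h * k * h⁻¹ ∈ K)
    (hfpf : ∀ h ∈ H, h ≠ 1 → ∀ k ∈ K, h * k * h⁻¹ = k → k = 1) {h₀ : F} (hh₀ : h₀ ∈ H) (hne : h₀ ≠ 1) :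
    dedU ρ K h₀ 1 = (Fintype.card K : R) - ∑ x : K, ρ (x : F) := by
  classical
  let θ : K → K := fun k => ⟨(k : F)⁻¹ * (h₀ * k * h₀⁻¹), K.mul_mem (K.inv_mem k.2) (hHK h₀ hh₀ k k.2)⟩
  have hθinj : Function.Injective θ := by
    intro a b hab
    have h1 : (a : F)⁻¹ * (h₀ * a * h₀⁻¹) = (b : F)⁻¹ * (h₀ * b * h₀⁻¹) := congrArg Subtype.val hab
    have h2 : h₀ * ((b : F) * (a : F)⁻¹) * h₀⁻¹ = (b : F) * (a : F)⁻¹ := by
      have h3 : h₀ * ((b : F) * (a : F)⁻¹) * h₀⁻¹ = (h₀ * b * h₀⁻¹) * (h₀ * a * h₀⁻¹)⁻¹ := by group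
      rw [h3]
      have h4 : h₀ * a * h₀⁻¹ = a * ((b : F)⁻¹ * (h₀ * b * h₀⁻¹)) := by
        rw [← h1]; group
      rw [h4]
      group
    have h5 := hfpf h₀ hh₀ hne _ (K.mul_mem b.2 (K.inv_mem a.2)) h2
    apply Subtype.ext
    rw [mul_inv_eq_one] at h5
    exact h5.symm
  have hθ : Function.Bijective θ := Finite.injective_iff_bijective.mp hθinj
  have hsum : ∑ k : K, ρ ((θ k : K) : F) = ∑ x : K, ρ (x : F) :=
    Function.Bijective.sum_comp hθ (fun x : K => ρ (x : F))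
  unfold dedU
  rw [← hsum, ← Finset.card_univ, ← nsmul_one, ← Finset.sum_const, ← Finset.sum_sub_distrib]
  refine Finset.sum_congr rfl fun k _ => ?_
  have h1 : ρ (k : F)⁻¹ * ρ (1 * (k : F) * 1⁻¹) = 1 := by
    rw [← map_mul]; simp
  rw [mul_sub, h1, ← map_mul]

omit [Fintype K] [Fintype H] in
theorem ded_alg (c a x r b : R) (h2 : a * r = r * b) (h3 : c * x = x * c) :
    c * (a - x) * r = c * r * b - x * (c * r) := by
  calc c * (a - x) * r = c * (a * r) - (c * x) * r := by noncomm_ring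
    _ = c * (r * b) - (x * c) * r := by rw [h2, h3]
    _ = c * r * b - x * (c * r) := by noncomm_ring

/-- Dedekind elimination. -/
theorem dedekind_elim [DecidableEq H] (hHK : ∀ h ∈ H, ∀ k ∈ K, h * k * h⁻¹ ∈ K)
    (hcomm : ∀ x ∈ K, ∀ y ∈ K, ρ x * ρ y = ρ y * ρ x)
    (hfpf : ∀ h ∈ H, h ≠ 1 → ∀ k ∈ K, h * k * h⁻¹ = k → k = 1)
    (E : R) (hEc : ∀ k ∈ K, ρ k * E = E * ρ k)
    (hNE : (∑ x : K, ρ (x : F)) * E = 0) (hT : (∑ h : H, ρ (h : F)) * E = 0) :
    ∃ m : ℕ, ((Fintype.card K : R)) ^ m * E = 0 := by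
  have key : ∀ W : Finset H, (1 : H) ∉ W → ∃ c : H → R,
      (∀ h, ∀ l ∈ K, c h * ρ l = ρ l * c h) ∧
      (∑ h ∈ Finset.univ \ W, c h * ρ (h : F)) * E = 0 ∧
      ∃ m : ℕ, c 1 * E = (Fintype.card K : R) ^ m * E := by
    intro W
    induction W using Finset.induction_on with
    | empty =>
      intro _
      refine ⟨fun _ => 1, fun _ _ _ => by simp, ?_, 0, by simp⟩
      simpa using hT
    | @insert h₀ W hh₀ ih =>
      intro h1
      have hne : h₀ ≠ 1 := fun h => h1 (h ▸ Finset.mem_insert_self _ _)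
      obtain ⟨c, hc1, hc2, m, hm⟩ := ih (fun h => h1 (Finset.mem_insert_of_mem h))
      have hne' : (h₀ : F) ≠ 1 := fun h => hne (Subtype.ext h)
      refine ⟨fun h => c h * dedU ρ K (h₀ : F) (h : F), ?_, ?_, m + 1, ?_⟩
      · intro h l hl
        rw [mul_assoc, dedU_comm hHK hcomm h₀.2 h.2 hl, ← mul_assoc, hc1 h l hl, mul_assoc]
      · have hS : Finset.univ \ insert h₀ W = (Finset.univ \ W).erase h₀ := by
          ext x
          simp only [Finset.mem_sdiff, Finset.mem_univ, true_and, Finset.mem_insert, Finset.mem_erase]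
          tauto
        rw [hS, Finset.sum_erase _ (by show c h₀ * dedU ρ K (h₀ : F) (h₀ : F) * ρ (h₀ : F) = 0; rw [dedU_self]; simp)]
        -- expand the multiplier
        have hexp : ∀ h : H, c h * dedU ρ K (h₀ : F) (h : F) * ρ (h : F) =
            ∑ k : K, ρ (k : F)⁻¹ * (c h * (ρ ((h : F) * k * (h : F)⁻¹) - ρ ((h₀ : F) * k * (h₀ : F)⁻¹)) * ρ (h : F)) := by
          intro h
          unfold dedU
          rw [Finset.mul_sum, Finset.sum_mul]
          refine Finset.sum_congr rfl fun k _ => ?_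
          have h2 := hc1 h _ (K.inv_mem k.2)
          rw [← mul_assoc (c h), h2]
          noncomm_ring
        rw [Finset.sum_congr rfl (fun h _ => hexp h), Finset.sum_comm, Finset.sum_mul]
        refine Finset.sum_eq_zero fun k _ => ?_
        rw [← Finset.mul_sum, mul_assoc]
        have hinner : (∑ h ∈ Finset.univ \ W, c h * (ρ ((h : F) * k * (h : F)⁻¹) - ρ ((h₀ : F) * k * (h₀ : F)⁻¹)) * ρ (h : F)) * E = 0 := by
          have e1 : ∀ h : H, c h * (ρ ((h : F) * k * (h : F)⁻¹) - ρ ((h₀ : F) * k * (h₀ : F)⁻¹)) * ρ (h : F) =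
              c h * ρ (h : F) * ρ (k : F) - ρ ((h₀ : F) * k * (h₀ : F)⁻¹) * (c h * ρ (h : F)) := by
            intro h
            have e2 : ρ ((h : F) * k * (h : F)⁻¹) * ρ (h : F) = ρ (h : F) * ρ (k : F) := by
              rw [← map_mul, ← map_mul]; group
            have e3 := hc1 h _ (hHK h₀ h₀.2 k k.2)
            exact ded_alg _ _ _ _ _ e2 e3
          rw [Finset.sum_congr rfl (fun h _ => e1 h), Finset.sum_sub_distrib, sub_mul, ← Finset.sum_mul,
            ← Finset.mul_sum, mul_assoc, hEc k k.2, ← mul_assoc, hc2, mul_assoc, hc2]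
          simp
        rw [hinner, mul_zero]
      · have h2 : dedU ρ K (h₀ : F) ((1 : H) : F) = (Fintype.card K : R) - ∑ x : K, ρ (x : F) :=
          dedU_one hHK hfpf h₀.2 hne'
        show c 1 * dedU ρ K (h₀ : F) ((1 : H) : F) * E = _
        rw [h2, mul_assoc, sub_mul, hNE, sub_zero]
        have h3 : (Fintype.card K : R) * E = E * (Fintype.card K : R) := by
          rw [Nat.cast_comm]
        rw [h3, ← mul_assoc, hm, pow_succ, mul_assoc, mul_assoc, h3]
  obtain ⟨c, -, hc2, m, hm⟩ := key (Finset.univ.erase 1) (by simp)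
  refine ⟨m, ?_⟩
  rw [← hm]
  have hS : Finset.univ \ (Finset.univ.erase (1 : H)) = {1} := by
    ext x
    simp only [Finset.mem_sdiff, Finset.mem_univ, true_and, Finset.mem_erase, Finset.mem_singleton]
    tauto
  rw [hS, Finset.sum_singleton] at hc2
  simpa using hc2

end ring

section action

variable {F A : Type*} [Group F] [Finite F] [AddCommGroup A] [Finite A]

omit [Group F] [Finite F] [Finite A] in
theorem eq_zero_of_nsmul_coprime {d : ℕ} (h : Nat.Coprime (Nat.card A) d) {b : A} (hb : d • b = 0) :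
    b = 0 := by
  have h1 : addOrderOf b ∣ d := addOrderOf_dvd_of_nsmul_eq_zero hb
  have h2 : addOrderOf b ∣ Nat.card A := addOrderOf_dvd_natCard b
  have h3 := Nat.eq_one_of_dvd_coprimes h h2 h1
  exact AddMonoid.addOrderOf_eq_one_iff.1 h3

/-- A commutatively acting `H`-invariant coprime subgroup acts trivially, if `H` has no fixed points. -/
theorem act_trivial_of_comm (ρ : F →* AddMonoid.End A) (K H : Subgroup F)
    (hHK : ∀ h ∈ H, ∀ k ∈ K, h * k * h⁻¹ ∈ K)
    (hcomm : ∀ x ∈ K, ∀ y ∈ K, ρ x * ρ y = ρ y * ρ x)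
    (hfpf : ∀ h ∈ H, h ≠ 1 → ∀ k ∈ K, h * k * h⁻¹ = k → k = 1)
    (hcop : Nat.Coprime (Nat.card A) (Nat.card K))
    (hHfix : ∀ a : A, (∀ h ∈ H, ρ h a = a) → a = 0) : ∀ k ∈ K, ∀ a : A, ρ k a = a := by
  classical
  haveI : Fintype K := Fintype.ofFinite _
  haveI : Fintype H := Fintype.ofFinite _
  obtain ⟨N, hN⟩ : ∃ N : AddMonoid.End A, N = ∑ x : K, ρ (x : F) := ⟨_, rfl⟩
  obtain ⟨n, hn⟩ : ∃ n : ℕ, n = Fintype.card K := ⟨_, rfl⟩
  have hnK : Nat.Coprime (Nat.card A) n := by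
    rw [hn, ← Nat.card_eq_fintype_card]; exact hcop
  have hρN : ∀ x ∈ K, ρ x * N = N := by
    intro x hx
    rw [hN, Finset.mul_sum]
    have h1 : ∀ y : K, ρ x * ρ (y : F) = ρ (((⟨x, hx⟩ : K) * y : K) : F) := by
      intro y
      rw [← map_mul]
      rfl
    rw [Finset.sum_congr rfl (fun y _ => h1 y)]
    exact Equiv.sum_comp (Equiv.mulLeft (⟨x, hx⟩ : K)) (fun y : K => ρ (y : F))
  have hNρ : ∀ x ∈ K, N * ρ x = N := by
    intro x hx
    rw [hN, Finset.sum_mul]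
    have h1 : ∀ y : K, ρ (y : F) * ρ x = ρ ((y * (⟨x, hx⟩ : K) : K) : F) := by
      intro y
      rw [← map_mul]
      rfl
    rw [Finset.sum_congr rfl (fun y _ => h1 y)]
    exact Equiv.sum_comp (Equiv.mulRight (⟨x, hx⟩ : K)) (fun y : K => ρ (y : F))
  have hNN : N * N = (n : AddMonoid.End A) * N := by
    nth_rw 1 [hN]
    rw [Finset.sum_mul, Finset.sum_congr rfl (fun (y : K) _ => hρN (y : F) y.2), Finset.sum_const,
      Finset.card_univ, ← hn, nsmul_eq_mul]
  obtain ⟨E, hE⟩ : ∃ E : AddMonoid.End A, E = (n : AddMonoid.End A) - N := ⟨_, rfl⟩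
  have hNE : N * E = 0 := by
    rw [hE, mul_sub, hNN, Nat.cast_comm, sub_self]
  have hEc : ∀ k ∈ K, ρ k * E = E * ρ k := by
    intro k hk
    rw [hE, mul_sub, sub_mul, hρN k hk, hNρ k hk, Nat.cast_comm]
  have hT : (∑ h : H, ρ (h : F)) = 0 := by
    ext a
    apply hHfix
    intro g hg
    have h1 : ρ g * (∑ h : H, ρ (h : F)) = ∑ h : H, ρ (h : F) := by
      rw [Finset.mul_sum]
      have h1 : ∀ y : H, ρ g * ρ (y : F) = ρ (((⟨g, hg⟩ : H) * y : H) : F) := by
        intro y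
        rw [← map_mul]
        rfl
      rw [Finset.sum_congr rfl (fun y _ => h1 y)]
      exact Equiv.sum_comp (Equiv.mulLeft (⟨g, hg⟩ : H)) (fun y : H => ρ (y : F))
    exact congrArg (fun f : AddMonoid.End A => f a) h1
  obtain ⟨m, hm⟩ := dedekind_elim hHK hcomm hfpf E hEc (hN ▸ hNE) (by rw [hT, zero_mul])
  rw [← hn] at hm
  have hEa : ∀ a : A, E a = 0 := by
    intro a
    have h1 : (((n : AddMonoid.End A) ^ m * E) a) = 0 := by
      rw [hm]; rfl
    rw [← Nat.cast_pow] at h1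
    have h2 : (((n ^ m : ℕ) : AddMonoid.End A) * E) a = (n ^ m) • E a := by
      show ((n ^ m : ℕ) : AddMonoid.End A) (E a) = _
      rw [AddMonoid.End.natCast_apply]
    rw [h2] at h1
    exact eq_zero_of_nsmul_coprime (hnK.pow_right m) h1
  have hna : ∀ a : A, n • a = N a := by
    intro a
    have h1 : (n : AddMonoid.End A) a - N a = 0 := by
      rw [← hEa a, hE]; rfl
    rw [AddMonoid.End.natCast_apply] at h1
    exact sub_eq_zero.1 h1
  intro k hk a
  have h2 : n • (ρ k a - a) = 0 := by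
    rw [nsmul_sub, ← map_nsmul, hna a]
    have h3 : ρ k (N a) = N a := by
      have := congrArg (fun f : AddMonoid.End A => f a) (hρN k hk)
      exact this
    rw [h3, sub_self]
  exact sub_eq_zero.1 (eq_zero_of_nsmul_coprime hnK h2)

/-- The fixed-point theorem for a nilpotent `K` with a fixed-point-free `H`. -/
theorem frob_fix_core (ρ : F →* AddMonoid.End A) (K H : Subgroup F) (hnil : Group.IsNilpotent K)
    (hHK : ∀ h ∈ H, ∀ k ∈ K, h * k * h⁻¹ ∈ K)
    (hfpf : ∀ h ∈ H, h ≠ 1 → ∀ k ∈ K, h * k * h⁻¹ = k → k = 1)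
    (hcop : Nat.Coprime (Nat.card A) (Nat.card K))
    (hKfix : ∀ a : A, (∀ k ∈ K, ρ k a = a) → a = 0)
    (hHfix : ∀ a : A, (∀ h ∈ H, ρ h a = a) → a = 0) (a : A) : a = 0 := by
  classical
  let u : F →* (AddMonoid.End A)ˣ := ρ.toHomUnits
  have hu : ∀ x, ((u x : (AddMonoid.End A)ˣ) : AddMonoid.End A) = ρ x := fun x => rfl
  obtain ⟨K₂, hK₂⟩ : ∃ K₂ : Subgroup F, K₂ = K ⊓ (centralizer ((K.map u : Subgroup _) : Set _)).comap u := ⟨_, rfl⟩
  have hK₂mem : ∀ x, x ∈ K₂ ↔ x ∈ K ∧ ∀ y ∈ K, u y * u x = u x * u y := by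
    intro x
    rw [hK₂, Subgroup.mem_inf, Subgroup.mem_comap, mem_centralizer_iff]
    constructor
    · rintro ⟨h1, h2⟩
      exact ⟨h1, fun y hy => h2 _ ⟨y, hy, rfl⟩⟩
    · rintro ⟨h1, h2⟩
      refine ⟨h1, ?_⟩
      rintro _ ⟨y, hy, rfl⟩
      exact h2 y hy
  have hK₂le : K₂ ≤ K := fun x hx => ((hK₂mem x).1 hx).1
  have htriv := act_trivial_of_comm ρ K₂ H ?_ ?_ ?_ ?_ hHfix
  · -- nilpotency
    let v : K →* (AddMonoid.End A)ˣ := u.comp K.subtype
    haveI hLnil : Group.IsNilpotent v.range :=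
      Group.nilpotent_of_surjective v.rangeRestrict v.rangeRestrict_surjective
    have hLbot : v.range = ⊥ := by
      by_contra hne
      have hLnt : Nontrivial v.range := (Subgroup.nontrivial_iff_ne_bot _).2 hne
      have h0 := normal_inf_center_ne_bot (⊤ : Subgroup v.range) top_ne_bot
      obtain ⟨w, hw⟩ := Subgroup.ne_bot_iff_exists_ne_one.1 h0
      obtain ⟨⟨w₀, k₀, hk₀⟩, hw₁⟩ := w
      have hcen := hw₁.2
      have hk : (k₀ : F) ∈ K₂ := by
        refine (hK₂mem _).2 ⟨k₀.2, fun y hy => ?_⟩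
        have h5 := (Subgroup.mem_center_iff.1 hcen) ⟨v ⟨y, hy⟩, ⟨y, hy⟩, rfl⟩
        have h6 := congrArg Subtype.val h5
        subst hk₀
        exact h6
      have h7 : u (k₀ : F) = 1 := by
        apply Units.ext
        rw [hu]
        ext a
        exact htriv _ hk a
      apply hw
      apply Subtype.ext
      apply Subtype.ext
      show w₀ = 1
      rw [← hk₀]
      exact h7
    apply hKfix
    intro k hk
    have h1 : v ⟨k, hk⟩ ∈ v.range := ⟨_, rfl⟩
    rw [hLbot] at h1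
    have h2 : u k = 1 := Subgroup.mem_bot.1 h1
    have h3 : ρ k = 1 := by rw [← hu, h2]; rfl
    rw [h3]
    rfl
  · intro h hh k hk
    obtain ⟨h1, h2⟩ := (hK₂mem k).1 hk
    refine (hK₂mem _).2 ⟨hHK h hh k h1, fun y hy => ?_⟩
    have hy' : h⁻¹ * y * h⁻¹⁻¹ ∈ K := hHK h⁻¹ (H.inv_mem hh) y hy
    have h3 := h2 _ hy'
    simp only [map_mul, map_inv] at h3 ⊢
    calc u y * (u h * u k * (u h)⁻¹)
        = u h * (((u h)⁻¹ * u y * u h) * u k) * (u h)⁻¹ := by group
      _ = u h * (u k * ((u h)⁻¹ * u y * u h)) * (u h)⁻¹ := by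
          have : (u h)⁻¹ * u y * u h = (u h)⁻¹ * u y * ((u h)⁻¹)⁻¹ := by group
          rw [this, h3]
      _ = _ := by group
  · intro x hx y hy
    have h1 := ((hK₂mem x).1 hx).2 y (hK₂le hy)
    have h2 := congrArg Units.val h1
    exact h2.symm
  · intro h hh hne k hk he
    exact hfpf h hh hne k (hK₂le hk) he
  · have h1 : Nat.card K₂ ∣ Nat.card K := Subgroup.card_dvd_of_le hK₂le
    exact Nat.Coprime.coprime_dvd_right h1 hcop

end action

end Cfsg.Agent.Lib.Basic
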