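import Cfsg.Agent.Lib.Basic.Kegel
import Cfsg.Agent.Lib.Basic.Hall
import Cfsg.Agent.Lib.Basic.Conj

/-!
# Permutability of Hall subgroups in products: S0561.
-/

set_option autoImplicit false

namespace Cfsg.Agent.Lib.Basic

open Subgroup Cfsg

open scoped Pointwise

variable {G : Type*} [Group G]

theorem permL_of_set_eq {U V : Subgroup G} (h : (U : Set G) * V = V * U) : PermL U V := by
  intro u hu v hv
  have h1 : u * v ∈ (U : Set G) * V := ⟨u, hu, v, hv, rfl⟩
  rw [h] at h1
  obtain ⟨c, hc, w, hw, e⟩ := h1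
  exact ⟨c, hc, w, hw, e.symm⟩

theorem PermL.conj' {U V : Subgroup G} (g : G) (h : PermL U V) :
    PermL (MulAut.conj g • U) (MulAut.conj g • V) := by
  refine PermL.conj g ?_
  rw [conj_inv_smul_conj]
  exact h

variable [Finite G]

/-- Product of a subfamily of pairwise permuting Sylow subgroups, permuting with `Z`. -/
theorem exists_product_of_permuting_sylows' (P : ℕ → Subgroup G)
    (hP : ∀ q : ℕ, q.Prime → Nat.card (P q) = q ^ (Nat.card G).factorization q)
    (hS : ∀ p q : ℕ, p.Prime → q.Prime → (P p : Set G) * P q = P q * P p)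
    (Z : Subgroup G) (hZ : ∀ q : ℕ, q.Prime → (Z : Set G) * P q = P q * Z)
    (T : Finset ℕ) (hT : ∀ q ∈ T, q.Prime) :
    ∃ X : Subgroup G, Nat.card X = ∏ q ∈ T, q ^ (Nat.card G).factorization q ∧
      (∀ q : ℕ, q.Prime → (X : Set G) * P q = P q * X) ∧ (X : Set G) * Z = Z * X := by
  classical
  induction T using Finset.induction_on with
  | empty =>
    refine ⟨⊥, by simp, fun q _ => ?_, ?_⟩
    · rw [Subgroup.coe_bot, Set.singleton_one, one_mul, mul_one]
    · rw [Subgroup.coe_bot, Set.singleton_one, one_mul, mul_one]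
  | insert a T ha ih =>
    obtain ⟨X, hX, hXp, hXZ⟩ := ih (fun q hq => hT q (Finset.mem_insert_of_mem hq))
    have haP : a.Prime := hT a (Finset.mem_insert_self a T)
    refine ⟨X ⊔ P a, ?_, fun q hq => ?_, ?_⟩
    · rw [Finset.prod_insert ha, card_sup_of_permute_of_coprime (hXp a haP), hX, hP a haP, mul_comm]
      rw [hX, hP a haP]
      refine Nat.Coprime.prod_left fun q hq => ?_
      refine Nat.Coprime.pow _ _ ((Nat.coprime_primes (hT q (Finset.mem_insert_of_mem hq)) haP).mpr ?_)
      rintro rfl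
      exact ha hq
    · rw [coe_sup_of_permute (hXp a haP), mul_assoc, hS a q haP hq, ← mul_assoc, hXp q hq, mul_assoc]
    · rw [coe_sup_of_permute (hXp a haP), mul_assoc, ← hZ a haP, ← mul_assoc, hXZ, mul_assoc]

/-- Hall subgroup: the product formula for its order. -/
theorem card_eq_prod_of_hall {A : Subgroup G} (hA : (Nat.card A).Coprime A.index) :
    Nat.card A = ∏ q ∈ (Nat.card A).primeFactors, q ^ (Nat.card G).factorization q := by
  have h0 : Nat.card A ≠ 0 := Nat.card_pos.ne'
  conv_lhs => rw [← prod_primeFactors_pow h0]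
  refine Finset.prod_congr rfl fun q hq => ?_
  have hqp : q.Prime := Nat.prime_of_mem_primeFactors hq
  have hqd : q ∣ Nat.card A := Nat.dvd_of_mem_primeFactors hq
  have hqi : ¬ q ∣ A.index := fun h => hqp.one_lt.ne' (Nat.eq_one_of_dvd_coprimes hA hqd h)
  have h1 : (Nat.card G).factorization q = (Nat.card A).factorization q := by
    rw [← Subgroup.card_mul_index A, Nat.factorization_mul h0 Subgroup.index_ne_zero_of_finite,
      Finsupp.add_apply, Nat.factorization_eq_zero_of_not_dvd hqi, add_zero]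
  rw [h1]

/-- Two Hall subgroups of a solvable group have conjugates that permute. -/
theorem exists_conj_permute_of_hall [Group.IsSolvable G] {A B : Subgroup G}
    (hA : (Nat.card A).Coprime A.index) (hB : (Nat.card B).Coprime B.index) :
    ∃ u v : G, PermL (MulAut.conj u • A) (MulAut.conj v • B) := by
  classical
  obtain ⟨S, hS⟩ := exists_sylow_system (G := G)
  let P : ℕ → Subgroup G := fun q => if h : q.Prime then (S ⟨q, h⟩ : Subgroup G) else ⊥
  have hPe : ∀ (q : ℕ) (h : q.Prime), P q = (S ⟨q, h⟩ : Subgroup G) := fun q h => dif_pos h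
  have hP : ∀ q : ℕ, q.Prime → Nat.card (P q) = q ^ (Nat.card G).factorization q := by
    intro q h
    rw [hPe q h]
    haveI : Fact (((⟨q, h⟩ : Nat.Primes) : ℕ)).Prime := ⟨h⟩
    exact (S ⟨q, h⟩).card_eq_multiplicity
  have hPP : ∀ p q : ℕ, p.Prime → q.Prime → (P p : Set G) * P q = P q * P p := by
    intro p q hp hq
    rw [hPe p hp, hPe q hq]
    exact hS ⟨p, hp⟩ ⟨q, hq⟩
  have hbot : ∀ q : ℕ, q.Prime → ((⊥ : Subgroup G) : Set G) * P q = P q * (⊥ : Subgroup G) := by
    intro q _
    rw [Subgroup.coe_bot, Set.singleton_one, one_mul, mul_one]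
  obtain ⟨X₁, hX₁, hX₁p, -⟩ := exists_product_of_permuting_sylows' P hP hPP ⊥ hbot
    (Nat.card A).primeFactors (fun q hq => Nat.prime_of_mem_primeFactors hq)
  obtain ⟨X₂, hX₂, -, hX₁₂⟩ := exists_product_of_permuting_sylows' P hP hPP X₁ hX₁p
    (Nat.card B).primeFactors (fun q hq => Nat.prime_of_mem_primeFactors hq)
  rw [← card_eq_prod_of_hall hA] at hX₁
  rw [← card_eq_prod_of_hall hB] at hX₂
  obtain ⟨u, hu⟩ := hall_conj A X₁ hA hX₁
  obtain ⟨v, hv⟩ := hall_conj B X₂ hB hX₂
  refine ⟨u, v, ?_⟩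
  rw [hu, hv]
  exact permL_of_set_eq hX₁₂.symm

/-- **S0561**. -/
theorem exists_subgroup_conj_hall_product [Group.IsSolvable G] (H K A B : Subgroup G)
    (hHK : ∀ g : G, ∃ h ∈ H, ∃ k ∈ K, g = h * k) (hA : A ≤ H) (hAn : (A.subgroupOf H).Normal)
    (hB : B ≤ K) (hBn : (B.subgroupOf K).Normal) (hAh : (Nat.card A).Coprime A.index)
    (hBh : (Nat.card B).Coprime B.index) (x y : G) :
    ∃ S : Subgroup G, (S : Set G) = ((MulAut.conj x • A : Subgroup G) : Set G) *
      ((MulAut.conj y • B : Subgroup G) : Set G) := by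
  have hHN : H ≤ normalizer (A : Set G) := (Subgroup.normal_subgroupOf_iff_le_normalizer hA).mp hAn
  have hKN : K ≤ normalizer (B : Set G) := (Subgroup.normal_subgroupOf_iff_le_normalizer hB).mp hBn
  -- reduction of conjugates
  have hred : ∀ z : G, ∃ h ∈ H, MulAut.conj z • B = MulAut.conj h • B := by
    intro z
    obtain ⟨h, hh, k, hk, rfl⟩ := hHK z
    refine ⟨h, hh, ?_⟩
    rw [conj_smul_mul, conj_smul_le_of_normalizer (hKN hk)]
  have hconjA : ∀ h ∈ H, MulAut.conj h • A = A := fun h hh => conj_smul_le_of_normalizer (hHN hh)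
  have hiff : ∀ z : G, PermL A (MulAut.conj z • B) ↔ PermL A B := by
    intro z
    obtain ⟨h, hh, he⟩ := hred z
    rw [he]
    constructor
    · intro h1
      have h2 := h1.conj' h⁻¹
      rwa [conj_inv_smul_conj, hconjA _ (H.inv_mem hh)] at h2
    · intro h1
      have h2 := h1.conj' h
      rwa [hconjA h hh] at h2
  -- existence
  obtain ⟨u, v, huv⟩ := exists_conj_permute_of_hall hAh hBh
  have h1 : PermL A (MulAut.conj (u⁻¹ * v) • B) := by
    have h2 := huv.conj' u⁻¹
    rwa [conj_inv_smul_conj, ← conj_smul_mul] at h2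
  have hAB : PermL A B := (hiff _).mp h1
  have h3 : PermL (MulAut.conj x • A) (MulAut.conj y • B) := by
    have h4 : PermL A (MulAut.conj (x⁻¹ * y) • B) := (hiff _).mpr hAB
    have h5 := h4.conj' x
    rwa [← conj_smul_mul, mul_inv_cancel_left] at h5
  exact ⟨_, coe_sup_of_permute h3.set_eq⟩

end Cfsg.Agent.Lib.Basic
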