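import Cfsg.Agent.Lib.Basic.HallNil
import Cfsg.Agent.Lib.Basic.Super2
import Cfsg.Agent.Lib.Basic.Hall

/-!
# Supersolvable Hall subgroups are conjugate: S0582.
-/

set_option autoImplicit false

namespace Cfsg.Agent.Lib.Basic

open Subgroup Cfsg

open scoped Pointwise

/-- **S0582**. -/
theorem hall_supersolvable_conj.{u} : ∀ (n : ℕ) {G : Type u} [Group G] [Finite G] (H K : Subgroup G),
    Nat.card G = n → IsSupersolvable H → IsSupersolvable K → Nat.card H = Nat.card K →
    (Nat.card H).Coprime H.index → ∃ x : G, MulAut.conj x • H = K := by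
  intro n
  induction n using Nat.strong_induction_on with
  | _ n ih =>
  intro G _ _ H K hn hH hK hcard hHall
  by_cases hH1 : Nat.card H = 1
  · refine ⟨1, ?_⟩
    have h1 : H = ⊥ := (Subgroup.card_eq_one).mp hH1
    have h2 : K = ⊥ := (Subgroup.card_eq_one).mp (by rw [← hcard, hH1])
    rw [h1, h2, conj_smul_one]
  haveI hHnt : Nontrivial H := Finite.one_lt_card_iff_nontrivial.mp (by
    have : 0 < Nat.card H := Nat.card_pos
    omega)
  obtain ⟨p, hp, hpd, hmax⟩ := exists_largest_prime (G := H)
  haveI hfp : Fact p.Prime := ⟨hp⟩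
  obtain ⟨P₀⟩ : Nonempty (Sylow p H) := inferInstance
  obtain ⟨Q₀⟩ : Nonempty (Sylow p K) := inferInstance
  have hP₀n : (P₀ : Subgroup H).Normal :=
    sylow_largest_normal _ rfl (hclt_of_isSupersolvable hH) p hpd hmax P₀
  have hQ₀n : (Q₀ : Subgroup K).Normal :=
    sylow_largest_normal _ rfl (hclt_of_isSupersolvable hK) p (hcard ▸ hpd)
      (fun q hq hqd => hmax q hq (hcard ▸ hqd)) Q₀
  have hidxeq : H.index = K.index := by
    have h1 := Subgroup.card_mul_index H
    have h2 := Subgroup.card_mul_index K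
    rw [← h2, ← hcard] at h1
    exact Nat.eq_of_mul_eq_mul_left Nat.card_pos h1
  have hsyl : ∀ {L : Subgroup G} (hc : (Nat.card L).Coprime L.index) (hd : p ∣ Nat.card L)
      (S : Sylow p L), ¬ p ∣ ((S : Subgroup L).map L.subtype).index := by
    intro L hc hd S
    rw [Subgroup.index_map_subtype, hp.dvd_mul]
    rintro (h | h)
    · exact S.not_dvd_index h
    · exact hp.one_lt.ne' (Nat.eq_one_of_dvd_coprimes hc hd h)
  let P' : Sylow p G := (P₀.isPGroup'.map H.subtype).toSylow (hsyl hHall hpd P₀)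
  let Q' : Sylow p G := (Q₀.isPGroup'.map K.subtype).toSylow
    (hsyl (by rw [← hcard, ← hidxeq]; exact hHall) (hcard ▸ hpd) Q₀)
  obtain ⟨g, hg⟩ := MulAction.exists_smul_eq G P' Q'
  have hgP : MulAut.conj g • ((P₀ : Subgroup H).map H.subtype) = (Q₀ : Subgroup K).map K.subtype := by
    have := congrArg (fun S : Sylow p G => (S : Subgroup G)) hg
    simpa [Sylow.coe_subgroup_smul, P', Q'] using this
  set H' : Subgroup G := MulAut.conj g • H with hH'
  set Q : Subgroup G := (Q₀ : Subgroup K).map K.subtype with hQ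
  suffices hsuff : ∃ x : G, MulAut.conj x • H' = K by
    obtain ⟨x, hx⟩ := hsuff
    refine ⟨x * g, ?_⟩
    rw [conj_smul_mul]
    exact hx
  have hQH' : Q ≤ H' := by
    rw [← hgP, hH']
    exact Subgroup.pointwise_smul_le_pointwise_smul_iff.mpr (Subgroup.map_subtype_le _)
  have hQK : Q ≤ K := Subgroup.map_subtype_le _
  have hH'sup : IsSupersolvable H' := (isSupersolvable_congr (conjSmulEquiv g H)).mp hH
  have hH'c : Nat.card H' = Nat.card K := (card_conj_smul g H).trans hcard
  have hH'i : H'.index = H.index := index_conj_smul g H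
  have hH'Hall : (Nat.card H').Coprime H'.index := by
    rw [hH'i, card_conj_smul]
    exact hHall
  -- the normalizer contains both
  have hH'T : H' ≤ normalizer (Q : Set G) := by
    intro y hy
    rw [← hgP, hH', mem_conj_smul] at *
    have hy' : g⁻¹ * y * g ∈ normalizer (((P₀ : Subgroup H).map H.subtype : Subgroup G) : Set G) := by
      rw [Subgroup.mem_normalizer_iff]
      intro z
      constructor
      · rintro ⟨w, hw, rfl⟩
        exact ⟨⟨g⁻¹ * y * g, hy⟩ * w * ⟨g⁻¹ * y * g, hy⟩⁻¹, hP₀n.conj_mem w hw _, rfl⟩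
      · rintro ⟨w, hw, hwz⟩
        refine ⟨⟨g⁻¹ * y * g, hy⟩⁻¹ * w * ⟨g⁻¹ * y * g, hy⟩, ?_, ?_⟩
        · have := hP₀n.conj_mem w hw ⟨g⁻¹ * y * g, hy⟩⁻¹
          show _ ∈ (P₀ : Subgroup H)
          simpa using this
        · have e : z = (g⁻¹ * y * g)⁻¹ * (w : G) * (g⁻¹ * y * g) := by
            have h2 : (w : G) = g⁻¹ * y * g * z * (g⁻¹ * y * g)⁻¹ := hwz
            rw [h2]
            group
          rw [e]
          rfl
    exact mem_normalizer_of_conj_smul_eq (by
      have h1 := conj_smul_le_of_normalizer hy'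
      rw [← conj_smul_mul] at *
      have h2 : y * g = g * (g⁻¹ * y * g) := by group
      rw [h2, conj_smul_mul, h1])
  have hKT : K ≤ normalizer (Q : Set G) := by
    intro y hy
    rw [Subgroup.mem_normalizer_iff]
    intro z
    constructor
    · rintro ⟨w, hw, rfl⟩
      exact ⟨⟨y, hy⟩ * w * ⟨y, hy⟩⁻¹, hQ₀n.conj_mem w hw _, rfl⟩
    · rintro ⟨w, hw, hwz⟩
      refine ⟨⟨y, hy⟩⁻¹ * w * ⟨y, hy⟩, ?_, ?_⟩
      · have := hQ₀n.conj_mem w hw ⟨y, hy⟩⁻¹
        show _ ∈ (Q₀ : Subgroup K)
        simpa using this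
      · have e : z = y⁻¹ * (w : G) * y := by
          have h2 : (w : G) = y * z * y⁻¹ := hwz
          rw [h2]
          group
        rw [e]
        rfl
  have hQb : Q ≠ ⊥ := by
    intro hb
    have h1 := Q₀.ne_bot_of_dvd_card (hcard ▸ hpd)
    apply h1
    rwa [hQ, Subgroup.map_eq_bot_iff_of_injective _ K.subtype_injective] at hb
  by_cases hT : normalizer (Q : Set G) = ⊤
  · -- `Q` normal
    haveI hQn : Q.Normal := Subgroup.normalizer_eq_top_iff.mp hT
    set π := QuotientGroup.mk' Q with hπ
    have hπs : Function.Surjective π := QuotientGroup.mk'_surjective Q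
    have hlt : Nat.card (G ⧸ Q) < n := by
      rw [← hn, ← Subgroup.index_eq_card]
      have h1 := Subgroup.card_mul_index Q
      have h2 : 1 < Nat.card Q := by
        haveI := (Subgroup.nontrivial_iff_ne_bot Q).mpr hQb
        exact Finite.one_lt_card
      have h3 : 0 < Q.index := Nat.pos_of_ne_zero Subgroup.index_ne_zero_of_finite
      rw [← h1]
      nlinarith
    have hcomap : ∀ {L : Subgroup G}, Q ≤ L → (L.map π).comap π = L := by
      intro L hL
      rw [Subgroup.comap_map_eq, hπ, QuotientGroup.ker_mk']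
      exact sup_eq_left.mpr hL
    have hsupm : ∀ {L : Subgroup G}, IsSupersolvable L → IsSupersolvable (L.map π) := fun {L} hL =>
      isSupersolvable_of_surjective (π.subgroupMap L) (π.subgroupMap_surjective L) hL
    have hcardm : ∀ {L : Subgroup G}, Q ≤ L → Nat.card L = Nat.card Q * Nat.card (L.map π) := by
      intro L hL
      have h1 := card_comap_mk (N := Q) (L.map π)
      rw [show (L.map π).comap (QuotientGroup.mk' Q) = L from hcomap hL] at h1
      exact h1
    have hc1 : Nat.card (H'.map π) = Nat.card (K.map π) := by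
      have h1 := hcardm hQH'
      have h2 := hcardm hQK
      rw [hH'c, h2] at h1
      exact (Nat.eq_of_mul_eq_mul_left Nat.card_pos h1).symm
    have hi1 : (H'.map π).index = H'.index := by
      rw [← Subgroup.index_comap_of_surjective _ hπs, hcomap hQH']
    have hHall1 : (Nat.card (H'.map π)).Coprime (H'.map π).index := by
      rw [hi1]
      exact Nat.Coprime.coprime_dvd_left (Subgroup.card_map_dvd _ _) hH'Hall
    obtain ⟨xq, hxq⟩ := ih _ hlt (H'.map π) (K.map π) rfl (hsupm hH'sup) (hsupm hK) hc1 hHall1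
    obtain ⟨x, rfl⟩ := hπs xq
    refine ⟨x, ?_⟩
    have h1 := congrArg (Subgroup.comap π) hxq
    rw [comap_conj_smul, hcomap hQH', hcomap hQK] at h1
    exact h1
  · -- proper normalizer
    set T : Subgroup G := normalizer (Q : Set G) with hTdef
    have hlt : Nat.card T < n := by
      rw [← hn]
      refine lt_of_le_of_ne (Subgroup.card_le_card_group T) ?_
      intro he
      exact hT ((Subgroup.card_eq_iff_eq_top _).mp he)
    have hc1 : Nat.card (H'.subgroupOf T) = Nat.card (K.subgroupOf T) := by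
      rw [card_subgroupOf_of_le hH'T, card_subgroupOf_of_le hKT, hH'c]
    have hHall1 : (Nat.card (H'.subgroupOf T)).Coprime (H'.subgroupOf T).index := by
      rw [card_subgroupOf_of_le hH'T]
      refine Nat.Coprime.coprime_dvd_right ?_ hH'Hall
      have h1 := Subgroup.relIndex_mul_index hH'T
      rw [← h1]
      exact Dvd.intro _ rfl
    have hsup1 : ∀ {L : Subgroup G}, L ≤ T → IsSupersolvable L → IsSupersolvable (L.subgroupOf T) :=
      fun hL h => (isSupersolvable_congr (Subgroup.subgroupOfEquivOfLe hL)).mpr h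
    obtain ⟨c, hc⟩ := ih _ hlt (H'.subgroupOf T) (K.subgroupOf T) rfl (hsup1 hH'T hH'sup)
      (hsup1 hKT hK) hc1 hHall1
    refine ⟨c, ?_⟩
    have h1 := congrArg (Subgroup.map T.subtype) hc
    rw [map_conj_smul, Subgroup.map_subgroupOf_eq_of_le hH'T, Subgroup.map_subgroupOf_eq_of_le hKT] at h1
    exact h1

end Cfsg.Agent.Lib.Basic
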