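import Cfsg.Agent.Lib.Basic.Factor
import Mathlib.Algebra.Ring.Idempotent
import Mathlib.Algebra.Group.Hom.End

/-!
# Itô: a product of two abelian groups has a normal subgroup in a factor: S0573.
-/

set_option autoImplicit false

namespace Cfsg.Agent.Lib.Basic

open Subgroup

open scoped commutatorElement IsMulCommutative

theorem exists_pos_pow_idempotent {M : Type*} [Monoid M] [Finite M] (x : M) :
    ∃ n : ℕ, 0 < n ∧ x ^ n * x ^ n = x ^ n := by
  have key : ∀ i d : ℕ, 0 < d → x ^ (i + 1) = x ^ (i + 1 + d) → ∃ n : ℕ, 0 < n ∧ x ^ n * x ^ n = x ^ n := by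
    intro i d hd h
    have hk : ∀ k : ℕ, x ^ (i + 1 + k) = x ^ (i + 1 + k + d) := by
      intro k
      calc x ^ (i + 1 + k) = x ^ (i + 1) * x ^ k := pow_add ..
        _ = x ^ (i + 1 + d) * x ^ k := by rw [← h]
        _ = x ^ (i + 1 + k + d) := by
          rw [← pow_add]
          congr 1
          omega
    have ht : ∀ t k : ℕ, x ^ (i + 1 + k) = x ^ (i + 1 + k + t * d) := by
      intro t
      induction t with
      | zero => intro k; simp
      | succ t ih =>
        intro k
        rw [ih k, add_mul, one_mul, ← add_assoc]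
        have := hk (k + t * d)
        rwa [show i + 1 + (k + t * d) = i + 1 + k + t * d by omega] at this
    obtain ⟨k, hk'⟩ : ∃ k, (i + 1) * d = i + 1 + k :=
      ⟨(i + 1) * d - (i + 1), by
        have : i + 1 ≤ (i + 1) * d := Nat.le_mul_of_pos_right _ hd
        omega⟩
    refine ⟨(i + 1) * d, by positivity, ?_⟩
    rw [← pow_add]
    conv_rhs => rw [hk', ht (i + 1) k, ← hk']
  obtain ⟨i, j, hij, he⟩ := Finite.exists_ne_map_eq_of_infinite (fun m : ℕ => x ^ (m + 1))
  have he' : x ^ (i + 1) = x ^ (j + 1) := he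
  rcases lt_or_gt_of_ne hij with h | h
  · refine key i (j - i) (by omega) ?_
    rw [he']
    congr 1
    omega
  · refine key j (i - j) (by omega) ?_
    rw [← he']
    congr 1
    omega

/-- A finite commutative radical ring has a nonzero annihilator element. -/
theorem radical_annihilator {V : Type*} [AddCommGroup V] [Finite V] [Nontrivial V]
    (T : V →+ AddMonoid.End V) (hsymm : ∀ x y, T x y = T y x)
    (hmul : ∀ x y, T (T y x) = T y * T x)
    (hunit : ∀ x, Function.Injective ((1 : AddMonoid.End V) + T x)) :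
    ∃ y : V, y ≠ 0 ∧ T y = 0 := by
  classical
  have hcomm : ∀ x y, T x * T y = T y * T x := by
    intro x y
    rw [← hmul y x, ← hmul x y, hsymm x y]
  haveI : Finite (AddMonoid.End V) :=
    Finite.of_injective (fun f : AddMonoid.End V => (f : V → V)) DFunLike.coe_injective
  have hpowT : ∀ (x : V) (k : ℕ), ∃ u, (T x) ^ (k + 1) = T u := by
    intro x k
    induction k with
    | zero => exact ⟨x, by simp⟩
    | succ k ih =>
      obtain ⟨u, hu⟩ := ih
      refine ⟨T x u, ?_⟩
      rw [pow_succ', hu, hmul u x]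
  have hnil : ∀ x, ∃ n : ℕ, (T x) ^ n = 0 := by
    intro x
    obtain ⟨n, hn, hE⟩ := exists_pos_pow_idempotent (T x)
    refine ⟨n, ?_⟩
    obtain ⟨u, hu⟩ := hpowT x (n - 1)
    have hn1 : n - 1 + 1 = n := Nat.sub_add_cancel hn
    rw [hn1] at hu
    set E := T x ^ n with hEdef
    -- `e = E u`, `T e = E`
    have hTe : T (T u u) = E := by
      rw [hmul u u, ← hu, hE]
    have hneg : T (-(T u u)) = -E := by
      rw [map_neg, hTe]
    refine AddMonoidHom.ext fun v => ?_
    have h2 : E (E v) = E v := by
      have := congrArg (fun f : AddMonoid.End V => f v) hE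
      exact this
    have hker : ∀ w, ((1 : AddMonoid.End V) + T (-(T u u))) w = w - E w := by
      intro w
      rw [hneg]
      change w + (-(E w)) = w - E w
      abel
    have h3 : E v = 0 := by
      apply hunit (-(T u u))
      rw [hker, h2, sub_self, map_zero]
    exact h3
  -- common kernel
  have hcommon : ∀ S : Finset V, ∃ v : V, v ≠ 0 ∧ ∀ x ∈ S, T x v = 0 := by
    intro S
    induction S using Finset.induction_on with
    | empty =>
      obtain ⟨v, hv⟩ := exists_ne (0 : V)
      exact ⟨v, hv, by simp⟩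
    | insert z S _ ih =>
      obtain ⟨v, hv, hvS⟩ := ih
      obtain ⟨n, hn⟩ := hnil z
      have hex : ∃ k : ℕ, ((T z) ^ k) v = 0 := ⟨n, by rw [hn]; rfl⟩
      have hk0 : Nat.find hex ≠ 0 := by
        intro h
        have := Nat.find_spec hex
        rw [h, pow_zero] at this
        exact hv this
      obtain ⟨k, hk⟩ := Nat.exists_eq_succ_of_ne_zero hk0
      have hspec := Nat.find_spec hex
      have hmin := Nat.find_min hex (m := k) (by omega)
      rw [hk, Nat.succ_eq_add_one, pow_succ'] at hspec
      refine ⟨((T z) ^ k) v, hmin, ?_⟩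
      intro x hx
      rcases Finset.mem_insert.mp hx with rfl | hxS
      · exact hspec
      · have hc : Commute (T x) ((T z) ^ k) := (show Commute (T x) (T z) from hcomm x z).pow_right k
        have h1 : (T x * (T z) ^ k) v = ((T z) ^ k * T x) v := by rw [hc.eq]
        have h2 : (T x) (((T z) ^ k) v) = ((T z) ^ k) (T x v) := h1
        rw [h2, hvS x hxS, map_zero]
  classical
  haveI : Fintype V := Fintype.ofFinite V
  obtain ⟨y, hy, hyT⟩ := hcommon Finset.univ
  refine ⟨y, hy, AddMonoidHom.ext fun x => ?_⟩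
  show (T y) x = 0
  rw [hsymm y x]
  exact hyT x (Finset.mem_univ x)

/-- The radical ring lemma in terms of the maps `S x = 1 + T x`. -/
theorem radical_annihilator' {V : Type*} [AddCommGroup V] [Finite V] [Nontrivial V]
    (S : V → V →+ V) (hB : ∀ x y, S x y + x = S y x + y)
    (hC : ∀ x y w, S (S y x + y) w = S y (S x w)) (hD : ∀ x, Function.Injective (S x)) :
    ∃ y : V, y ≠ 0 ∧ ∀ w, S y w = w := by
  let S' : V → AddMonoid.End V := fun x => S x
  let T₀ : V → AddMonoid.End V := fun x => S' x - 1
  have hT₀ : ∀ x y, T₀ x y = S x y - y := fun x y => rfl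
  have hsymm₀ : ∀ x y, T₀ x y = T₀ y x := by
    intro x y
    rw [hT₀, hT₀, sub_eq_sub_iff_add_eq_add]
    exact hB x y
  have hadd : ∀ x x', T₀ (x + x') = T₀ x + T₀ x' := by
    intro x x'
    refine AddMonoidHom.ext fun y => ?_
    show T₀ (x + x') y = T₀ x y + T₀ x' y
    rw [hsymm₀, map_add, hsymm₀ y x, hsymm₀ y x']
  let T : V →+ AddMonoid.End V := AddMonoidHom.mk' T₀ hadd
  have hTe : ∀ x y, T x y = S x y - y := fun x y => rfl
  have hmul : ∀ x y, T (T y x) = T y * T x := by
    intro x y
    refine AddMonoidHom.ext fun w => ?_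
    have h1 : S y x + y = T y x + x + y := by
      rw [hTe]
      abel
    have h2 : T (S y x + y) w = S y (S x w) - w := by
      rw [hTe, hC]
    rw [h1, map_add, map_add] at h2
    have h2' : (T (T y x)) w + (T x) w + (T y) w = S y (S x w) - w := h2
    rw [hTe x w, hTe y w] at h2'
    have h3 : T y (T x w) = S y (S x w) - S y w - S x w + w := by
      rw [hTe x w, hTe y, map_sub]
      abel
    have h4 : (T (T y x)) w = S y (S x w) - w - (S x w - w) - (S y w - w) := by
      rw [← h2']
      abel
    change (T (T y x)) w = T y (T x w)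
    rw [h4, h3]
    abel
  obtain ⟨y, hy, hTy⟩ := radical_annihilator T (fun x y => hsymm₀ x y) hmul (by
    intro x a b hab
    apply hD x
    have h1 : ∀ v, ((1 : AddMonoid.End V) + T x) v = S x v := by
      intro v
      change v + T x v = S x v
      rw [hTe]
      abel
    rw [h1, h1] at hab
    exact hab)
  refine ⟨y, hy, fun w => ?_⟩
  have h1 : T y w = 0 := by rw [hTy]; rfl
  rw [hTe, sub_eq_zero] at h1
  exact h1

variable {G : Type*} [Group G]

/-- The key step: the radical ring structure on an abelian normal subgroup. -/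
theorem exists_mem_centralizer_of_ito [Finite G] {A B V : Subgroup G} [hVc : IsMulCommutative V]
    [hVn : V.Normal] (hA : ∀ x ∈ A, ∀ y ∈ A, x * y = y * x) (hB : ∀ x ∈ B, ∀ y ∈ B, x * y = y * x)
    (hAB : ∀ g : G, ∃ a ∈ A, ∃ b ∈ B, g = a * b) (hinf : A ⊓ B = ⊥) (hVB : V ⊓ B = ⊥) (hVne : V ≠ ⊥) :
    ∃ a ∈ A, a ≠ 1 ∧ ∀ v ∈ V, a * v = v * a := by
  classical
  choose aF haF bF hbF hab using (fun y : V => hAB (y : G))
  have huniq : ∀ (y : V) (a b : G), a ∈ A → b ∈ B → (y : G) = a * b → aF y = a ∧ bF y = b := by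
    intro y a b ha hb he
    have h1 : a⁻¹ * aF y = b * (bF y)⁻¹ := by
      have h2 := hab y
      rw [he] at h2
      calc a⁻¹ * aF y = a⁻¹ * (aF y * bF y) * (bF y)⁻¹ := by group
        _ = a⁻¹ * (a * b) * (bF y)⁻¹ := by rw [← h2]
        _ = b * (bF y)⁻¹ := by group
    have h3 : a⁻¹ * aF y ∈ A ⊓ B := ⟨A.mul_mem (A.inv_mem ha) (haF y), by
      rw [h1]
      exact B.mul_mem hb (B.inv_mem (hbF y))⟩
    rw [hinf, Subgroup.mem_bot, inv_mul_eq_one] at h3
    constructor
    · exact h3.symm
    · have h4 : aF y * bF y = aF y * b := by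
        rw [← hab y, he, h3]
      exact mul_left_cancel h4
  haveI hnt : Nontrivial V := (Subgroup.nontrivial_iff_ne_bot V).mpr hVne
  let ρ : G → Additive V →+ Additive V := fun g => (MulAut.conjNormal g : MulAut V).toMonoidHom.toAdditive
  have hρ : ∀ (g : G) (w : Additive V), (((ρ g w).toMul : V) : G) = g * (w.toMul : V) * g⁻¹ :=
    fun g w => MulAut.conjNormal_apply g w.toMul
  let S : Additive V → Additive V →+ Additive V := fun x => ρ (aF x.toMul)
  have hS : ∀ (x w : Additive V), (((S x w).toMul : V) : G) = aF x.toMul * (w.toMul : V) * (aF x.toMul)⁻¹ :=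
    fun x w => hρ _ w
  have hzero : ∀ (x y : Additive V), (((x + y).toMul : V) : G) = (x.toMul : V) * (y.toMul : V) :=
    fun _ _ => rfl
  have hcA : ∀ x y : V, aF x * aF y = aF y * aF x := fun x y => hA _ (haF x) _ (haF y)
  have hcB : ∀ x y : V, bF x * bF y = bF y * bF x := fun x y => hB _ (hbF x) _ (hbF y)
  obtain ⟨y, hy, hyS⟩ := radical_annihilator' (V := Additive V) S
    (by
      intro x y
      apply Additive.toMul.injective
      apply Subtype.ext
      rw [hzero, hzero, hS, hS, hab x.toMul, hab y.toMul]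
      set a' := aF x.toMul
      set b' := bF x.toMul
      set a := aF y.toMul
      set b := bF y.toMul
      have e1 : a' * a = a * a' := hcA _ _
      have e2 : b * b' = b' * b := hcB _ _
      calc a' * (a * b) * a'⁻¹ * (a' * b') = (a' * a) * (b * b') := by group
        _ = (a * a') * (b' * b) := by rw [e1, e2]
        _ = a * (a' * b') * a⁻¹ * (a * b) := by group)
    (by
      intro x y w
      -- the decomposition of `S y x + y`
      have h1 : (((S y x + y).toMul : V) : G) = (aF y.toMul * aF x.toMul) * (bF x.toMul * bF y.toMul) := by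
        rw [hzero, hS, hab x.toMul, hab y.toMul]
        group
      obtain ⟨h2, -⟩ := huniq (S y x + y).toMul _ _ (A.mul_mem (haF _) (haF _)) (B.mul_mem (hbF _) (hbF _)) h1
      apply Additive.toMul.injective
      apply Subtype.ext
      rw [hS, h2, hS, hS]
      group)
    (by
      intro x a b hab'
      apply Additive.toMul.injective
      apply Subtype.ext
      have h1 := congrArg (fun z : Additive V => ((z.toMul : V) : G)) hab'
      simp only [hS] at h1
      exact mul_left_cancel (mul_right_cancel h1))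
  refine ⟨aF y.toMul, haF _, ?_, ?_⟩
  · intro h1
    have h2 := hab y.toMul
    rw [h1, one_mul] at h2
    have h3 : ((y.toMul : V) : G) ∈ V ⊓ B := ⟨(y.toMul).2, by rw [h2]; exact hbF _⟩
    rw [hVB, Subgroup.mem_bot] at h3
    apply hy
    apply Additive.toMul.injective
    exact Subtype.ext h3
  · intro v hv
    have h1 := hyS (Additive.ofMul (⟨v, hv⟩ : V))
    have h2 := congrArg (fun z : Additive V => ((z.toMul : V) : G)) h1
    simp only [hS] at h2
    have h3 : aF y.toMul * v * (aF y.toMul)⁻¹ = v := h2
    rw [mul_inv_eq_iff_eq_mul] at h3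
    exact h3

/-- `C(V) ∩ C(S)` is normal if `G' ≤ V`, `V` normal. -/
theorem normal_inf_centralizer_of_commutator_le {V S : Subgroup G} [hVn : V.Normal]
    (hV : _root_.commutator G ≤ V) : (centralizer (V : Set G) ⊓ centralizer (S : Set G)).Normal := by
  constructor
  rintro x ⟨hxV, hxS⟩ g
  have hxV' : x ∈ centralizer (V : Set G) := hxV
  have hxS' : x ∈ centralizer (S : Set G) := hxS
  constructor
  · refine Subgroup.mem_centralizer_iff.mpr fun v hv => ?_
    have h1 : g⁻¹ * v * g ∈ V := by
      have := hVn.conj_mem v hv g⁻¹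
      simpa using this
    have h2 := Subgroup.mem_centralizer_iff.mp hxV' _ h1
    calc v * (g * x * g⁻¹) = g * ((g⁻¹ * v * g) * x) * g⁻¹ := by group
      _ = g * (x * (g⁻¹ * v * g)) * g⁻¹ := by rw [h2]
      _ = g * x * g⁻¹ * v := by group
  · refine Subgroup.mem_centralizer_iff.mpr fun s hs => ?_
    have h0 : ⁅g⁻¹, s⁆ ∈ _root_.commutator G := by
      rw [commutator_def]
      exact Subgroup.commutator_mem_commutator (mem_top _) (mem_top _)
    have hc : g⁻¹ * s * g * s⁻¹ ∈ V := hV (by simpa [commutatorElement_def] using h0)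
    have h1 := Subgroup.mem_centralizer_iff.mp hxV' _ hc
    have h2 := Subgroup.mem_centralizer_iff.mp hxS' _ hs
    calc s * (g * x * g⁻¹) = g * ((g⁻¹ * s * g * s⁻¹) * (s * x)) * g⁻¹ := by group
      _ = g * ((g⁻¹ * s * g * s⁻¹) * (x * s)) * g⁻¹ := by rw [h2]
      _ = g * (((g⁻¹ * s * g * s⁻¹) * x) * s) * g⁻¹ := by group
      _ = g * ((x * (g⁻¹ * s * g * s⁻¹)) * s) * g⁻¹ := by rw [h1]
      _ = g * x * g⁻¹ * s := by group

/-- **S0573**. -/
theorem exists_normal_le_factor [Finite G] [Nontrivial G] (A B : Subgroup G) [hAc : IsMulCommutative A]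
    [hBc : IsMulCommutative B] (hAB : ∀ g : G, ∃ a ∈ A, ∃ b ∈ B, g = a * b) :
    ∃ N : Subgroup G, N.Normal ∧ N ≠ ⊥ ∧ (N ≤ A ∨ N ≤ B) := by
  classical
  have hA : ∀ x ∈ A, ∀ y ∈ A, x * y = y * x := fun x hx y hy =>
    commute_of_mem_isMulCommutative hx hy
  have hB : ∀ x ∈ B, ∀ y ∈ B, x * y = y * x := fun x hx y hy =>
    commute_of_mem_isMulCommutative hx hy
  by_cases hZ : center G = ⊥
  swap
  · -- a central element
    obtain ⟨z, hz, hz1⟩ := (center G).bot_or_exists_ne_one.resolve_left hZ
    obtain ⟨a, ha, b, hb, rfl⟩ := hAB z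
    have hbA : ∀ x ∈ A, b * x = x * b := by
      intro x hx
      have h1 := Subgroup.mem_center_iff.mp hz x
      have h2 : x * a = a * x := hA x hx a ha
      have h3 : a * (x * b) = a * (b * x) := by
        calc a * (x * b) = (a * x) * b := by group
          _ = (x * a) * b := by rw [h2]
          _ = x * (a * b) := by group
          _ = (a * b) * x := h1
          _ = a * (b * x) := by group
      exact (mul_left_cancel h3).symm
    have hbc : b ∈ center G := by
      refine Subgroup.mem_center_iff.mpr fun g => ?_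
      obtain ⟨a', ha', b', hb', rfl⟩ := hAB g
      calc a' * b' * b = a' * (b * b') := by rw [mul_assoc, hB b' hb' b hb]
        _ = (a' * b) * b' := by group
        _ = (b * a') * b' := by rw [hbA a' ha']
        _ = b * (a' * b') := by group
    have hac : a ∈ center G := by
      have h1 : a = (a * b) * b⁻¹ := by group
      rw [h1]
      exact (center G).mul_mem hz ((center G).inv_mem hbc)
    have hzn : ∀ {c : G}, c ∈ center G → (zpowers c).Normal := by
      intro c hc
      constructor
      intro x hx g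
      obtain ⟨n, rfl⟩ := Subgroup.mem_zpowers_iff.mp hx
      have h1 : g * c ^ n = c ^ n * g :=
        ((show Commute g c from Subgroup.mem_center_iff.mp hc g).zpow_right n).eq
      rw [h1]
      simp
    by_cases ha1 : a = 1
    · have hb1 : b ≠ 1 := by
        rintro rfl
        exact hz1 (by rw [ha1, mul_one])
      exact ⟨zpowers b, hzn hbc, by rwa [Ne, Subgroup.zpowers_eq_bot], Or.inr ((Subgroup.zpowers_le).mpr hb)⟩
    · exact ⟨zpowers a, hzn hac, by rwa [Ne, Subgroup.zpowers_eq_bot], Or.inl ((Subgroup.zpowers_le).mpr ha)⟩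
  -- the centre is trivial
  have hmemcenter : ∀ {x : G}, (∀ a ∈ A, x * a = a * x) → (∀ b ∈ B, x * b = b * x) → x = 1 := by
    intro x h1 h2
    have : x ∈ center G := by
      refine Subgroup.mem_center_iff.mpr fun g => ?_
      obtain ⟨a, ha, b, hb, rfl⟩ := hAB g
      calc a * b * x = a * (x * b) := by rw [mul_assoc, h2 b hb]
        _ = (a * x) * b := by group
        _ = (x * a) * b := by rw [h1 a ha]
        _ = x * (a * b) := by group
    rw [hZ, Subgroup.mem_bot] at this
    exact this
  have hinf : A ⊓ B = ⊥ := by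
    rw [eq_bot_iff]
    rintro x ⟨hxA, hxB⟩
    exact hmemcenter (fun a ha => hA x hxA a ha) (fun b hb => hB x hxB b hb)
  have hCA : centralizer (A : Set G) ≤ A := by
    intro x hx
    obtain ⟨a, ha, b, hb, rfl⟩ := hAB x
    have h1 : ∀ a' ∈ A, b * a' = a' * b := by
      intro a' ha'
      have h2 := Subgroup.mem_centralizer_iff.mp hx a' ha'
      have h3 : a' * a = a * a' := hA a' ha' a ha
      have h4 : a * (a' * b) = a * (b * a') := by
        calc a * (a' * b) = (a' * a) * b := by rw [← mul_assoc, h3]
          _ = a' * (a * b) := by group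
          _ = (a * b) * a' := h2
          _ = a * (b * a') := by group
      exact (mul_left_cancel h4).symm
    have hb1 : b = 1 := hmemcenter h1 (fun b' hb' => hB b hb b' hb')
    rw [hb1, mul_one]
    exact ha
  have hCB : centralizer (B : Set G) ≤ B := by
    intro x hx
    obtain ⟨a, ha, b, hb, rfl⟩ := hAB x
    have h1 : ∀ b' ∈ B, a * b' = b' * a := by
      intro b' hb'
      have h2 := Subgroup.mem_centralizer_iff.mp hx b' hb'
      have h3 : b' * b = b * b' := hB b' hb' b hb
      have h4 : a * b' * b = b' * a * b := by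
        calc a * b' * b = a * (b' * b) := by group
          _ = a * (b * b') := by rw [h3]
          _ = (a * b) * b' := by group
          _ = b' * (a * b) := h2.symm
          _ = b' * a * b := by group
      exact mul_right_cancel h4
    have ha1 : a = 1 := hmemcenter (fun a' ha' => hA a ha a' ha') h1
    rw [ha1, one_mul]
    exact hb
  -- the commutator subgroup
  set V : Subgroup G := _root_.commutator G with hV
  haveI hVn : V.Normal := inferInstance
  have hVc : ∀ x ∈ V, ∀ y ∈ V, x * y = y * x := by
    intro x hx y hy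
    have h1 := ito_metabelian A B hAB
    have h3 : ⁅x, y⁆ ∈ derivedSeries G 2 := Subgroup.commutator_mem_commutator hx hy
    rw [h1, Subgroup.mem_bot] at h3
    exact commutatorElement_eq_one_iff_mul_comm.mp h3
  haveI hVcc : IsMulCommutative V := ⟨⟨fun a b => Subtype.ext (hVc a a.2 b b.2)⟩⟩
  have hKA : (centralizer (V : Set G) ⊓ centralizer (A : Set G)).Normal :=
    normal_inf_centralizer_of_commutator_le le_rfl
  have hKB : (centralizer (V : Set G) ⊓ centralizer (B : Set G)).Normal :=
    normal_inf_centralizer_of_commutator_le le_rfl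
  by_cases hVA : V ⊓ A = ⊥
  swap
  · obtain ⟨x, hx, hx1⟩ := (V ⊓ A).bot_or_exists_ne_one.resolve_left hVA
    refine ⟨_, hKA, ?_, Or.inl (inf_le_right.trans hCA)⟩
    intro hb
    have h1 : x ∈ centralizer (V : Set G) ⊓ centralizer (A : Set G) := by
      constructor
      · exact Subgroup.mem_centralizer_iff.mpr fun v hv => hVc v hv x hx.1
      · exact Subgroup.mem_centralizer_iff.mpr fun a ha => hA a ha x hx.2
    rw [hb, Subgroup.mem_bot] at h1
    exact hx1 h1
  by_cases hVB : V ⊓ B = ⊥
  swap
  · obtain ⟨x, hx, hx1⟩ := (V ⊓ B).bot_or_exists_ne_one.resolve_left hVB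
    refine ⟨_, hKB, ?_, Or.inr (inf_le_right.trans hCB)⟩
    intro hb
    have h1 : x ∈ centralizer (V : Set G) ⊓ centralizer (B : Set G) := by
      constructor
      · exact Subgroup.mem_centralizer_iff.mpr fun v hv => hVc v hv x hx.1
      · exact Subgroup.mem_centralizer_iff.mpr fun a ha => hB a ha x hx.2
    rw [hb, Subgroup.mem_bot] at h1
    exact hx1 h1
  have hVne : V ≠ ⊥ := by
    intro hb
    have h1 : center G = ⊤ := (commutator_eq_bot_iff_center_eq_top G).mp hb
    rw [hZ] at h1
    exact bot_ne_top h1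
  obtain ⟨a, ha, ha1, hav⟩ := exists_mem_centralizer_of_ito hA hB hAB hinf hVB hVne
  refine ⟨_, hKA, ?_, Or.inl (inf_le_right.trans hCA)⟩
  intro hb
  have h1 : a ∈ centralizer (V : Set G) ⊓ centralizer (A : Set G) := by
    constructor
    · exact Subgroup.mem_centralizer_iff.mpr fun v hv => (hav v hv).symm
    · exact Subgroup.mem_centralizer_iff.mpr fun a' ha' => hA a' ha' a ha
  rw [hb, Subgroup.mem_bot] at h1
  exact ha1 h1

end Cfsg.Agent.Lib.Basic
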