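import Cfsg.Agent.Lib.Basic.Ito
import Cfsg.Agent.Lib.Basic.Super2

/-!
# A product of two cyclic groups is supersolvable: S0571.
-/

set_option autoImplicit false

namespace Cfsg.Agent.Lib.Basic

open Subgroup Cfsg

/-- **S0571**. -/
theorem isSupersolvable_of_product_cyclic.{u} : ∀ (n : ℕ) {G : Type u} [Group G] [Finite G]
    (A B : Subgroup G) [IsCyclic A] [IsCyclic B], Nat.card G = n →
    (∀ g : G, ∃ a ∈ A, ∃ b ∈ B, g = a * b) → IsSupersolvable G := by
  intro n
  induction n using Nat.strong_induction_on with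
  | _ n ih =>
  intro G _ _ A B hAc hBc hn hAB
  by_cases hnt : Nontrivial G
  swap
  · rw [not_nontrivial_iff_subsingleton] at hnt
    exact isSupersolvable_of_subsingleton
  haveI hAm : IsMulCommutative A := by
    letI := IsCyclic.commGroup (α := A)
    exact ⟨⟨fun a b => mul_comm a b⟩⟩
  haveI hBm : IsMulCommutative B := by
    letI := IsCyclic.commGroup (α := B)
    exact ⟨⟨fun a b => mul_comm a b⟩⟩
  obtain ⟨N, hNn, hNb, hN⟩ := exists_normal_le_factor A B hAB
  haveI := hNn
  have hNc : IsCyclic N := by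
    rcases hN with h | h
    · exact isCyclic_of_injective (Subgroup.inclusion h) (Subgroup.inclusion_injective h)
    · exact isCyclic_of_injective (Subgroup.inclusion h) (Subgroup.inclusion_injective h)
  refine isSupersolvable_of_cyclic_normal N ?_
  have hlt : Nat.card (G ⧸ N) < n := by
    rw [← hn, ← Subgroup.index_eq_card]
    have h1 := Subgroup.card_mul_index N
    have h2 : 1 < Nat.card N := by
      haveI := (Subgroup.nontrivial_iff_ne_bot N).mpr hNb
      exact Finite.one_lt_card
    have h3 : 0 < N.index := Nat.pos_of_ne_zero Subgroup.index_ne_zero_of_finite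
    rw [← h1]
    nlinarith
  let π := QuotientGroup.mk' N
  haveI : IsCyclic (A.map π) := isCyclic_of_surjective (π.subgroupMap A) (π.subgroupMap_surjective A)
  haveI : IsCyclic (B.map π) := isCyclic_of_surjective (π.subgroupMap B) (π.subgroupMap_surjective B)
  refine ih _ hlt (A.map π) (B.map π) rfl ?_
  intro x
  obtain ⟨g, rfl⟩ := QuotientGroup.mk'_surjective N x
  obtain ⟨a, ha, b, hb, rfl⟩ := hAB g
  exact ⟨π a, ⟨a, ha, rfl⟩, π b, ⟨b, hb, rfl⟩, map_mul π a b⟩

end Cfsg.Agent.Lib.Basic
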