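import Cfsg.Agent.Lib.Basic.Glauberman
import Cfsg.Agent.Lib.Basic.Carter2
import Cfsg.Agent.Lib.Basic.Core
import Cfsg.Agent.Lib.Basic.Hall

/-!
# Tools for Wielandt's theorem on products of coprime nilpotent groups: `p'`-subgroups centralizing
a Sylow subgroup of a solvable group.
-/

set_option autoImplicit false

namespace Cfsg.Agent.Lib.Basic

open Subgroup Cfsg

open scoped Pointwise

universe u

/-- In a solvable group, a `p'`-subgroup which commutes with a Sylow `p`-subgroup lies in a normal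
`p'`-subgroup. -/
theorem exists_normal_coprime_ge_aux {p : ℕ} [hp : Fact p.Prime] (n : ℕ) :
    ∀ (H : Type u) [Group H] [Finite H] [Group.IsSolvable H], Nat.card H = n →
    ∀ (S D : Subgroup H), IsPGroup p S → S.index.Coprime p → (Nat.card D).Coprime p →
      (∀ x ∈ S, ∀ y ∈ D, x * y = y * x) → ∃ X : Subgroup H, X.Normal ∧ (Nat.card X).Coprime p ∧ D ≤ X := by
  induction n using Nat.strong_induction_on with
  | _ n ih =>
  intro H _ _ _ hn S D hS hSi hD hc
  by_cases htriv : Subsingleton H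
  · refine ⟨⊤, inferInstance, ?_, le_top⟩
    have : Nat.card (⊤ : Subgroup H) = 1 := by
      rw [Subgroup.card_top, Nat.card_of_subsingleton (1 : H)]
    rw [this]
    exact Nat.coprime_one_left p
  rw [not_subsingleton_iff_nontrivial] at htriv
  obtain ⟨N, hN⟩ := exists_isMinNormal (G := H)
  obtain ⟨hNc, r, hr, hNr⟩ := hN.isPGroup
  haveI hNn : N.Normal := hN.1
  have hNb : N ≠ ⊥ := hN.2.1
  have hNcard : 1 < Nat.card N := by
    have h1 : Nat.card N ≠ 1 := fun h => hNb (Subgroup.card_eq_one.mp h)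
    have h2 : 0 < Nat.card N := Nat.card_pos
    omega
  let π : H →* H ⧸ N := QuotientGroup.mk' N
  have hsurj : Function.Surjective π := QuotientGroup.mk'_surjective N
  have hπ1 : ∀ y, π y = 1 ↔ y ∈ N := fun y => QuotientGroup.eq_one_iff y
  have hlt : Nat.card (H ⧸ N) < n := by
    have h1 : Nat.card N * Nat.card (H ⧸ N) = Nat.card H := by
      rw [mul_comm]
      exact (Subgroup.card_eq_card_quotient_mul_card_subgroup N).symm
    have h2 : 0 < Nat.card (H ⧸ N) := Nat.card_pos
    rw [← hn, ← h1]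
    nlinarith
  obtain ⟨Xb, hXbn, hXbc, hXbD⟩ := ih _ hlt (H ⧸ N) rfl (S.map π) (D.map π) (hS.map π)
    (Nat.Coprime.coprime_dvd_left (S.index_map_dvd hsurj) hSi)
    (Nat.Coprime.coprime_dvd_left (Subgroup.card_map_dvd D π) hD)
    (by
      rintro _ ⟨x, hx, rfl⟩ _ ⟨y, hy, rfl⟩
      rw [← map_mul, ← map_mul, hc x hx y hy])
  set Y : Subgroup H := Xb.comap π with hY
  haveI hYn : Y.Normal := hXbn.comap π
  have hDY : D ≤ Y := by
    intro d hd
    exact hXbD ⟨d, hd, rfl⟩
  have hNY : N ≤ Y := by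
    intro x hx
    change π x ∈ Xb
    rw [(hπ1 x).mpr hx]
    exact Xb.one_mem
  have hYcard : Nat.card Y = Nat.card N * Nat.card Xb := card_comap_mk Xb
  by_cases hrp : r = p
  · subst hrp
    -- `N ≤ S`
    have hNS : N ≤ S := by
      have hiS : ¬ r ∣ S.index := fun h => hp.out.one_lt.ne' (Nat.eq_one_of_dvd_coprimes hSi h dvd_rfl)
      exact normal_pGroup_le_sylow hNn hNr (hS.toSylow hiS)
    set Y₁ : Subgroup H := Y ⊓ centralizer (N : Set H) with hY₁
    haveI hCn : (centralizer (N : Set H)).Normal := inferInstance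
    haveI hY₁n : Y₁.Normal := Subgroup.normal_inf_normal _ _
    have hNY₁ : N ≤ Y₁ := by
      refine le_inf hNY ?_
      intro x hx
      rw [Subgroup.mem_centralizer_iff]
      intro y hy
      have := hNc.is_comm.comm ⟨y, hy⟩ ⟨x, hx⟩
      exact congrArg Subtype.val this
    have hDY₁ : D ≤ Y₁ := by
      refine le_inf hDY ?_
      intro x hx
      rw [Subgroup.mem_centralizer_iff]
      intro y hy
      exact hc y (hNS hy) x hx
    -- Schur-Zassenhaus
    let N₁ : Subgroup Y₁ := N.subgroupOf Y₁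
    haveI hN₁n : N₁.Normal := hNn.subgroupOf Y₁
    have hN₁card : Nat.card N₁ = Nat.card N := card_subgroupOf_of_le hNY₁
    have hN₁idx : N₁.index ∣ Nat.card Xb := by
      have h1 : Nat.card N₁ * N₁.index = Nat.card Y₁ := Subgroup.card_mul_index N₁
      have h2 : Nat.card Y₁ ∣ Nat.card Y := Subgroup.card_dvd_of_le inf_le_left
      rw [← h1, hYcard, hN₁card] at h2
      exact Nat.dvd_of_mul_dvd_mul_left Nat.card_pos h2
    have hNrpow : ∃ k, Nat.card N = r ^ k := IsPGroup.iff_card.mp hNr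
    obtain ⟨k, hk⟩ := hNrpow
    have hcop1 : (Nat.card N₁).Coprime N₁.index := by
      rw [hN₁card, hk]
      exact Nat.Coprime.pow_left k (Nat.Coprime.coprime_dvd_right hN₁idx hXbc.symm)
    obtain ⟨W₁, hW₁⟩ := Subgroup.exists_right_complement'_of_coprime hcop1
    set W : Subgroup H := W₁.map Y₁.subtype with hW
    have hWcard : Nat.card W = N₁.index := by
      rw [hW, Subgroup.card_map_of_injective Y₁.subtype_injective]
      exact hW₁.symm.index_eq_card.symm
    have hWc : (Nat.card W).Coprime r := by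
      rw [hWcard]
      exact Nat.Coprime.coprime_dvd_left hN₁idx hXbc
    have hcomm : ∀ x ∈ N, ∀ y ∈ W, x * y = y * x := by
      rintro x hx _ ⟨y, -, rfl⟩
      exact (Subgroup.mem_centralizer_iff.mp (y : Y₁).2.2 x hx)
    have hsupY₁ : ∀ x ∈ Y₁, x ∈ N ⊔ W := by
      intro x hx
      have h1 : (⟨x, hx⟩ : Y₁) ∈ N₁ ⊔ W₁ := by
        rw [hW₁.sup_eq_top]
        trivial
      rw [Subgroup.mem_sup_of_normal_left] at h1
      obtain ⟨a, ha, b, hb, hab⟩ := h1
      have h2 : x = (a : H) * (b : H) := by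
        have := congrArg Subtype.val hab
        simpa using this.symm
      rw [h2]
      exact Subgroup.mul_mem _ (Subgroup.mem_sup_left ha) (Subgroup.mem_sup_right ⟨b, hb, rfl⟩)
    have hmem : ∀ x ∈ Y₁, (orderOf x).Coprime r → x ∈ W := fun x hx hxc =>
      mem_right_of_coprime hNr hWc hcomm (hsupY₁ x hx) hxc
    have hWY₁ : W ≤ Y₁ := Subgroup.map_subtype_le _
    refine ⟨W, ⟨fun w hw g => ?_⟩, hWc, fun d hd => hmem d (hDY₁ hd) ?_⟩
    · refine hmem _ (hY₁n.conj_mem _ (hWY₁ hw) g) ?_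
      rw [show g * w * g⁻¹ = MulAut.conj g w from rfl, MulEquiv.orderOf_eq]
      exact Nat.Coprime.coprime_dvd_left (Subgroup.orderOf_dvd_natCard _ hw) hWc
    · exact Nat.Coprime.coprime_dvd_left (Subgroup.orderOf_dvd_natCard _ hd) hD
  · refine ⟨Y, hYn, ?_, hDY⟩
    rw [hYcard]
    refine Nat.Coprime.mul_left ?_ hXbc
    haveI : Fact r.Prime := ⟨hr⟩
    obtain ⟨k, hk⟩ := IsPGroup.iff_card.mp hNr
    rw [hk]
    exact Nat.Coprime.pow_left k ((Nat.coprime_primes hr hp.out).mpr hrp)

theorem exists_normal_coprime_ge {H : Type u} [Group H] [Finite H] [Group.IsSolvable H] {p : ℕ}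
    [hp : Fact p.Prime] (S D : Subgroup H) (hS : IsPGroup p S) (hSi : S.index.Coprime p)
    (hD : (Nat.card D).Coprime p) (hc : ∀ x ∈ S, ∀ y ∈ D, x * y = y * x) :
    ∃ X : Subgroup H, X.Normal ∧ (Nat.card X).Coprime p ∧ D ≤ X :=
  exists_normal_coprime_ge_aux _ H rfl S D hS hSi hD hc

end Cfsg.Agent.Lib.Basic
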