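import Cfsg.Agent.Lib.Basic.Sys2

/-!
# System normalizers and Carter subgroups.
-/

set_option autoImplicit false

namespace Cfsg.Agent.Lib.Basic

open Subgroup Cfsg

open scoped Pointwise commutatorElement

variable {G : Type*} [Group G]

/-- In a nilpotent group, a subgroup of `p`-power index and order prime to `p` is normal. -/
theorem normal_of_complement_of_isNilpotent [Finite G] (hG : Group.IsNilpotent G) {L : Subgroup G}
    {p : ℕ} [hp : Fact p.Prime] (hc : (Nat.card L).Coprime p) (hi : ∃ k, L.index = p ^ k) : L.Normal := by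
  have hnil_top : Group.IsNilpotent (⊤ : Subgroup G) :=
    Group.nilpotent_of_surjective (Subgroup.topEquiv (G := G)).symm.toMonoidHom
      (Subgroup.topEquiv (G := G)).symm.surjective
  obtain ⟨K₁, K₂, -, -, hsup, hK₁p, hK₂c, hKcard, hKcomm⟩ := exists_nilpotent_decomp hnil_top p
  haveI hK₂n : K₂.Normal := by
    rw [← Subgroup.normalizer_eq_top_iff, eq_top_iff, ← hsup]
    refine sup_le (fun h hh => mem_normalizer_of_commute_all fun q hq => hKcomm h hh q hq) Subgroup.le_normalizer
  have hLK : L ≤ K₂ := fun x hx =>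
    mem_right_of_coprime hK₁p hK₂c hKcomm (by rw [hsup]; exact Subgroup.mem_top x)
      (Nat.Coprime.coprime_dvd_left (Subgroup.orderOf_dvd_natCard _ hx) hc)
  obtain ⟨a, ha⟩ := IsPGroup.iff_card.mp hK₁p
  have hcard : Nat.card L = Nat.card K₂ := by
    refine card_eq_of_hall_parts hp.out hc hK₂c hi ⟨a, ha⟩ ?_
    rw [Subgroup.card_mul_index, mul_comm, hKcard, Nat.card_congr (Subgroup.topEquiv (G := G)).toEquiv]
  have : L = K₂ := Subgroup.eq_of_le_of_card_ge hLK hcard.ge
  rw [this]
  exact hK₂n

/-- The relative index of `A` in `A ⊔ M`, with `M` normal, divides the order of `M`. -/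
theorem relIndex_sup_dvd_card [Finite G] (A M : Subgroup G) [hM : M.Normal] :
    A.relIndex (A ⊔ M) ∣ Nat.card M := by
  set X : Subgroup G := A ⊔ M with hX
  have h1 : A.subgroupOf X ⊔ M.subgroupOf X = ⊤ := by
    rw [eq_top_iff]
    rintro ⟨x, hx⟩ -
    obtain ⟨a, ha, b, hb, hab⟩ := Subgroup.mem_sup_of_normal_right.mp hx
    have hax : a ∈ X := le_sup_left (α := Subgroup G) ha
    have hbx : b ∈ X := le_sup_right (α := Subgroup G) hb
    have : (⟨x, hx⟩ : X) = ⟨a, hax⟩ * ⟨b, hbx⟩ := Subtype.ext hab.symm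
    rw [this]
    exact Subgroup.mul_mem _ (Subgroup.mem_sup_left (by simpa [Subgroup.mem_subgroupOf] using ha))
      (Subgroup.mem_sup_right (by simpa [Subgroup.mem_subgroupOf] using hb))
  haveI hNM : (M.subgroupOf X).Normal := inferInstance
  have h2 := index_dvd_card_of_sup_eq_top h1
  have h6 : Nat.card (M.subgroupOf X) = Nat.card M := card_subgroupOf_of_le le_sup_right
  rw [h6] at h2
  exact h2

/-- The normalizer of a `p`-complement modulo which the group is nilpotent over a minimal normal
`p`-subgroup is a Carter subgroup. -/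
theorem isCarter_normalizer_of_minNormal [Finite G] [Group.IsSolvable G] {M T : Subgroup G}
    [hMn : M.Normal] (hM : IsMinNormal M) (hab : IsMulCommutative M) {r : ℕ} [hr : Fact r.Prime] (hMr : IsPGroup r M)
    (hQ : Group.IsNilpotent (G ⧸ M)) (hTc : (Nat.card T).Coprime r) (hTi : ∃ k, T.index = r ^ k) :
    IsCarterSubgroup (normalizer (T : Set G)) := by
  set π := QuotientGroup.mk' M with hπ
  have hπs : Function.Surjective π := QuotientGroup.mk'_surjective M
  obtain ⟨k, hk⟩ := hTi
  -- `T ⊔ M` is normal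
  have hTbar : (T.map π).Normal := by
    refine normal_of_complement_of_isNilpotent hQ
      (Nat.Coprime.coprime_dvd_left (Subgroup.card_map_dvd T π) hTc) ?_
    have h1 := Subgroup.index_map_dvd T hπs
    rw [hk] at h1
    obtain ⟨j, -, hj⟩ := (Nat.dvd_prime_pow hr.out).mp h1
    exact ⟨j, hj⟩
  have hL : (T ⊔ M).Normal := by
    have h1 := hTbar.comap π
    rwa [Subgroup.comap_map_eq, QuotientGroup.ker_mk'] at h1
  haveI := hL
  have hrel : T.relIndex (T ⊔ M) ∣ r ^ k := by
    rw [← hk, ← Subgroup.relIndex_mul_index (le_sup_left : T ≤ T ⊔ M)]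
    exact Dvd.intro _ rfl
  have hfr : (T ⊔ M) ⊔ normalizer (T : Set G) = ⊤ :=
    hall_frattini_argument (T ⊔ M) inferInstance T le_sup_left
      (Nat.Coprime.coprime_dvd_right hrel (Nat.Coprime.pow_right _ hTc))
  set C : Subgroup G := normalizer (T : Set G) with hC
  have hTC : T ≤ C := Subgroup.le_normalizer
  have hMC : M ⊔ C = ⊤ := by
    rw [eq_top_iff, ← hfr]
    refine sup_le (sup_le (hTC.trans le_sup_right) le_sup_left) le_sup_right
  have hdisj : Disjoint T M := by
    refine Subgroup.disjoint_of_coprime_natCard ?_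
    obtain ⟨n, hn⟩ := hMr.exists_card_eq
    rw [hn]
    exact Nat.Coprime.pow_right _ hTc
  -- `Z = M ⊓ C` is normal
  have hZn : (M ⊓ C).Normal := by
    rw [← Subgroup.normalizer_eq_top_iff, eq_top_iff, ← hMC]
    refine sup_le ?_ ?_
    · intro m hm
      refine mem_normalizer_of_commute_all ?_
      intro x hx
      have := hab.is_comm.comm (⟨m, hm⟩ : M) ⟨x, hx.1⟩
      exact congrArg Subtype.val this
    · intro c hc
      refine mem_normalizer_inf' ?_ (Subgroup.le_normalizer hc)
      rw [Subgroup.normalizer_eq_top_iff.mpr hMn]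
      exact Subgroup.mem_top c
  rcases hM.2.2 _ hZn inf_le_left with hZ | hZ
  · -- `M ⊓ C = ⊥`
    have hinj : Function.Injective (π.comp C.subtype) := by
      rw [injective_iff_map_eq_one]
      intro c hc
      have h1 : (c : G) ∈ M := (QuotientGroup.eq_one_iff _).mp hc
      have h2 : (c : G) ∈ M ⊓ C := ⟨h1, c.2⟩
      rw [hZ] at h2
      exact Subtype.ext (Subgroup.mem_bot.mp h2)
    refine ⟨isNilpotent_of_injective' _ hinj hQ, le_antisymm ?_ Subgroup.le_normalizer⟩
    intro y hy
    have hy2 : y ∈ M ⊔ C := by rw [hMC]; exact Subgroup.mem_top y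
    obtain ⟨m, hm, n, hn, rfl⟩ := Subgroup.mem_sup_of_normal_left.mp hy2
    have hmN : m ∈ normalizer (C : Set G) := by
      have h1 : m = (m * n) * n⁻¹ := by group
      rw [h1]
      exact Subgroup.mul_mem _ hy (Subgroup.inv_mem _ (Subgroup.le_normalizer hn))
    refine C.mul_mem ?_ hn
    refine mem_normalizer_of_commute_all ?_
    intro t ht
    have h1 : m * t * m⁻¹ ∈ C := (Subgroup.mem_normalizer_iff.mp hmN t).mp (hTC ht)
    have h2 : m * t * m⁻¹ * t⁻¹ ∈ C := C.mul_mem h1 (C.inv_mem (hTC ht))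
    have h3 : m * t * m⁻¹ * t⁻¹ ∈ M := by
      have h4 : m * t * m⁻¹ * t⁻¹ = m * (t * m⁻¹ * t⁻¹) := by group
      rw [h4]
      exact M.mul_mem hm (hMn.conj_mem _ (M.inv_mem hm) t)
    have h5 : m * t * m⁻¹ * t⁻¹ ∈ M ⊓ C := ⟨h3, h2⟩
    rw [hZ] at h5
    have h6 := mul_inv_eq_one.mp (Subgroup.mem_bot.mp h5)
    exact mul_inv_eq_iff_eq_mul.mp h6
  · -- `M ≤ C`: the group is nilpotent
    have hMC2 : M ≤ C := by
      rw [← hZ]
      exact inf_le_right
    have hCt : C = ⊤ := by
      rw [eq_top_iff, ← hMC]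
      exact sup_le hMC2 le_rfl
    haveI hTn : T.Normal := Subgroup.normalizer_eq_top_iff.mp hCt
    haveI : Group.IsNilpotent (G ⧸ M) := hQ
    haveI : Group.IsNilpotent (G ⧸ T) := by
      have : IsPGroup r (G ⧸ T) := IsPGroup.of_card (n := k) hk
      exact this.isNilpotent
    let f : G →* (G ⧸ M) × (G ⧸ T) := MonoidHom.prod (QuotientGroup.mk' M) (QuotientGroup.mk' T)
    have hinj : Function.Injective f := by
      rw [injective_iff_map_eq_one]
      intro x hx
      have h1 : (QuotientGroup.mk' M x) = 1 := congrArg Prod.fst hx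
      have h2 : (QuotientGroup.mk' T x) = 1 := congrArg Prod.snd hx
      exact Subgroup.disjoint_def.mp hdisj ((QuotientGroup.eq_one_iff x).mp h2)
        ((QuotientGroup.eq_one_iff x).mp h1)
    have hGnil : Group.IsNilpotent G := isNilpotent_of_injective' f hinj inferInstance
    rw [hCt]
    refine ⟨?_, by rw [Subgroup.normalizer_eq_top_iff]; infer_instance⟩
    exact Group.nilpotent_of_surjective (Subgroup.topEquiv (G := G)).symm.toMonoidHom
      (Subgroup.topEquiv (G := G)).symm.surjective

/-- **Every system normalizer lies in a Carter subgroup into which the system reduces.** -/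
theorem carter_of_system.{u} : ∀ (n : ℕ) {G : Type u} [Group G] [Finite G] [Group.IsSolvable G]
    (K : Nat.Primes → Subgroup G), IsComplementSystem K → Nat.card G = n →
    ∃ C : Subgroup G, IsCarterSubgroup C ∧ (∀ p : Nat.Primes, ∃ k : ℕ, (K p).relIndex C = (p : ℕ) ^ k) ∧
      systemNormalizer K ≤ C := by
  intro n
  induction n using Nat.strong_induction_on with
  | _ n ih =>
  intro G _ _ _ K hK hn
  by_cases hnt : Nontrivial G
  swap
  · haveI : Subsingleton G := not_nontrivial_iff_subsingleton.mp hnt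
    refine ⟨⊤, ⟨inferInstance, by rw [Subgroup.normalizer_eq_top_iff]; infer_instance⟩,
      fun p => ⟨(Nat.card G).factorization p, ?_⟩, le_top⟩
    rw [Subgroup.relIndex_top_right]
    exact hK p
  obtain ⟨M, hM⟩ := exists_isMinNormal (G := G)
  obtain ⟨hab, r, hr, hMr⟩ := hM.isPGroup
  haveI hMn : M.Normal := hM.1
  haveI hfr : Fact r.Prime := ⟨hr⟩
  set π := QuotientGroup.mk' M with hπ
  have hπs : Function.Surjective π := QuotientGroup.mk'_surjective M
  have hcard : Nat.card (G ⧸ M) < n := by
    rw [← hn]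
    have h1 := Subgroup.card_mul_index M
    have h2 : 1 < Nat.card M := by
      haveI : Nontrivial M := (Subgroup.nontrivial_iff_ne_bot M).mpr hM.2.1
      exact Finite.one_lt_card
    rw [← Subgroup.index_eq_card]
    have h3 : 0 < M.index := Nat.pos_of_ne_zero Subgroup.index_ne_zero_of_finite
    nlinarith
  have hKbar : IsComplementSystem (fun p => (K p).map π) := isComplementSystem_map π hπs hK
  obtain ⟨Cb, hCb, hred, hDb⟩ := ih _ hcard (fun p => (K p).map π) hKbar rfl
  set X : Subgroup G := Cb.comap π with hX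
  have hπ1 : ∀ y, π y = 1 ↔ y ∈ M := fun y => QuotientGroup.eq_one_iff y
  have hMX : M ≤ X := by
    intro m hm
    change π m ∈ Cb
    rw [(hπ1 m).mpr hm]
    exact Cb.one_mem
  have hXmap : X.map π = Cb := Subgroup.map_comap_eq_self_of_surjective hπs Cb
  have hDX : systemNormalizer K ≤ X := by
    intro x hx
    apply hDb
    change π x ∈ _
    rw [systemNormalizer_map hK M]
    exact ⟨x, hx, rfl⟩
  by_cases hXt : X = ⊤
  · -- `G / M` is nilpotent
    have hCbt : Cb = ⊤ := by
      rw [← hXmap, hXt, Subgroup.map_top_of_surjective _ hπs]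
    have hQ : Group.IsNilpotent (G ⧸ M) := by
      have h1 := hCb.1
      rw [hCbt] at h1
      exact Group.nilpotent_of_surjective (Subgroup.topEquiv (G := G ⧸ M)).toMonoidHom
        (Subgroup.topEquiv (G := G ⧸ M)).surjective
    let R : Nat.Primes := ⟨r, hr⟩
    refine ⟨normalizer (K R : Set G), ?_, ?_, iInf_le _ R⟩
    · exact isCarter_normalizer_of_minNormal hM hab hMr hQ (complement_card_coprime hK R) ⟨_, hK R⟩
    · intro p
      by_cases hpr : (p : ℕ) = r
      · have hpR : p = R := Subtype.ext hpr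
        subst hpR
        have h1 : (K R).relIndex (normalizer (K R : Set G)) ∣ (R : ℕ) ^ (Nat.card G).factorization R := by
          rw [← hK R, ← Subgroup.relIndex_mul_index (Subgroup.le_normalizer : K R ≤ normalizer (K R : Set G))]
          exact Dvd.intro _ rfl
        obtain ⟨k, -, hk⟩ := (Nat.dvd_prime_pow R.2).mp h1
        exact ⟨k, hk⟩
      · have hMK : M ≤ K p := normal_pGroup_le_complement hK hr hMr p hpr
        haveI hfp : Fact (p : ℕ).Prime := ⟨p.2⟩
        have h1 : ((K p).map π).Normal :=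
          normal_of_complement_of_isNilpotent hQ (complement_card_coprime hKbar p) ⟨_, hKbar p⟩
        have h2 : (K p).Normal := by
          have h3 := h1.comap π
          rwa [Subgroup.comap_map_eq, QuotientGroup.ker_mk', sup_eq_left.mpr hMK] at h3
        have h4 : (K p).relIndex (normalizer (K R : Set G)) ∣ (p : ℕ) ^ (Nat.card G).factorization p := by
          rw [← hK p]
          exact Subgroup.relIndex_dvd_index_of_normal _ _
        obtain ⟨k, -, hk⟩ := (Nat.dvd_prime_pow p.2).mp h4
        exact ⟨k, hk⟩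
  · -- the proper subgroup `X`
    have hKX : IsComplementSystem (fun p => (K p).subgroupOf X) := by
      refine isComplementSystem_of (fun p => ⟨?_, ?_⟩)
      · obtain ⟨k, hk⟩ := hred p
        have h1 : (K p ⊔ M).relIndex X = (p : ℕ) ^ k := by
          have h2 := Subgroup.relIndex_comap (H := (K p).map π) π X
          rw [Subgroup.comap_map_eq, QuotientGroup.ker_mk', hXmap, hk] at h2
          exact h2
        show ∃ k, (K p).relIndex X = (p : ℕ) ^ k
        by_cases hpr : (p : ℕ) = r
        · -- `p = r`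
          have hA : (K p ⊓ X) ⊔ M = (K p ⊔ M) ⊓ X := by
            refine le_antisymm (sup_le (inf_le_inf_right _ le_sup_left) (le_inf le_sup_right hMX)) ?_
            rintro y ⟨hy1, hy2⟩
            obtain ⟨a, ha, b, hb, rfl⟩ := Subgroup.mem_sup_of_normal_right.mp hy1
            have hax : a ∈ X := by
              have h3 : a = (a * b) * b⁻¹ := by group
              rw [h3]
              exact X.mul_mem hy2 (X.inv_mem (hMX hb))
            exact Subgroup.mul_mem _ (Subgroup.mem_sup_left ⟨ha, hax⟩) (Subgroup.mem_sup_right hb)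
          have h2 := relIndex_sup_dvd_card (K p ⊓ X) M
          rw [hA] at h2
          obtain ⟨c, hc⟩ := hMr.exists_card_eq
          rw [hc, ← hpr] at h2
          obtain ⟨j, -, hj⟩ := (Nat.dvd_prime_pow p.2).mp h2
          have h3 := Subgroup.relIndex_mul_relIndex (K p ⊓ X) ((K p ⊔ M) ⊓ X) X
            (inf_le_inf_right _ le_sup_left) inf_le_right
          rw [hj, Subgroup.inf_relIndex_right, Subgroup.inf_relIndex_right, h1] at h3
          exact ⟨j + k, by rw [← h3, pow_add]⟩
        · have hMK : M ≤ K p := normal_pGroup_le_complement hK hr hMr p hpr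
          rw [sup_eq_left.mpr hMK] at h1
          exact ⟨k, h1⟩
      · refine Nat.Coprime.coprime_dvd_left ?_ (complement_card_coprime hK p)
        have h1 : Nat.card (((K p).subgroupOf X).map X.subtype) = Nat.card ((K p).subgroupOf X) :=
          Subgroup.card_map_of_injective X.subtype_injective
        rw [← h1]
        exact Subgroup.card_dvd_of_le (by
          rintro _ ⟨y, hy, rfl⟩
          exact Subgroup.mem_subgroupOf.mp hy)
    have hXlt : Nat.card X < n := by
      rw [← hn, ← Nat.card_congr (Subgroup.topEquiv (G := G)).toEquiv]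
      exact card_lt_of_lt (lt_top_iff_ne_top.mpr hXt)
    obtain ⟨C', hC', hred', hD'⟩ := ih _ hXlt (fun p => (K p).subgroupOf X) hKX rfl
    set C : Subgroup G := C'.map X.subtype with hC
    have hCX : C ≤ X := Subgroup.map_subtype_le _
    have hCsub : C.subgroupOf X = C' := by
      rw [hC, Subgroup.subgroupOf, Subgroup.comap_map_eq_self_of_injective X.subtype_injective]
    -- `C` covers `X / M`
    have hCmap : C.map π = Cb := by
      refine le_antisymm ?_ ?_
      · rw [← hXmap]
        exact Subgroup.map_mono hCX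
      · haveI hCbn : Group.IsNilpotent Cb := hCb.1
        let f : X →* Cb := (π.comp X.subtype).codRestrict Cb (fun x => x.2)
        have h1 := sup_ker_eq_top_of_isCarter f hCbn hC'
        intro q hq
        obtain ⟨x, hx, rfl⟩ := (hXmap ▸ hq : q ∈ X.map π)
        have h2 : (⟨x, hx⟩ : X) ∈ C' ⊔ f.ker := by rw [h1]; exact Subgroup.mem_top _
        obtain ⟨a, ha, b, hb, hab⟩ := Subgroup.mem_sup_of_normal_right.mp h2
        have h3 : π (b : G) = 1 := congrArg Subtype.val (MonoidHom.mem_ker.mp hb)
        have h4 : x = (a : G) * (b : G) := by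
          have := congrArg Subtype.val hab
          simpa using this.symm
        rw [h4, map_mul, h3, mul_one]
        exact ⟨a, ⟨a, ha, rfl⟩, rfl⟩
    have hCarter : IsCarterSubgroup C := by
      refine isCarter_map_subtype hC' ?_
      intro y hy
      change π y ∈ Cb
      have h1 : π y ∈ normalizer ((C.map π : Subgroup _) : Set _) :=
        Subgroup.le_normalizer_map π ⟨y, hy, rfl⟩
      rw [hCmap, hCb.2] at h1
      exact h1
    refine ⟨C, hCarter, ?_, ?_⟩
    · intro p
      obtain ⟨k, hk⟩ := hred' p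
      refine ⟨k, ?_⟩
      rw [← hk, ← hCsub]
      exact (Subgroup.relIndex_subgroupOf hCX).symm
    · intro x hx
      have hxX := hDX hx
      have h1 : (⟨x, hxX⟩ : X) ∈ systemNormalizer (fun p => (K p).subgroupOf X) := by
        unfold systemNormalizer
        rw [Subgroup.mem_iInf]
        intro p
        have h2 : x ∈ normalizer (K p : Set G) := (Subgroup.mem_iInf.mp hx) p
        exact Subgroup.le_normalizer_comap X.subtype h2
      exact ⟨_, hD' h1, rfl⟩

/-- **Each Carter subgroup contains a system normalizer.** -/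
theorem exists_system_le_carter [Finite G] [Group.IsSolvable G] {C : Subgroup G} (hC : IsCarterSubgroup C) :
    ∃ K : Nat.Primes → Subgroup G, IsComplementSystem K ∧ systemNormalizer K ≤ C := by
  obtain ⟨K₀, hK₀⟩ := exists_complementSystem (G := G)
  obtain ⟨C₀, hC₀, -, hD⟩ := carter_of_system _ K₀ hK₀ rfl
  obtain ⟨g, rfl⟩ := carter_conj _ rfl C₀ C hC₀ hC
  refine ⟨_, isComplementSystem_conj hK₀ g, ?_⟩
  rw [systemNormalizer_conj]
  exact Subgroup.pointwise_smul_le_pointwise_smul_iff.mpr hD

/-- A criterion for a subgroup to have index dividing the order of another. -/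
theorem index_dvd_card_of_forall_exists_mul [Finite G] {X Y : Subgroup G}
    (h : ∀ g : G, ∃ x ∈ X, ∃ y ∈ Y, g = x * y) : X.index ∣ Nat.card Y := by
  have h1 := MulAction.index_stabilizer Y ((1 : G) : G ⧸ X)
  have h2 : MulAction.orbit Y ((1 : G) : G ⧸ X) = Set.univ := by
    rw [Set.eq_univ_iff_forall]
    intro q
    obtain ⟨g, rfl⟩ := QuotientGroup.mk_surjective q
    obtain ⟨x, hx, y, hy, hxy⟩ := h g⁻¹
    refine ⟨⟨y⁻¹, Y.inv_mem hy⟩, ?_⟩
    have h3 : g = y⁻¹ * x⁻¹ := by
      rw [← mul_inv_rev, ← hxy, inv_inv]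
    rw [h3]
    show ((y⁻¹ • (1 : G) : G) : G ⧸ X) = _
    rw [QuotientGroup.eq]
    simp only [smul_eq_mul, mul_one, inv_inv]
    simpa using X.inv_mem hx
  rw [h2, Set.ncard_univ] at h1
  have h3 : X.index = Nat.card (G ⧸ X) := rfl
  rw [h3, ← h1]
  exact Subgroup.index_dvd_card _

/-- The `p`-complement attached to a Carter subgroup when the nilpotent length is at most two. -/
theorem exists_complement_normalized [Finite G] {F C : Subgroup G} [hFn : F.Normal]
    (hF : Group.IsNilpotent F) (hC : Group.IsNilpotent C) (hCF : C ⊔ F = ⊤) (p : Nat.Primes) :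
    ∃ L : Subgroup G, (∃ k : ℕ, L.index = (p : ℕ) ^ k) ∧ (Nat.card L).Coprime p ∧
      C ≤ normalizer (L : Set G) := by
  haveI hfp : Fact (p : ℕ).Prime := ⟨p.2⟩
  obtain ⟨C₁, C₂, -, -, hCsup, hC₁p, hC₂c, -, hCcomm⟩ := exists_nilpotent_decomp hC p
  obtain ⟨F₁, F₂, hF₁F, hF₂F, hFsup, hF₁p, hF₂c, -, hFcomm⟩ := exists_nilpotent_decomp hF p
  haveI hF₂n : F₂.Normal := by
    refine ⟨fun x hx g => ?_⟩
    have h1 : g * x * g⁻¹ ∈ F₁ ⊔ F₂ := by
      rw [hFsup]
      exact hFn.conj_mem _ (hF₂F hx) g
    refine mem_right_of_coprime hF₁p hF₂c hFcomm h1 ?_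
    rw [show g * x * g⁻¹ = (MulAut.conj g) x from rfl, MulEquiv.orderOf_eq]
    exact Nat.Coprime.coprime_dvd_left (Subgroup.orderOf_dvd_natCard _ hx) hF₂c
  haveI hF₁n : F₁.Normal := by
    refine ⟨fun x hx g => ?_⟩
    have h1 : g * x * g⁻¹ ∈ F₁ ⊔ F₂ := by
      rw [hFsup]
      exact hFn.conj_mem _ (hF₁F hx) g
    obtain ⟨e, he⟩ := hF₁p ⟨x, hx⟩
    have he' : x ^ p.1 ^ e = 1 := by simpa [Subtype.ext_iff] using he
    refine mem_left_of_pElement hF₁p hF₂c hFcomm h1 (e := e) ?_
    rw [conj_pow, he', mul_one, mul_inv_cancel]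
  set L : Subgroup G := C₂ ⊔ F₂ with hL
  set Y : Subgroup G := C₁ ⊔ F₁ with hY
  have hYp : IsPGroup p Y := IsPGroup.to_sup_of_normal_right hC₁p hF₁p
  refine ⟨L, ?_, ?_, ?_⟩
  · have h1 : L.index ∣ Nat.card Y := by
      refine index_dvd_card_of_forall_exists_mul ?_
      intro g
      have hg : g ∈ C ⊔ F := by rw [hCF]; exact Subgroup.mem_top g
      obtain ⟨c, hc, f, hf, rfl⟩ := Subgroup.mem_sup_of_normal_right.mp hg
      rw [← hCsup] at hc
      rw [← hFsup] at hf
      obtain ⟨c₁, hc₁, c₂, hc₂, rfl⟩ := exists_mul_of_mem_sup_of_commute hCcomm hc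
      obtain ⟨f₁, hf₁, f₂, hf₂, rfl⟩ := exists_mul_of_mem_sup_of_commute hFcomm hf
      refine ⟨c₂ * (c₁ * f₂ * c₁⁻¹), ?_, c₁ * f₁, Subgroup.mul_mem_sup hc₁ hf₁, ?_⟩
      · exact L.mul_mem (Subgroup.mem_sup_left hc₂) (Subgroup.mem_sup_right (hF₂n.conj_mem _ hf₂ c₁))
      · rw [hCcomm c₁ hc₁ c₂ hc₂, hFcomm f₁ hf₁ f₂ hf₂]
        group
    obtain ⟨a, ha⟩ := hYp.exists_card_eq
    rw [ha] at h1
    obtain ⟨k, -, hk⟩ := (Nat.dvd_prime_pow p.2).mp h1
    exact ⟨k, hk⟩
  · refine Nat.Coprime.coprime_dvd_left (card_sup_dvd_of_normal C₂ F₂) ?_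
    exact Nat.Coprime.mul_left hC₂c hF₂c
  · rw [← hCsup]
    refine sup_le ?_ ?_
    · intro c hc
      refine mem_normalizer_sup (mem_normalizer_of_commute_all fun q hq => hCcomm c hc q hq) ?_
      rw [Subgroup.normalizer_eq_top_iff.mpr hF₂n]
      exact Subgroup.mem_top c
    · intro c hc
      refine mem_normalizer_sup (Subgroup.le_normalizer hc) ?_
      rw [Subgroup.normalizer_eq_top_iff.mpr hF₂n]
      exact Subgroup.mem_top c

/-- **Nilpotent length at most two: Carter subgroups are exactly the system normalizers.** -/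
theorem carter_iff_systemNormalizer [Finite G] (F : Subgroup G) [hFn : F.Normal]
    (hF : Group.IsNilpotent F) (hGF : Group.IsNilpotent (G ⧸ F)) (C : Subgroup G) :
    IsCarterSubgroup C ↔ ∃ K : Nat.Primes → Subgroup G, IsComplementSystem K ∧ C = systemNormalizer K := by
  haveI : Group.IsSolvable G := by
    haveI : Group.IsSolvable F := by
      haveI := hF
      infer_instance
    haveI : Group.IsSolvable (G ⧸ F) := by
      haveI := hGF
      infer_instance
    exact solvable_of_ker_le_range F.subtype (QuotientGroup.mk' F) (by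
      rw [QuotientGroup.ker_mk', Subgroup.range_subtype])
  have main : ∀ C : Subgroup G, IsCarterSubgroup C →
      ∃ K : Nat.Primes → Subgroup G, IsComplementSystem K ∧ C = systemNormalizer K := by
    intro C hC
    have hCF : C ⊔ F = ⊤ := by
      have := sup_ker_eq_top_of_isCarter (QuotientGroup.mk' F) hGF hC
      rwa [QuotientGroup.ker_mk'] at this
    have h := exists_complement_normalized hF hC.1 hCF
    choose K hK1 hK2 hK3 using h
    have hK : IsComplementSystem K := isComplementSystem_of (fun p => ⟨hK1 p, hK2 p⟩)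
    refine ⟨K, hK, ?_⟩
    have hle : C ≤ systemNormalizer K := le_iInf hK3
    obtain ⟨C', hC', -, hD⟩ := carter_of_system _ K hK rfl
    have hCC' : C ≤ C' := hle.trans hD
    have h1 := isCarter_eq_top_of_isNilpotent (isCarter_subgroupOf hC hCC') hC'.1
    have h2 : C' ≤ C := Subgroup.subgroupOf_eq_top.mp h1
    exact le_antisymm hle (hD.trans h2)
  constructor
  · exact main C
  · rintro ⟨K, hK, rfl⟩
    obtain ⟨C₀, hC₀⟩ := exists_carter _ (G := G) rfl
    obtain ⟨K₀, hK₀, rfl⟩ := main C₀ hC₀
    obtain ⟨g, hg⟩ := systems_conj hK₀ hK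
    have h1 : K = fun p => MulAut.conj g • K₀ p := funext fun p => (hg p).symm
    rw [h1, systemNormalizer_conj]
    exact isCarter_conj hC₀ g

end Cfsg.Agent.Lib.Basic
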