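import Cfsg.Agent.Lib.Basic.KW1
import Cfsg.Agent.Lib.Basic.HallPerm
import Cfsg.Agent.Lib.Basic.Factor
import Cfsg.Agent.Lib.Basic.HallNil
import Cfsg.Agent.Lib.Basic.Sys3

/-!
# Wielandt's theorem on products of coprime nilpotent groups: the configuration.
-/

set_option autoImplicit false

namespace Cfsg.Agent.Lib.Basic

open Subgroup Cfsg

open scoped Pointwise

variable {G : Type*} [Group G] [Finite G]

set_option linter.unusedSectionVars false

/-- The decomposition of a subgroup into a `p`-part and a commuting `p'`-part. -/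
structure KWSplit (A : Subgroup G) (p : ℕ) (P K : Subgroup G) : Prop where
  le₁ : P ≤ A
  le₂ : K ≤ A
  sup : P ⊔ K = A
  isP : IsPGroup p P
  cop : (Nat.card K).Coprime p
  card : Nat.card P * Nat.card K = Nat.card A
  comm : ∀ x ∈ P, ∀ y ∈ K, x * y = y * x

theorem exists_kwSplit {A : Subgroup G} (hA : Group.IsNilpotent A) (p : ℕ) [Fact p.Prime] :
    ∃ P K, KWSplit A p P K := by
  obtain ⟨K₁, K₂, h1, h2, h3, h4, h5, h6, h7⟩ := exists_nilpotent_decomp hA p
  exact ⟨K₁, K₂, h1, h2, h3, h4, h5, h6, h7⟩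

namespace KWSplit

variable {A P K : Subgroup G} {p : ℕ} [hp : Fact p.Prime]

theorem le_centralizer_right (h : KWSplit A p P K) : K ≤ centralizer (P : Set G) :=
  fun y hy => Subgroup.mem_centralizer_iff.mpr fun x hx => h.comm x hx y hy

theorem le_centralizer_left (h : KWSplit A p P K) : P ≤ centralizer (K : Set G) :=
  fun x hx => Subgroup.mem_centralizer_iff.mpr fun y hy => (h.comm x hx y hy).symm

theorem le_normalizer_left (h : KWSplit A p P K) : A ≤ normalizer (P : Set G) := by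
  rw [← h.sup]
  exact sup_le Subgroup.le_normalizer (h.le_centralizer_right.trans (Subgroup.centralizer_le_normalizer _))

theorem le_normalizer_right (h : KWSplit A p P K) : A ≤ normalizer (K : Set G) := by
  rw [← h.sup]
  exact sup_le (h.le_centralizer_left.trans (Subgroup.centralizer_le_normalizer _)) Subgroup.le_normalizer

theorem mem_left (h : KWSplit A p P K) {x : G} (hx : x ∈ A) {e : ℕ} (hc : x ^ p ^ e = 1) : x ∈ P :=
  mem_left_of_pElement h.isP h.cop h.comm (h.sup ▸ hx) hc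

theorem mem_right (h : KWSplit A p P K) {x : G} (hx : x ∈ A) (hc : (orderOf x).Coprime p) : x ∈ K :=
  mem_right_of_coprime h.isP h.cop h.comm (h.sup ▸ hx) hc

theorem exists_mul (h : KWSplit A p P K) {x : G} (hx : x ∈ A) : ∃ u ∈ P, ∃ v ∈ K, u * v = x :=
  exists_mul_of_mem_sup_of_commute h.comm (h.sup ▸ hx)

theorem card_coprime (h : KWSplit A p P K) : (Nat.card P).Coprime (Nat.card K) := by
  obtain ⟨k, hk⟩ := IsPGroup.iff_card.mp h.isP
  rw [hk]
  exact Nat.Coprime.pow_left k h.cop.symm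

theorem left_ne_bot (h : KWSplit A p P K) (hd : p ∣ Nat.card A) : P ≠ ⊥ := by
  rintro rfl
  have := h.card
  rw [Subgroup.card_bot, one_mul] at this
  rw [← this] at hd
  exact hp.out.one_lt.ne' (Nat.eq_one_of_dvd_coprimes h.cop hd dvd_rfl)

theorem dvd_left (h : KWSplit A p P K) (hd : p ∣ Nat.card A) : p ∣ Nat.card P := by
  rw [← h.card] at hd
  rcases hp.out.dvd_mul.mp hd with h1 | h1
  · exact h1
  · exact absurd (Nat.eq_one_of_dvd_coprimes h.cop h1 dvd_rfl) hp.out.one_lt.ne'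

theorem right_ne_bot (h : KWSplit A p P K) {s : ℕ} (hs : s.Prime) (hsp : s ≠ p) (hd : s ∣ Nat.card A) :
    K ≠ ⊥ := by
  rintro rfl
  have := h.card
  rw [Subgroup.card_bot, mul_one] at this
  rw [← this] at hd
  obtain ⟨k, hk⟩ := IsPGroup.iff_card.mp h.isP
  rw [hk] at hd
  exact hsp ((Nat.prime_dvd_prime_iff_eq hs hp.out).mp (hs.dvd_of_dvd_pow hd))

/-- A `q`-subgroup of `A`, `q ≠ p`, lies in `K`. -/
theorem le_right_of_isPGroup (h : KWSplit A p P K) {q : ℕ} [Fact q.Prime] (hqp : q ≠ p) {T : Subgroup G}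
    (hTA : T ≤ A) (hT : IsPGroup q T) : T ≤ K := by
  intro x hx
  refine h.mem_right (hTA hx) ?_
  obtain ⟨k, hk⟩ := IsPGroup.iff_card.mp hT
  have h1 : orderOf x ∣ q ^ k := by
    rw [← hk]
    exact Subgroup.orderOf_dvd_natCard _ hx
  refine Nat.Coprime.coprime_dvd_left h1 (Nat.Coprime.pow_left k ?_)
  exact (Nat.coprime_primes Fact.out hp.out).mpr hqp

theorem le_left_of_isPGroup (h : KWSplit A p P K) {T : Subgroup G} (hTA : T ≤ A) (hT : IsPGroup p T) :
    T ≤ P := by
  intro x hx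
  obtain ⟨k, hk⟩ := IsPGroup.iff_card.mp hT
  refine h.mem_left (hTA hx) (e := k) ?_
  rw [← hk]
  have := pow_card_eq_one' (x := (⟨x, hx⟩ : T))
  exact congrArg Subtype.val this

/-- Two `p'`-parts for different primes generate. -/
theorem sup_right_eq (h : KWSplit A p P K) {q : ℕ} [Fact q.Prime] {T D : Subgroup G} (h' : KWSplit A q T D)
    (hqp : q ≠ p) : K ⊔ D = A := by
  refine le_antisymm (sup_le h.le₂ h'.le₂) ?_
  intro x hx
  obtain ⟨u, hu, v, hv, rfl⟩ := h.exists_mul hx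
  have hPD : P ≤ D := h'.le_right_of_isPGroup hqp.symm h.le₁ h.isP
  exact Subgroup.mul_mem _ (Subgroup.mem_sup_right (hPD hu)) (Subgroup.mem_sup_left hv)

end KWSplit

/-- The configuration in a minimal counterexample to Wielandt's theorem. -/
structure KWC (A B : Subgroup G) : Prop where
  nilA : Group.IsNilpotent A
  nilB : Group.IsNilpotent B
  cop : (Nat.card A).Coprime (Nat.card B)
  fact : ∀ g : G, ∃ a ∈ A, ∃ b ∈ B, g = a * b
  simple : ∀ N : Subgroup G, N.Normal → N = ⊥ ∨ N = ⊤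
  ih : ∀ H : Subgroup G, H ≠ ⊤ → ∀ A' B' : Subgroup G, A' ≤ H → B' ≤ H → Group.IsNilpotent A' →
    Group.IsNilpotent B' → (Nat.card A').Coprime (Nat.card B') →
    (∀ h ∈ H, ∃ a ∈ A', ∃ b ∈ B', h = a * b) → Group.IsSolvable H
  twoA : ∃ p q : ℕ, p.Prime ∧ q.Prime ∧ p ≠ q ∧ p ∣ Nat.card A ∧ q ∣ Nat.card A
  twoB : ∃ p q : ℕ, p.Prime ∧ q.Prime ∧ p ≠ q ∧ p ∣ Nat.card B ∧ q ∣ Nat.card B

namespace KWC

variable {A B : Subgroup G}

theorem swap_fact {X Y H : Subgroup G} (h : ∀ g ∈ H, ∃ a ∈ X, ∃ b ∈ Y, g = a * b) :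
    ∀ g ∈ H, ∃ a ∈ Y, ∃ b ∈ X, g = a * b := by
  intro g hg
  obtain ⟨a, ha, b, hb, e⟩ := h g⁻¹ (H.inv_mem hg)
  refine ⟨b⁻¹, Y.inv_mem hb, a⁻¹, X.inv_mem ha, ?_⟩
  rw [← mul_inv_rev, ← e, inv_inv]

theorem symm (h : KWC A B) : KWC B A where
  nilA := h.nilB
  nilB := h.nilA
  cop := h.cop.symm
  fact := fun g => by
    obtain ⟨a, ha, b, hb, e⟩ := h.fact g⁻¹
    refine ⟨b⁻¹, B.inv_mem hb, a⁻¹, A.inv_mem ha, ?_⟩
    rw [← mul_inv_rev, ← e, inv_inv]
  simple := h.simple
  ih := fun H hH A' B' hA' hB' hnA hnB hc hf =>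
    h.ih H hH B' A' hB' hA' hnB hnA hc.symm (swap_fact hf)
  twoA := h.twoB
  twoB := h.twoA

theorem disjoint (h : KWC A B) : A ⊓ B = ⊥ := (disjoint_of_coprime_natCard h.cop).eq_bot

theorem card_mul (h : KWC A B) : Nat.card A * Nat.card B = Nat.card G := by
  have h1 := card_mul_card_inf_of_factorization h.fact
  rw [h.disjoint, Subgroup.card_bot, mul_one] at h1
  exact h1.symm

theorem index_left (h : KWC A B) : A.index = Nat.card B := by
  have h1 := A.card_mul_index
  rw [← h.card_mul] at h1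
  exact Nat.eq_of_mul_eq_mul_left Nat.card_pos h1

theorem hall_of_le (h : KWC A B) {A₀ : Subgroup G} (hA₀ : A₀ ≤ A) (hc : (Nat.card A₀).Coprime (A₀.relIndex A)) :
    (Nat.card A₀).Coprime A₀.index := by
  rw [← Subgroup.relIndex_mul_index hA₀]
  refine Nat.Coprime.mul_right hc ?_
  rw [h.index_left]
  exact Nat.Coprime.coprime_dvd_left (Subgroup.card_dvd_of_le hA₀) h.cop

end KWC

namespace KWSplit

variable {A P K : Subgroup G} {p : ℕ} [hp : Fact p.Prime]

theorem relIndex_left (h : KWSplit A p P K) : P.relIndex A = Nat.card K := by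
  have h1 : Nat.card P * P.relIndex A = Nat.card A := by
    have := Subgroup.relIndex_mul_relIndex ⊥ P A bot_le h.le₁
    rwa [Subgroup.relIndex_bot_left, Subgroup.relIndex_bot_left] at this
  rw [← h.card] at h1
  exact Nat.eq_of_mul_eq_mul_left Nat.card_pos h1

theorem relIndex_right (h : KWSplit A p P K) : K.relIndex A = Nat.card P := by
  have h1 : Nat.card K * K.relIndex A = Nat.card A := by
    have := Subgroup.relIndex_mul_relIndex ⊥ K A bot_le h.le₂
    rwa [Subgroup.relIndex_bot_left, Subgroup.relIndex_bot_left] at this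
  rw [← h.card, mul_comm] at h1
  exact Nat.eq_of_mul_eq_mul_right Nat.card_pos h1

end KWSplit

namespace KWC

variable {A B : Subgroup G} {p : ℕ} [hp : Fact p.Prime] {P K : Subgroup G}

theorem hall_left (h : KWC A B) (hs : KWSplit A p P K) : (Nat.card P).Coprime P.index :=
  h.hall_of_le hs.le₁ (by rw [hs.relIndex_left]; exact hs.card_coprime)

theorem hall_right (h : KWC A B) (hs : KWSplit A p P K) : (Nat.card K).Coprime K.index :=
  h.hall_of_le hs.le₂ (by rw [hs.relIndex_right]; exact hs.card_coprime.symm)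

theorem not_dvd_index (h : KWC A B) (hs : KWSplit A p P K) (hd : p ∣ Nat.card A) : ¬ p ∣ P.index :=
  fun h1 => hp.out.one_lt.ne' (Nat.eq_one_of_dvd_coprimes (h.hall_left hs) (hs.dvd_left hd) h1)

theorem not_dvd_card_right (h : KWC A B) (hd : p ∣ Nat.card A) : ¬ p ∣ Nat.card B :=
  fun h1 => hp.out.one_lt.ne' (Nat.eq_one_of_dvd_coprimes h.cop hd h1)

theorem A_ne_top (h : KWC A B) : A ≠ ⊤ := by
  rintro rfl
  obtain ⟨p, q, hp, hq, hpq, hpd, hqd⟩ := h.twoB
  have h1 := h.card_mul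
  rw [Subgroup.card_top] at h1
  have h2 : Nat.card B = 1 := by
    have h3 : Nat.card G * Nat.card B = Nat.card G * 1 := by rw [h1, mul_one]
    exact Nat.eq_of_mul_eq_mul_left Nat.card_pos h3
  rw [h2] at hpd
  exact hp.one_lt.ne' (Nat.dvd_one.mp hpd)

theorem A_ne_bot (h : KWC A B) : A ≠ ⊥ := by
  rintro rfl
  obtain ⟨p, q, hp, hq, hpq, hpd, hqd⟩ := h.twoA
  rw [Subgroup.card_bot] at hpd
  exact hp.one_lt.ne' (Nat.dvd_one.mp hpd)

/-- **Step 1**: normal Hall subgroups of the factors generate `G`. -/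
theorem gen (h : KWC A B) {A₀ B₀ : Subgroup G} (hA₀ : A₀ ≤ A) (hAn : A ≤ normalizer (A₀ : Set G))
    (hAb : A₀ ≠ ⊥) (hAh : (Nat.card A₀).Coprime A₀.index) (hB₀ : B₀ ≤ B)
    (hBn : B ≤ normalizer (B₀ : Set G)) (hBb : B₀ ≠ ⊥) (hBh : (Nat.card B₀).Coprime B₀.index) :
    A₀ ⊔ B₀ = ⊤ := by
  by_contra hD
  set D : Subgroup G := A₀ ⊔ B₀ with hDdef
  set L : Subgroup G := normalizer (D : Set G) with hLdef
  have hL : L ≠ ⊤ := by
    intro hL
    have hDn : D.Normal := Subgroup.normalizer_eq_top_iff.mp hL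
    rcases h.simple D hDn with h1 | h1
    · exact hAb (le_bot_iff.mp (h1 ▸ le_sup_left))
    · exact hD h1
  have hA₀sub : (A₀.subgroupOf A).Normal := (Subgroup.normal_subgroupOf_iff_le_normalizer hA₀).mpr hAn
  have hB₀sub : (B₀.subgroupOf B).Normal := (Subgroup.normal_subgroupOf_iff_le_normalizer hB₀).mpr hBn
  have hfac := factorization_normalizer A B A₀ B₀ h.fact hA₀ hA₀sub hB₀ hB₀sub
  have hnLA : Group.IsNilpotent (L ⊓ A : Subgroup G) := isNilpotent_of_le inf_le_right h.nilA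
  have hnLB : Group.IsNilpotent (L ⊓ B : Subgroup G) := isNilpotent_of_le inf_le_right h.nilB
  have hLs : Group.IsSolvable L := h.ih L hL (L ⊓ A) (L ⊓ B) inf_le_left inf_le_left hnLA hnLB
    (Nat.Coprime.coprime_dvd_left (Subgroup.card_dvd_of_le inf_le_right)
      (Nat.Coprime.coprime_dvd_right (Subgroup.card_dvd_of_le inf_le_right) h.cop)) hfac
  have hA₀L : A₀ ≤ L := le_sup_left.trans Subgroup.le_normalizer
  have hB₀L : B₀ ≤ L := le_sup_right.trans Subgroup.le_normalizer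
  -- permutability in `L`
  have hhall : ∀ {X : Subgroup G}, X ≤ L → (Nat.card X).Coprime X.index →
      (Nat.card (X.subgroupOf L)).Coprime (X.subgroupOf L).index := by
    intro X hX hc
    rw [card_subgroupOf_of_le hX]
    refine Nat.Coprime.coprime_dvd_right ?_ hc
    rw [← Subgroup.relIndex_mul_index hX]
    exact Dvd.intro _ rfl
  have hperm : PermL A₀ B₀ := by
    have hle1 : A₀.subgroupOf L ≤ (L ⊓ A : Subgroup G).subgroupOf L := fun x hx =>
      Subgroup.mem_subgroupOf.mpr ⟨x.2, hA₀ (Subgroup.mem_subgroupOf.mp hx)⟩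
    have hle2 : B₀.subgroupOf L ≤ (L ⊓ B : Subgroup G).subgroupOf L := fun x hx =>
      Subgroup.mem_subgroupOf.mpr ⟨x.2, hB₀ (Subgroup.mem_subgroupOf.mp hx)⟩
    obtain ⟨S, hS⟩ := exists_subgroup_conj_hall_product ((L ⊓ A : Subgroup G).subgroupOf L)
      ((L ⊓ B : Subgroup G).subgroupOf L) (A₀.subgroupOf L) (B₀.subgroupOf L)
      (fun g => by
        obtain ⟨a, ha, b, hb, e⟩ := hfac g g.2
        exact ⟨⟨a, ha.1⟩, ha, ⟨b, hb.1⟩, hb, Subtype.ext e⟩)
      hle1
      (by
        rw [Subgroup.normal_subgroupOf_iff_le_normalizer hle1]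
        intro x hx
        rw [Subgroup.mem_normalizer_iff]
        intro y
        have hxn := hAn hx.2
        rw [Subgroup.mem_normalizer_iff] at hxn
        exact hxn y)
      hle2
      (by
        rw [Subgroup.normal_subgroupOf_iff_le_normalizer hle2]
        intro x hx
        rw [Subgroup.mem_normalizer_iff]
        intro y
        have hxn := hBn hx.2
        rw [Subgroup.mem_normalizer_iff] at hxn
        exact hxn y)
      (hhall hA₀L hAh) (hhall hB₀L hBh) 1 1
    rw [conj_smul_one, conj_smul_one] at hS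
    intro u hu v hv
    have h1 : (⟨u, hA₀L hu⟩ : L) * ⟨v, hB₀L hv⟩ ∈ (S : Set L) := by
      rw [hS]
      exact ⟨⟨u, hA₀L hu⟩, hu, ⟨v, hB₀L hv⟩, hv, rfl⟩
    have h2 : (⟨v, hB₀L hv⟩ : L)⁻¹ * (⟨u, hA₀L hu⟩ : L)⁻¹ ∈ (S : Set L) := by
      have := S.inv_mem h1
      rwa [mul_inv_rev] at this
    rw [hS] at h2
    obtain ⟨u', hu', v', hv', e⟩ := h2
    refine ⟨(v' : G)⁻¹, B₀.inv_mem hv', (u' : G)⁻¹, A₀.inv_mem hu', ?_⟩
    have e' := congrArg Subtype.val e
    simp only [Subgroup.coe_mul, MulMemClass.coe_mul, InvMemClass.coe_inv] at e'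
    have e2 := congrArg (·⁻¹) e'
    simp only [mul_inv_rev, inv_inv] at e2
    exact e2.symm
  -- Kegel
  have hgood : KGood A₀ B₀ := by
    intro x
    obtain ⟨a, ha, b, hb, rfl⟩ := h.fact x
    have h1 : MulAut.conj (a * b) • B₀ = MulAut.conj a • B₀ := by
      rw [conj_smul_mul, conj_smul_le_of_normalizer (hBn hb)]
    have h2 : MulAut.conj a • A₀ = A₀ := conj_smul_le_of_normalizer (hAn ha)
    rw [h1]
    constructor
    · have := hperm.conj' a
      rwa [h2] at this
    · intro htop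
      rw [← h2, ← conj_smul_sup] at htop
      apply hD
      have h3 : Nat.card D = Nat.card G := by
        rw [← card_conj_smul a D, htop, Subgroup.card_top]
      exact Subgroup.eq_top_of_card_eq D h3
  obtain ⟨N, hNn, hNt, hN⟩ := kegel_aux _ A₀ B₀ rfl hgood
  rcases h.simple N hNn with h1 | h1
  · rcases hN with h2 | h2
    · exact hAb (le_bot_iff.mp (h1 ▸ h2))
    · exact hBb (le_bot_iff.mp (h1 ▸ h2))
  · exact hNt h1

end KWC

end Cfsg.Agent.Lib.Basic
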