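import Cfsg.Agent.Lib.Basic.KW2

/-!
# Wielandt's theorem on products of coprime nilpotent groups: overgroups of a factor.
-/

set_option autoImplicit false

namespace Cfsg.Agent.Lib.Basic

open Subgroup Cfsg

open scoped Pointwise

variable {G : Type*} [Group G] [Finite G]

set_option linter.unusedSectionVars false

theorem card_dvd_mul_of_forall_exists_mul {X Y Z : Subgroup G} (hX : X ≤ Z) (hY : Y ≤ Z)
    (h : ∀ z ∈ Z, ∃ x ∈ X, ∃ y ∈ Y, z = x * y) : Nat.card Z ∣ Nat.card X * Nat.card Y := by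
  have h1 : (X.subgroupOf Z).index ∣ Nat.card (Y.subgroupOf Z) := by
    refine index_dvd_card_of_forall_exists_mul fun z => ?_
    obtain ⟨x, hx, y, hy, e⟩ := h z z.2
    exact ⟨⟨x, hX hx⟩, hx, ⟨y, hY hy⟩, hy, Subtype.ext e⟩
  have h2 : Nat.card (X.subgroupOf Z) * (X.subgroupOf Z).index = Nat.card Z := Subgroup.card_mul_index _
  rw [card_subgroupOf_of_le hX] at h2
  rw [card_subgroupOf_of_le hY] at h1
  rw [← h2]
  exact mul_dvd_mul_left _ h1

theorem mem_normalizer_centralizer {U : Subgroup G} {g : G} (hg : g ∈ normalizer (U : Set G)) :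
    g ∈ normalizer (centralizer (U : Set G) : Set G) := by
  apply mem_normalizer_of_forall_conj_mem
  intro x hx
  rw [Subgroup.mem_centralizer_iff] at hx ⊢
  intro u hu
  have h1 : g⁻¹ * u * g ∈ U := by
    have h2 := (normalizer (U : Set G)).inv_mem hg
    rw [Subgroup.mem_normalizer_iff] at h2
    have := (h2 u).mp hu
    simpa using this
  have h2 := hx _ h1
  calc u * (g * x * g⁻¹) = g * ((g⁻¹ * u * g) * x) * g⁻¹ := by group
    _ = g * (x * (g⁻¹ * u * g)) * g⁻¹ := by rw [h2]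
    _ = g * x * g⁻¹ * u := by group

namespace KWC

variable {A B : Subgroup G}

theorem exists_other_prime (h : KWC A B) (p : ℕ) : ∃ r : ℕ, r.Prime ∧ r ≠ p ∧ r ∣ Nat.card A := by
  obtain ⟨s, t, hs, ht, hst, hsd, htd⟩ := h.twoA
  by_cases hsp : s = p
  · exact ⟨t, ht, fun e => hst (hsp.trans e.symm), htd⟩
  · exact ⟨s, hs, hsp, hsd⟩

/-- **Step 2**: no `q`-subgroup, `q ∤ |A|`, is normalized by a normal Hall subgroup of `A`. -/
theorem q_group_trivial (h : KWC A B) {A₀ V : Subgroup G} (hA₀ : A₀ ≤ A)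
    (hAn : A ≤ normalizer (A₀ : Set G)) (hAb : A₀ ≠ ⊥) (hAh : (Nat.card A₀).Coprime A₀.index)
    {q : ℕ} [hq : Fact q.Prime] (hqA : ¬ q ∣ Nat.card A) (hV : IsPGroup q V)
    (hN : A₀ ≤ normalizer (V : Set G)) : V = ⊥ := by
  by_contra hVb
  have hqV : q ∣ Nat.card V := by
    obtain ⟨k, hk⟩ := IsPGroup.iff_card.mp hV
    rcases k with _ | k
    · rw [pow_zero] at hk
      exact absurd (Subgroup.card_eq_one.mp hk) hVb
    · rw [hk]
      exact Dvd.intro_left _ (pow_succ q k).symm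
  have hqG : q ∣ Nat.card G := hqV.trans (Subgroup.card_subgroup_dvd_card V)
  have hqB : q ∣ Nat.card B := by
    rw [← h.card_mul] at hqG
    rcases hq.out.dvd_mul.mp hqG with h1 | h1
    · exact absurd h1 hqA
    · exact h1
  obtain ⟨Q, R, hs⟩ := exists_kwSplit h.nilB q
  obtain ⟨r, hr, hrq, hrB⟩ := h.symm.exists_other_prime q
  have hRb : R ≠ ⊥ := hs.right_ne_bot hr hrq hrB
  obtain ⟨g, hg⟩ := exists_le_conj_of_hall_of_isPGroup (h.symm.hall_left hs) (hs.dvd_left hqB) hV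
  obtain ⟨a, ha, b, hb, rfl⟩ := h.fact g
  rw [conj_smul_mul, conj_smul_le_of_normalizer (hs.le_normalizer_left hb)] at hg
  set V₁ : Subgroup G := MulAut.conj a⁻¹ • V with hV₁
  have hV₁Q : V₁ ≤ Q := by
    rw [hV₁]
    intro x hx
    rw [mem_conj_smul] at hx
    have := hg hx
    rw [mem_conj_smul] at this
    simpa [mul_assoc] using this
  have hA₀V : A₀ ≤ normalizer (V₁ : Set G) := by
    intro u hu
    apply mem_normalizer_of_conj_smul_eq
    have hu' : a * u * a⁻¹ ∈ A₀ := by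
      have h1 := hAn ha
      rw [Subgroup.mem_normalizer_iff] at h1
      exact (h1 u).mp hu
    rw [hV₁, ← conj_smul_mul]
    have h2 : u * a⁻¹ = a⁻¹ * (a * u * a⁻¹) := by group
    rw [h2, conj_smul_mul, conj_smul_le_of_normalizer (hN hu')]
  have hRV : R ≤ normalizer (V₁ : Set G) := by
    intro y hy
    refine Subgroup.centralizer_le_normalizer _ ?_
    rw [Subgroup.mem_centralizer_iff]
    intro v hv
    exact (hs.comm v (hV₁Q hv) y hy)
  have hsup : A₀ ⊔ R = ⊤ :=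
    h.gen hA₀ hAn hAb hAh hs.le₂ (hs.le_normalizer_right) hRb (h.symm.hall_right hs)
  have hV₁n : V₁.Normal := by
    apply Subgroup.normalizer_eq_top_iff.mp
    rw [eq_top_iff, ← hsup]
    exact sup_le hA₀V hRV
  rcases h.simple V₁ hV₁n with h1 | h1
  · apply hVb
    have h2 : Nat.card V = 1 := by
      rw [← card_conj_smul a⁻¹ V, ← hV₁, h1, Subgroup.card_bot]
    exact Subgroup.card_eq_one.mp h2
  · exact h.symm.A_ne_top (eq_top_iff.mpr (h1 ▸ hV₁Q.trans hs.le₁))

/-- **Steps 2 and 3**. -/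
theorem prime_dvd_of_normalized (h : KWC A B) {A₀ X : Subgroup G} (hA₀ : A₀ ≤ A)
    (hAn : A ≤ normalizer (A₀ : Set G)) (hAb : A₀ ≠ ⊥) (hAh : (Nat.card A₀).Coprime A₀.index)
    (hc : (Nat.card A₀).Coprime (Nat.card X)) (hN : A₀ ≤ normalizer (X : Set G))
    {q : ℕ} [hq : Fact q.Prime] (hqX : q ∣ Nat.card X) : q ∣ Nat.card A := by
  by_contra hqA
  haveI := isNilpotent_of_le hA₀ h.nilA
  obtain ⟨S, hS⟩ := exists_invariant_sylow hN hc (Or.inl inferInstance) q
  have hV := h.q_group_trivial hA₀ hAn hAb hAh hqA (S.isPGroup'.map _) hS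
  have hSb : (S : Subgroup X) = ⊥ :=
    (Subgroup.map_eq_bot_iff_of_injective _ X.subtype_injective).mp hV
  exact S.ne_bot_of_dvd_card hqX hSb

theorem solvable_of_fac (h : KWC A B) {H : Subgroup G} (hH : H ≠ ⊤)
    (hfac : ∀ g ∈ H, ∃ a ∈ H ⊓ A, ∃ b ∈ H ⊓ B, g = a * b) : Group.IsSolvable H :=
  h.ih H hH (H ⊓ A) (H ⊓ B) inf_le_left inf_le_left (isNilpotent_of_le inf_le_right h.nilA)
    (isNilpotent_of_le inf_le_right h.nilB)
    (Nat.Coprime.coprime_dvd_left (Subgroup.card_dvd_of_le inf_le_right)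
      (Nat.Coprime.coprime_dvd_right (Subgroup.card_dvd_of_le inf_le_right) h.cop)) hfac

/-- **Key lemma**: in a solvable factorized subgroup `H` containing `T = A_r`, `H ⊓ A_{r'}` is
normal. -/
theorem normal_comp (h : KWC A B) {H : Subgroup G} (hHs : Group.IsSolvable H)
    (hfac : ∀ g ∈ H, ∃ a ∈ H ⊓ A, ∃ b ∈ H ⊓ B, g = a * b) {r : ℕ} [hrp : Fact r.Prime]
    {T D : Subgroup G} (hs : KWSplit A r T D) (hr : r ∣ Nat.card A) (hTH : T ≤ H) :
    H ≤ normalizer ((H ⊓ D : Subgroup G) : Set G) := by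
  have hDH : H ⊓ D ≤ H := inf_le_left
  have hS'p : IsPGroup r (T.subgroupOf H) := hs.isP.comap_of_injective _ H.subtype_injective
  have hTi : ¬ r ∣ T.index := h.not_dvd_index hs hr
  have hS'i : (T.subgroupOf H).index.Coprime r := by
    refine ((Nat.Prime.coprime_iff_not_dvd hrp.out).mpr ?_).symm
    intro h1
    apply hTi
    rw [← Subgroup.relIndex_mul_index hTH]
    exact Dvd.dvd.mul_right h1 _
  have hD'c : (Nat.card ((H ⊓ D : Subgroup G).subgroupOf H)).Coprime r := by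
    rw [card_subgroupOf_of_le hDH]
    exact Nat.Coprime.coprime_dvd_left (Subgroup.card_dvd_of_le inf_le_right) hs.cop
  obtain ⟨X', hX'n, hX'c, hDX'⟩ := exists_normal_coprime_ge (T.subgroupOf H)
    ((H ⊓ D : Subgroup G).subgroupOf H) hS'p hS'i hD'c (by
      intro x hx y hy
      have hx' : (x : G) ∈ T := Subgroup.mem_subgroupOf.mp hx
      have hy' : (y : G) ∈ H ⊓ D := Subgroup.mem_subgroupOf.mp hy
      exact Subtype.ext (hs.comm _ hx' _ hy'.2))
  set X : Subgroup G := X'.map H.subtype with hX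
  have hXH : X ≤ H := Subgroup.map_subtype_le _
  have hHX : H ≤ normalizer (X : Set G) := by
    intro g hg
    apply mem_normalizer_of_forall_conj_mem
    rintro _ ⟨x, hx, rfl⟩
    refine ⟨⟨g, hg⟩ * x * ⟨g, hg⟩⁻¹, hX'n.conj_mem x hx _, ?_⟩
    simp
  have hcardX : Nat.card X = Nat.card X' := Subgroup.card_map_of_injective H.subtype_injective
  have hXc : (Nat.card X).Coprime r := by rw [hcardX]; exact hX'c
  have hDX : H ⊓ D ≤ X := by
    intro y hy
    refine ⟨⟨y, hy.1⟩, hDX' (Subgroup.mem_subgroupOf.mpr hy), rfl⟩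
  have hTc : (Nat.card T).Coprime (Nat.card X) := by
    obtain ⟨k, hk⟩ := IsPGroup.iff_card.mp hs.isP
    rw [hk]
    exact Nat.Coprime.pow_left k hXc.symm
  have hpr : ∀ q : ℕ, q.Prime → q ∣ Nat.card X → q ∣ Nat.card A := by
    intro q hq hqX
    haveI : Fact q.Prime := ⟨hq⟩
    exact h.prime_dvd_of_normalized hs.le₁ hs.le_normalizer_left (hs.left_ne_bot hr) (h.hall_left hs)
      hTc (hTH.trans hHX) hqX
  have hXB : (Nat.card X).Coprime (Nat.card (H ⊓ B : Subgroup G)) := by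
    refine Nat.Coprime.coprime_dvd_right (Subgroup.card_dvd_of_le inf_le_right) ?_
    refine Nat.coprime_of_dvd fun q hq h1 h2 => ?_
    exact hq.one_lt.ne' (Nat.eq_one_of_dvd_coprimes h.cop (hpr q hq h1) h2)
  have h1 : Nat.card H ∣ Nat.card (H ⊓ A : Subgroup G) * Nat.card (H ⊓ B : Subgroup G) :=
    card_dvd_mul_of_forall_exists_mul inf_le_left inf_le_left hfac
  have h2 : Nat.card X ∣ Nat.card (H ⊓ A : Subgroup G) :=
    hXB.dvd_of_dvd_mul_right ((Subgroup.card_dvd_of_le hXH).trans h1)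
  have h3 : Nat.card (H ⊓ A : Subgroup G) ∣ Nat.card T * Nat.card (H ⊓ D : Subgroup G) := by
    refine card_dvd_mul_of_forall_exists_mul (le_inf hTH hs.le₁) (inf_le_inf_left _ hs.le₂) ?_
    intro z hz
    obtain ⟨u, hu, v, hv, rfl⟩ := hs.exists_mul hz.2
    refine ⟨u, hu, v, ⟨?_, hv⟩, rfl⟩
    have h4 : v = u⁻¹ * (u * v) := by group
    rw [h4]
    exact H.mul_mem (H.inv_mem (hTH hu)) hz.1
  have h4 : Nat.card X ∣ Nat.card (H ⊓ D : Subgroup G) :=
    hTc.symm.dvd_of_dvd_mul_left (h2.trans h3)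
  have heq : H ⊓ D = X := Subgroup.eq_of_le_of_card_ge hDX (Nat.le_of_dvd Nat.card_pos h4)
  rw [heq]
  exact hHX

/-- **Step 5**: `N(A)` is the unique maximal subgroup containing `A`. -/
theorem le_normalizer_of_ge (h : KWC A B) {H : Subgroup G} (hH : H ≠ ⊤) (hAH : A ≤ H) :
    H ≤ normalizer (A : Set G) := by
  have hfac : ∀ g ∈ H, ∃ a ∈ H ⊓ A, ∃ b ∈ H ⊓ B, g = a * b := by
    intro g hg
    obtain ⟨a, ha, b, hb, rfl⟩ := h.fact g
    refine ⟨a, ⟨hAH ha, ha⟩, b, ⟨?_, hb⟩, rfl⟩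
    have h4 : b = a⁻¹ * (a * b) := by group
    rw [h4]
    exact H.mul_mem (H.inv_mem (hAH ha)) hg
  have hHs := h.solvable_of_fac hH hfac
  obtain ⟨p, q, hp, hq, hpq, hpd, hqd⟩ := h.twoA
  haveI : Fact p.Prime := ⟨hp⟩
  haveI : Fact q.Prime := ⟨hq⟩
  obtain ⟨P, K, hs⟩ := exists_kwSplit h.nilA p
  obtain ⟨T, D, hs'⟩ := exists_kwSplit h.nilA q
  have h1 := h.normal_comp hHs hfac hs hpd (hs.le₁.trans hAH)
  have h2 := h.normal_comp hHs hfac hs' hqd (hs'.le₁.trans hAH)
  rw [inf_eq_right.mpr (hs.le₂.trans hAH)] at h1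
  rw [inf_eq_right.mpr (hs'.le₂.trans hAH)] at h2
  rw [← hs.sup_right_eq hs' hpq.symm]
  intro g hg
  exact mem_normalizer_sup (h1 hg) (h2 hg)

theorem normalizer_ne_top (h : KWC A B) : normalizer (A : Set G) ≠ ⊤ := by
  intro h1
  have hAn : A.Normal := Subgroup.normalizer_eq_top_iff.mp h1
  rcases h.simple A hAn with h2 | h2
  · exact h.A_ne_bot h2
  · exact h.A_ne_top h2

/-- Normalizers of nontrivial subgroups of `A` normalized by `A` lie in `N(A)`. -/
theorem normalizer_le (h : KWC A B) {U : Subgroup G} (hUA : U ≤ A) (hA : A ≤ normalizer (U : Set G))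
    (hb : U ≠ ⊥) : normalizer (U : Set G) ≤ normalizer (A : Set G) := by
  refine h.le_normalizer_of_ge ?_ hA
  intro h1
  have hUn : U.Normal := Subgroup.normalizer_eq_top_iff.mp h1
  rcases h.simple U hUn with h2 | h2
  · exact hb h2
  · exact h.A_ne_top (eq_top_iff.mpr (h2 ▸ hUA))

variable {p : ℕ} [hp : Fact p.Prime] {P K : Subgroup G}

theorem center_ne_bot (hs : KWSplit A p P K) (hd : p ∣ Nat.card A) :
    P ⊓ centralizer (P : Set G) ≠ ⊥ := by
  have hPb : P ≠ ⊥ := hs.left_ne_bot hd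
  haveI : Nontrivial P := (Subgroup.nontrivial_iff_ne_bot P).mpr hPb
  haveI := hs.isP.center_nontrivial
  obtain ⟨z, hz⟩ := exists_ne (1 : Subgroup.center P)
  intro h1
  have h2 : ((z : P) : G) ∈ P ⊓ centralizer (P : Set G) := by
    refine ⟨(z : P).2, Subgroup.mem_centralizer_iff.mpr ?_⟩
    intro y hy
    have := (Subgroup.mem_center_iff.mp z.2) ⟨y, hy⟩
    exact congrArg Subtype.val this
  rw [h1, Subgroup.mem_bot] at h2
  apply hz
  exact Subtype.ext (Subtype.ext h2)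

theorem center_normalized (hs : KWSplit A p P K) :
    A ≤ normalizer ((P ⊓ centralizer (P : Set G) : Subgroup G) : Set G) := fun _ ha =>
  mem_normalizer_inf' (hs.le_normalizer_left ha) (mem_normalizer_centralizer (hs.le_normalizer_left ha))

/-- **Step 6**: Frattini-type control. -/
theorem exists_centralizer_mul (h : KWC A B) (hs : KWSplit A p P K) {r : ℕ} [hrp : Fact r.Prime]
    (hrne : r ≠ p) (hr : r ∣ Nat.card A) {U : Subgroup G} (hU : U ≤ P) {g : G}
    (hg : g ∈ normalizer (U : Set G)) :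
    ∃ c ∈ centralizer (U : Set G), ∃ m ∈ normalizer (A : Set G) ⊓ normalizer (U : Set G), g = c * m := by
  obtain ⟨T, D, hT⟩ := exists_kwSplit h.nilA r
  have hTK : T ≤ K := hs.le_right_of_isPGroup hrne hT.le₁ hT.isP
  have hTC : T ≤ centralizer (U : Set G) := fun y hy =>
    Subgroup.mem_centralizer_iff.mpr fun x hx => hs.comm x (hU hx) y (hTK hy)
  have hgC : MulAut.conj g • T ≤ centralizer (U : Set G) := by
    rw [← conj_smul_le_of_normalizer (mem_normalizer_centralizer hg)]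
    exact Subgroup.pointwise_smul_le_pointwise_smul_iff.mpr hTC
  have hgTp : IsPGroup r (MulAut.conj g • T : Subgroup G) :=
    hT.isP.of_surjective (conjSmulEquiv g T).toMonoidHom (conjSmulEquiv g T).surjective
  have hTi := h.not_dvd_index hT hr
  obtain ⟨c, hcC, hc⟩ := exists_conj_in_of_sylow hTC hgC hT.isP hgTp hTi (by rwa [index_conj_smul])
  have hcn : c ∈ normalizer (U : Set G) := Subgroup.centralizer_le_normalizer _ hcC
  refine ⟨c, hcC, c⁻¹ * g, ⟨?_, (normalizer _).mul_mem ((normalizer _).inv_mem hcn) hg⟩, by group⟩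
  refine h.normalizer_le hT.le₁ hT.le_normalizer_left (hT.left_ne_bot hr) ?_
  apply mem_normalizer_of_conj_smul_eq
  rw [conj_smul_mul, ← hc, ← conj_smul_mul]
  simp [conj_smul_one]

/-- **Step 7**. -/
theorem normalizer_le_of_center_le (h : KWC A B) (hs : KWSplit A p P K) (hd : p ∣ Nat.card A)
    {W : Subgroup G} (hW : W ≤ P) (hZ : P ⊓ centralizer (P : Set G) ≤ W) :
    normalizer (W : Set G) ≤ normalizer (A : Set G) := by
  intro g hg
  obtain ⟨r, hr, hrne, hrd⟩ := h.exists_other_prime p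
  haveI : Fact r.Prime := ⟨hr⟩
  obtain ⟨c, hc, m, hm, rfl⟩ := h.exists_centralizer_mul hs hrne hrd hW hg
  refine (normalizer _).mul_mem ?_ hm.1
  have h1 : centralizer (W : Set G) ≤ centralizer ((P ⊓ centralizer (P : Set G) : Subgroup G) : Set G) :=
    Subgroup.centralizer_le hZ
  refine h.normalizer_le (inf_le_left.trans hs.le₁) (center_normalized hs) (center_ne_bot hs hd) ?_
  exact Subgroup.centralizer_le_normalizer _ (h1 hc)

/-- **Step 8**. -/
theorem centralizer_fac (h : KWC A B) {U : Subgroup G} (hUA : U ≤ A) (hUB : U ≤ normalizer (B : Set G)) :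
    ∀ g ∈ centralizer (U : Set G), ∃ a ∈ centralizer (U : Set G) ⊓ A, ∃ b ∈ centralizer (U : Set G) ⊓ B,
      g = a * b := by
  intro g hg
  obtain ⟨a, ha, b, hb, rfl⟩ := h.fact g
  have hac : a ∈ centralizer (U : Set G) := by
    rw [Subgroup.mem_centralizer_iff] at hg ⊢
    intro u hu
    have h1 := hg u hu
    -- `w = a⁻¹ u a = b u b⁻¹`
    have h2 : a⁻¹ * u * a * u⁻¹ = b * (u * b⁻¹ * u⁻¹) := by
      have h3 : a⁻¹ * u * a = b * u * b⁻¹ := by
        calc a⁻¹ * u * a = a⁻¹ * (u * (a * b)) * b⁻¹ := by group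
          _ = a⁻¹ * ((a * b) * u) * b⁻¹ := by rw [h1]
          _ = _ := by group
      rw [h3]
      group
    have h4 : a⁻¹ * u * a * u⁻¹ ∈ A :=
      A.mul_mem (A.mul_mem (A.mul_mem (A.inv_mem ha) (hUA hu)) ha) (A.inv_mem (hUA hu))
    have h5 : b * (u * b⁻¹ * u⁻¹) ∈ B := by
      refine B.mul_mem hb ?_
      have h6 := hUB hu
      rw [Subgroup.mem_normalizer_iff] at h6
      exact (h6 _).mp (B.inv_mem hb)
    have h6 : a⁻¹ * u * a * u⁻¹ ∈ A ⊓ B := ⟨h4, h2 ▸ h5⟩
    rw [h.disjoint, Subgroup.mem_bot] at h6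
    have h7 : a⁻¹ * u * a = u := mul_inv_eq_one.mp h6
    calc u * a = a * (a⁻¹ * u * a) := by group
      _ = a * u := by rw [h7]
  refine ⟨a, ⟨hac, ha⟩, b, ⟨?_, hb⟩, rfl⟩
  have h4 : b = a⁻¹ * (a * b) := by group
  rw [h4]
  exact (centralizer _).mul_mem ((centralizer _).inv_mem hac) hg

/-- **Step 9**. -/
theorem centralizer_le (h : KWC A B) (hs : KWSplit A p P K) (hd : p ∣ Nat.card A) {U : Subgroup G}
    (hUP : U ≤ P) (hUB : U ≤ normalizer (B : Set G)) (hUb : U ≠ ⊥) :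
    centralizer (U : Set G) ≤ normalizer (A : Set G) := by
  set H : Subgroup G := centralizer (U : Set G) with hH
  have hHt : H ≠ ⊤ := by
    intro h1
    have h2 : normalizer (U : Set G) = ⊤ := eq_top_iff.mpr (h1 ▸ Subgroup.centralizer_le_normalizer _)
    have h3 := h.normalizer_le (A := A) (U := U)
    have hUn : U.Normal := Subgroup.normalizer_eq_top_iff.mp h2
    rcases h.simple U hUn with h4 | h4
    · exact hUb h4
    · exact h.A_ne_top (eq_top_iff.mpr (h4 ▸ hUP.trans hs.le₁))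
  have hfac := h.centralizer_fac (hUP.trans hs.le₁) hUB
  have hHs : Group.IsSolvable H := h.solvable_of_fac hHt hfac
  obtain ⟨r, hr, hrne, hrd⟩ := h.exists_other_prime p
  haveI : Fact r.Prime := ⟨hr⟩
  obtain ⟨T, D, hT⟩ := exists_kwSplit h.nilA r
  have hTK : T ≤ K := hs.le_right_of_isPGroup hrne hT.le₁ hT.isP
  have hTH : T ≤ H := fun y hy =>
    Subgroup.mem_centralizer_iff.mpr fun x hx => hs.comm x (hUP hx) y (hTK hy)
  have hnorm := h.normal_comp hHs hfac hT hrd hTH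
  have hPD : P ≤ D := hT.le_right_of_isPGroup hrne.symm hs.le₁ hs.isP
  -- `W = H ⊓ P`
  have hHW : H ≤ normalizer ((H ⊓ P : Subgroup G) : Set G) := by
    intro g hg
    apply mem_normalizer_of_forall_conj_mem
    intro w hw
    have h1 : w ∈ H ⊓ D := ⟨hw.1, hPD hw.2⟩
    have h2 := hnorm hg
    rw [Subgroup.mem_normalizer_iff] at h2
    have h3 := (h2 w).mp h1
    refine ⟨h3.1, ?_⟩
    obtain ⟨k, hk⟩ := IsPGroup.iff_card.mp hs.isP
    refine hs.mem_left (hT.le₂ h3.2) (e := k) ?_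
    have h4 : w ^ p ^ k = 1 := by
      rw [← hk]
      have := pow_card_eq_one' (x := (⟨w, hw.2⟩ : P))
      exact congrArg Subtype.val this
    have h5 : (g * w * g⁻¹) ^ p ^ k = g * w ^ p ^ k * g⁻¹ := by
      rw [conj_pow]
    rw [h5, h4]
    group
  have hZ : P ⊓ centralizer (P : Set G) ≤ H ⊓ P := by
    intro z hz
    refine ⟨Subgroup.mem_centralizer_iff.mpr ?_, hz.1⟩
    intro u hu
    exact Subgroup.mem_centralizer_iff.mp hz.2 u (hUP hu)
  exact hHW.trans (h.normalizer_le_of_center_le hs hd inf_le_right hZ)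

end KWC

end Cfsg.Agent.Lib.Basic
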