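import Cfsg.Agent.Lib.Basic.KW3
import Cfsg.Agent.Lib.Transfer.Frobenius

/-!
# Wielandt's theorem on products of coprime nilpotent groups: centralizers of elements of `A`.
-/

set_option autoImplicit false

namespace Cfsg.Agent.Lib.Basic

open Subgroup Cfsg

open scoped Pointwise

variable {G : Type*} [Group G] [Finite G]

set_option linter.unusedSectionVars false

/-- Two subgroups of the same order of `T`, Sylow in `T`, are conjugate in `T`. -/
theorem exists_conj_in_of_card {q : ℕ} [hq : Fact q.Prime] {T X Y : Subgroup G} (hXT : X ≤ T) (hYT : Y ≤ T)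
    (hX : IsPGroup q X) (hY : IsPGroup q Y) (hXi : ¬ q ∣ X.relIndex T) (hcard : Nat.card Y = Nat.card X) :
    ∃ c ∈ T, MulAut.conj c • X = Y := by
  have hYi : ¬ q ∣ Y.relIndex T := by
    have h1 : Nat.card (X.subgroupOf T) * (X.subgroupOf T).index = Nat.card T := Subgroup.card_mul_index _
    have h2 : Nat.card (Y.subgroupOf T) * (Y.subgroupOf T).index = Nat.card T := Subgroup.card_mul_index _
    rw [card_subgroupOf_of_le hXT] at h1
    rw [card_subgroupOf_of_le hYT, hcard, ← h1] at h2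
    have h3 := Nat.eq_of_mul_eq_mul_left Nat.card_pos h2
    change ¬ q ∣ (Y.subgroupOf T).index
    rw [h3]
    exact hXi
  let SA : Sylow q T := (hX.comap_of_injective _ T.subtype_injective).toSylow hXi
  let SB : Sylow q T := (hY.comap_of_injective _ T.subtype_injective).toSylow hYi
  obtain ⟨c, hc⟩ := MulAction.exists_smul_eq T SA SB
  refine ⟨c, c.2, ?_⟩
  have h1 : MulAut.conj c • X.subgroupOf T = Y.subgroupOf T := by
    have := congrArg (fun S : Sylow q T => (S : Subgroup T)) hc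
    simpa [Sylow.coe_subgroup_smul, SA, SB] using this
  have h2 := congrArg (Subgroup.map T.subtype) h1
  rw [map_conj_smul, Subgroup.map_subgroupOf_eq_of_le hXT, Subgroup.map_subgroupOf_eq_of_le hYT] at h2
  exact h2

/-- A `q`-subgroup of `T` lies in a `T`-conjugate of a subgroup Sylow in `T`. -/
theorem exists_le_conj_of_relSylow {q : ℕ} [hq : Fact q.Prime] {T X U : Subgroup G} (hXT : X ≤ T)
    (hUT : U ≤ T) (hX : IsPGroup q X) (hXi : ¬ q ∣ X.relIndex T) (hU : IsPGroup q U) :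
    ∃ c ∈ T, U ≤ MulAut.conj c • X := by
  let SA : Sylow q T := (hX.comap_of_injective _ T.subtype_injective).toSylow hXi
  obtain ⟨R, hR⟩ := (hU.comap_of_injective _ T.subtype_injective :
    IsPGroup q (U.subgroupOf T)).exists_le_sylow
  obtain ⟨c, hc⟩ := MulAction.exists_smul_eq T SA R
  refine ⟨c, c.2, ?_⟩
  intro u hu
  have h1 : (⟨u, hUT hu⟩ : T) ∈ (R : Subgroup T) := hR (Subgroup.mem_subgroupOf.mpr hu)
  rw [← hc, Sylow.coe_subgroup_smul, mem_conj_smul] at h1
  rw [mem_conj_smul]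
  exact h1

theorem mem_centralizer_zpowers_of_commute {x y : G} (h : y * x = x * y) :
    y ∈ centralizer ((zpowers x : Subgroup G) : Set G) := by
  refine Subgroup.mem_centralizer_iff.mpr ?_
  rintro _ ⟨k, rfl⟩
  have h1 : Commute y x := h
  exact (h1.zpow_right k).symm

/-- Powers of `g`, `w` agree modulo `C` when `w` normalizes `C`. -/
theorem inv_pow_mul_pow_mem {C : Subgroup G} {g w : G} (hw : w ∈ normalizer (C : Set G))
    (h : w⁻¹ * g ∈ C) (k : ℕ) : (w ^ k)⁻¹ * g ^ k ∈ C := by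
  induction k with
  | zero => simp
  | succ k ih =>
    have hw' : w⁻¹ ∈ normalizer (C : Set G) := (normalizer _).inv_mem hw
    rw [Subgroup.mem_normalizer_iff] at hw'
    have h1 := (hw' _).mp ih
    have h2 : (w ^ (k + 1))⁻¹ * g ^ (k + 1) = (w⁻¹ * ((w ^ k)⁻¹ * g ^ k) * w⁻¹⁻¹) * (w⁻¹ * g) := by
      rw [pow_succ', pow_succ]
      group
    rw [h2]
    exact C.mul_mem h1 h

/-- An element with coprime order in a group with a normal complement to a `r`-group lies in the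
complement. -/
theorem mem_of_coprime_of_index {H : Type*} [Group H] [Finite H] {N : Subgroup H} [hN : N.Normal] {r k : ℕ}
    (hi : N.index = r ^ k) {y : H} (hy : (orderOf y).Coprime r) : y ∈ N := by
  have h1 : y ^ r ^ k ∈ N := hi ▸ N.pow_index_mem y
  obtain ⟨m, hm⟩ := exists_pow_eq_self_of_coprime (n := r ^ k) (x := y)
    (Nat.Coprime.pow_left k hy.symm)
  rw [← hm]
  exact N.pow_mem h1 m

namespace KWC

variable {A B : Subgroup G}

theorem mem_of_mem_normalizer (h : KWC A B) {y : G} (hy : y ∈ normalizer (A : Set G))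
    (hc : (orderOf y).Coprime (Nat.card B)) : y ∈ A := by
  obtain ⟨a, ha, b, hb, rfl⟩ := h.fact y
  have haN : a ∈ normalizer (A : Set G) := Subgroup.le_normalizer ha
  have hbN : b ∈ normalizer (A : Set G) := by
    have h4 : b = a⁻¹ * (a * b) := by group
    rw [h4]
    exact (normalizer _).mul_mem ((normalizer _).inv_mem haN) hy
  have key : ∀ n : ℕ, (a * b) ^ n * (b ^ n)⁻¹ ∈ A := by
    intro n
    induction n with
    | zero => simp
    | succ n ih =>
      have h1 : (a * b) ^ (n + 1) * (b ^ (n + 1))⁻¹ = a * (b * ((a * b) ^ n * (b ^ n)⁻¹) * b⁻¹) := by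
        rw [pow_succ', pow_succ]
        group
      rw [h1]
      refine A.mul_mem ha ?_
      rw [Subgroup.mem_normalizer_iff] at hbN
      exact (hbN _).mp ih
  have h1 := key (orderOf (a * b))
  rw [pow_orderOf_eq_one, one_mul] at h1
  have h2 : b ^ orderOf (a * b) ∈ A := by
    have := A.inv_mem h1
    rwa [inv_inv] at this
  have h3 : b ^ orderOf (a * b) ∈ A ⊓ B := ⟨h2, B.pow_mem hb _⟩
  rw [h.disjoint, Subgroup.mem_bot] at h3
  have h4 : orderOf b ∣ orderOf (a * b) := orderOf_dvd_of_pow_eq_one h3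
  have h5 : orderOf b ∣ Nat.card B := Subgroup.orderOf_dvd_natCard _ hb
  have h6 : orderOf b = 1 := Nat.eq_one_of_dvd_coprimes hc h4 h5
  rw [orderOf_eq_one_iff.mp h6, mul_one]
  exact ha

variable {p : ℕ} [hp : Fact p.Prime] {P K : Subgroup G}

theorem pow_card_eq_one_of_mem (hs : KWSplit A p P K) : ∃ k, ∀ x ∈ P, x ^ p ^ k = 1 := by
  obtain ⟨k, hk⟩ := IsPGroup.iff_card.mp hs.isP
  refine ⟨k, fun x hx => ?_⟩
  rw [← hk]
  have := pow_card_eq_one' (x := (⟨x, hx⟩ : P))
  exact congrArg Subtype.val this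

theorem coprime_of_pElement (h : KWC A B) (hd : p ∣ Nat.card A) {x : G} {k : ℕ} (hx : x ^ p ^ k = 1) :
    (orderOf x).Coprime (Nat.card B) := by
  refine Nat.Coprime.coprime_dvd_left (orderOf_dvd_of_pow_eq_one hx) (Nat.Coprime.pow_left k ?_)
  exact (Nat.Prime.coprime_iff_not_dvd hp.out).mpr (h.not_dvd_card_right hd)

/-- **Step 10, the Sylow statement.** -/
theorem not_dvd_relIndex_of_full (h : KWC A B) (hs : KWSplit A p P K) (hd : p ∣ Nat.card A) {x : G}
    (hxP : x ∈ P)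
    (hfull : ∀ g : G, g * x * g⁻¹ ∈ P → Nat.card (P ⊓ centralizer ({g * x * g⁻¹} : Set G) : Subgroup G) ≤
      Nat.card (P ⊓ centralizer ({x} : Set G) : Subgroup G)) :
    ¬ p ∣ (P ⊓ centralizer ({x} : Set G) : Subgroup G).relIndex (centralizer ({x} : Set G)) := by
  set Cx : Subgroup G := centralizer ({x} : Set G) with hCx
  set S₁ : Subgroup G := P ⊓ Cx with hS₁
  have hS₁C : S₁ ≤ Cx := inf_le_right
  have hS₁P : S₁ ≤ P := inf_le_left
  have hS₁p : IsPGroup p (S₁.subgroupOf Cx) :=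
    (hs.isP.to_le hS₁P).comap_of_injective _ Cx.subtype_injective
  obtain ⟨S₂, hS₂⟩ := hS₁p.exists_le_sylow
  set R : Subgroup G := (S₂ : Subgroup Cx).map Cx.subtype with hR
  have hRp : IsPGroup p R := S₂.isPGroup'.map _
  obtain ⟨g, hg⟩ := exists_le_conj_of_hall_of_isPGroup (h.hall_left hs) (hs.dvd_left hd) hRp
  have hxCx : x ∈ Cx := Subgroup.mem_centralizer_singleton_iff.mpr rfl
  -- `x ∈ R`
  have hxR : x ∈ R := by
    obtain ⟨k, hk⟩ := pow_card_eq_one_of_mem hs
    let U : Subgroup Cx := zpowers ⟨x, hxCx⟩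
    have hUn : U.Normal := by
      refine ⟨fun n hn c => ?_⟩
      obtain ⟨j, rfl⟩ := hn
      have hc : (c : Cx) * ⟨x, hxCx⟩ = ⟨x, hxCx⟩ * c :=
        Subtype.ext (Subgroup.mem_centralizer_singleton_iff.mp c.2)
      have hcc : Commute c (⟨x, hxCx⟩ : Cx) := hc
      have h1 : c * (fun j : ℤ => (⟨x, hxCx⟩ : Cx) ^ j) j * c⁻¹ = (⟨x, hxCx⟩ : Cx) ^ j := by
        simp only
        rw [(hcc.zpow_right j).eq]
        group
      rw [h1]
      exact ⟨j, rfl⟩
    have hUp : IsPGroup p U := by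
      rintro ⟨_, j, rfl⟩
      refine ⟨k, Subtype.ext (Subtype.ext ?_)⟩
      simp only [Subgroup.coe_pow, OneMemClass.coe_one, Subgroup.coe_zpow]
      rw [← zpow_natCast, ← zpow_mul, mul_comm, zpow_mul, zpow_natCast, hk x hxP, one_zpow]
    have := normal_pGroup_le_sylow hUn hUp S₂ (Subgroup.mem_zpowers _)
    exact ⟨_, this, rfl⟩
  have hx₂ : g⁻¹ * x * g⁻¹⁻¹ ∈ P := by
    have := hg hxR
    rw [mem_conj_smul] at this
    simpa using this
  have hR₂ : MulAut.conj g⁻¹ • R ≤ P ⊓ centralizer ({g⁻¹ * x * g⁻¹⁻¹} : Set G) := by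
    intro u hu
    rw [mem_conj_smul, inv_inv] at hu
    refine ⟨?_, ?_⟩
    · have h1 := hg hu
      rw [mem_conj_smul] at h1
      simpa [mul_assoc] using h1
    · have h1 : g * u * g⁻¹ ∈ Cx := by
        obtain ⟨y, -, hy⟩ := hu
        rw [← hy]
        exact y.2
      rw [hCx, Subgroup.mem_centralizer_singleton_iff] at h1
      refine Subgroup.mem_centralizer_singleton_iff.mpr ?_
      calc u * (g⁻¹ * x * g⁻¹⁻¹) = g⁻¹ * ((g * u * g⁻¹) * x) * g := by group
        _ = g⁻¹ * (x * (g * u * g⁻¹)) * g := by rw [h1]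
        _ = _ := by group
  have hcard : Nat.card S₂ ≤ Nat.card S₁ := by
    have h1 : Nat.card R = Nat.card (S₂ : Subgroup Cx) :=
      Subgroup.card_map_of_injective Cx.subtype_injective
    have h2 := Subgroup.card_le_of_le hR₂
    rw [card_conj_smul, h1] at h2
    exact h2.trans (hfull g⁻¹ hx₂)
  have heq : S₁.subgroupOf Cx = (S₂ : Subgroup Cx) := by
    refine Subgroup.eq_of_le_of_card_ge hS₂ ?_
    rw [card_subgroupOf_of_le hS₁C]
    exact hcard
  change ¬ p ∣ (S₁.subgroupOf Cx).index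
  rw [heq]
  exact S₂.not_dvd_index

/-- **Step 10, the stability core**. -/
theorem stable_core (h : KWC A B) {Cx S₁ : Subgroup G} (hs : KWSplit A p P K) (hS₁C : S₁ ≤ Cx) (hS₁P : S₁ ≤ P)
    (hS₁i : ¬ p ∣ S₁.relIndex Cx) (hS₁N : normalizer (S₁ : Set G) ≤ normalizer (A : Set G))
    (hCM : Cx ⊓ normalizer (A : Set G) ≤ A) {r : ℕ} [hrp : Fact r.Prime] {T D : Subgroup G}
    (hT : KWSplit A r T D) (hrne : r ≠ p) {U : Subgroup G} (hUT : U ≤ T) {g : G} (hgC : g ∈ Cx)
    (hgN : g ∈ normalizer (U : Set G)) (hgo : (orderOf g).Coprime r) :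
    g ∈ centralizer (U : Set G) := by
  have hTK : T ≤ K := hs.le_right_of_isPGroup hrne hT.le₁ hT.isP
  set C' : Subgroup G := Cx ⊓ centralizer (U : Set G) with hC'
  have hS₁C' : S₁ ≤ C' := by
    refine le_inf hS₁C fun y hy => Subgroup.mem_centralizer_iff.mpr fun u hu => ?_
    exact (hs.comm y (hS₁P hy) u (hTK (hUT hu))).symm
  have hgC' : g ∈ normalizer (C' : Set G) :=
    mem_normalizer_inf' (Subgroup.le_normalizer hgC) (mem_normalizer_centralizer hgN)
  have hgS₁ : MulAut.conj g • S₁ ≤ C' := by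
    rw [← conj_smul_le_of_normalizer hgC']
    exact Subgroup.pointwise_smul_le_pointwise_smul_iff.mpr hS₁C'
  have hS₁p : IsPGroup p S₁ := hs.isP.to_le hS₁P
  have hgS₁p : IsPGroup p (MulAut.conj g • S₁ : Subgroup G) :=
    hS₁p.of_surjective (conjSmulEquiv g S₁).toMonoidHom (conjSmulEquiv g S₁).surjective
  have hS₁i' : ¬ p ∣ S₁.relIndex C' := by
    intro h1
    apply hS₁i
    rw [← Subgroup.relIndex_mul_relIndex S₁ C' Cx hS₁C' inf_le_left]
    exact Dvd.dvd.mul_right h1 _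
  obtain ⟨c, hcC', hc⟩ := exists_conj_in_of_card hS₁C' hgS₁ hS₁p hgS₁p hS₁i' (card_conj_smul g S₁)
  have hcU : c ∈ centralizer (U : Set G) := hcC'.2
  have hcN : c ∈ normalizer (U : Set G) := Subgroup.centralizer_le_normalizer _ hcU
  set a : G := c⁻¹ * g with ha
  have haS : a ∈ normalizer (S₁ : Set G) := by
    apply mem_normalizer_of_conj_smul_eq
    rw [ha, conj_smul_mul, ← hc, ← conj_smul_mul]
    simp [conj_smul_one]
  have haCx : a ∈ Cx := Cx.mul_mem (Cx.inv_mem hcC'.1) hgC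
  have haA : a ∈ A := hCM ⟨haCx, hS₁N haS⟩
  have haN : a ∈ normalizer (U : Set G) := (normalizer _).mul_mem ((normalizer _).inv_mem hcN) hgN
  obtain ⟨w, hw, d, hd', hwd⟩ := hT.exists_mul haA
  have hdU : d ∈ centralizer (U : Set G) := Subgroup.mem_centralizer_iff.mpr fun u hu =>
    hT.comm u (hUT hu) d hd'
  have hwN : w ∈ normalizer (U : Set G) := by
    have h1 : w = a * d⁻¹ := by rw [← hwd]; group
    rw [h1]
    exact (normalizer _).mul_mem haN ((normalizer _).inv_mem (Subgroup.centralizer_le_normalizer _ hdU))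
  have hwC := mem_normalizer_centralizer hwN
  have hwg : w⁻¹ * g ∈ centralizer (U : Set G) := by
    have h1 : g = c * (w * d) := by rw [hwd, ha]; group
    have h2 : w⁻¹ * g = (w⁻¹ * c * w⁻¹⁻¹) * d := by
      rw [h1]
      group
    rw [h2]
    refine Subgroup.mul_mem _ ?_ hdU
    have h3 := (normalizer (centralizer (U : Set G) : Set G)).inv_mem hwC
    rw [Subgroup.mem_normalizer_iff] at h3
    exact (h3 _).mp hcU
  have h3 := inv_pow_mul_pow_mem hwC hwg (orderOf g)
  rw [pow_orderOf_eq_one, mul_one] at h3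
  have h4 : w ^ orderOf g ∈ centralizer (U : Set G) := by
    have := (centralizer (U : Set G)).inv_mem h3
    rwa [inv_inv] at this
  obtain ⟨e, he⟩ := IsPGroup.iff_card.mp hT.isP
  have h5 : orderOf w ∣ r ^ e := by
    rw [← he]
    exact Subgroup.orderOf_dvd_natCard _ hw
  have h6 : (orderOf g).Coprime (orderOf w) :=
    Nat.Coprime.coprime_dvd_right h5 (Nat.Coprime.pow_right e hgo)
  obtain ⟨m, hm⟩ := exists_pow_eq_self_of_coprime h6
  have h7 : w ∈ centralizer (U : Set G) := by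
    rw [← hm]
    exact Subgroup.pow_mem _ h4 m
  have h8 : g = w * (w⁻¹ * g) := by group
  rw [h8]
  exact Subgroup.mul_mem _ h7 hwg

/-- **Step 10, stability**. -/
theorem stable_of_core (h : KWC A B) {Cx S₁ : Subgroup G} (hs : KWSplit A p P K) (hS₁C : S₁ ≤ Cx) (hS₁P : S₁ ≤ P)
    (hS₁i : ¬ p ∣ S₁.relIndex Cx) (hS₁N : normalizer (S₁ : Set G) ≤ normalizer (A : Set G))
    (hCM : Cx ⊓ normalizer (A : Set G) ≤ A) {r : ℕ} [hrp : Fact r.Prime] {T D : Subgroup G}
    (hT : KWSplit A r T D) (hrne : r ≠ p) (hrd : r ∣ Nat.card A) (hTC : T ≤ Cx) :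
    Cfsg.Agent.Lib.Transfer.FrobeniusStable r Cx := by
  intro D' hD' g hg hgo
  set U₀ : Subgroup G := D'.map Cx.subtype with hU₀
  have hU₀C : U₀ ≤ Cx := Subgroup.map_subtype_le _
  have hU₀p : IsPGroup r U₀ := hD'.map _
  have hTi : ¬ r ∣ T.relIndex Cx := by
    intro h1
    apply h.not_dvd_index hT hrd
    rw [← Subgroup.relIndex_mul_index hTC]
    exact Dvd.dvd.mul_right h1 _
  obtain ⟨y, hyC, hy⟩ := exists_le_conj_of_relSylow hTC hU₀C hT.isP hTi hU₀p
  set U : Subgroup G := MulAut.conj y⁻¹ • U₀ with hU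
  have hUT : U ≤ T := by
    intro u hu
    rw [hU, mem_conj_smul, inv_inv] at hu
    have := hy hu
    rw [mem_conj_smul] at this
    simpa [mul_assoc] using this
  have hgN : (g : G) ∈ normalizer (U₀ : Set G) := by
    rw [Subgroup.mem_normalizer_iff]
    intro z
    rw [Subgroup.mem_normalizer_iff] at hg
    constructor
    · rintro ⟨d, hd, rfl⟩
      exact ⟨_, (hg d).mp hd, rfl⟩
    · rintro ⟨d, hd, hdz⟩
      have hzC : z ∈ Cx := by
        have h1 : z = (g : G)⁻¹ * d * g := by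
          rw [Subgroup.subtype_apply] at hdz
          rw [hdz]
          group
        rw [h1]
        exact Cx.mul_mem (Cx.mul_mem (Cx.inv_mem g.2) d.2) g.2
      have h2 : (⟨z, hzC⟩ : Cx) ∈ D' := by
        rw [hg]
        have h3 : g * ⟨z, hzC⟩ * g⁻¹ = d := Subtype.ext hdz.symm
        rw [h3]
        exact hd
      exact ⟨_, h2, rfl⟩
  set g₁ : G := y⁻¹ * g * y⁻¹⁻¹ with hg₁
  have hg₁C : g₁ ∈ Cx := Cx.mul_mem (Cx.mul_mem (Cx.inv_mem hyC) g.2) (Cx.inv_mem (Cx.inv_mem hyC))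
  have hg₁N : g₁ ∈ normalizer (U : Set G) := by
    apply mem_normalizer_of_conj_smul_eq
    rw [hU, ← conj_smul_mul, hg₁]
    have h1 : y⁻¹ * (g : G) * y⁻¹⁻¹ * y⁻¹ = y⁻¹ * g := by group
    rw [h1, conj_smul_mul, conj_smul_le_of_normalizer hgN]
  have hg₁o : (orderOf g₁).Coprime r := by
    have h1 : orderOf g₁ = orderOf (g : G) := by
      rw [hg₁, show y⁻¹ * (g : G) * y⁻¹⁻¹ = MulAut.conj y⁻¹ g from rfl, MulEquiv.orderOf_eq]
    rw [h1, Subgroup.orderOf_coe]
    exact hgo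
  have hgc := h.stable_core hs hS₁C hS₁P hS₁i hS₁N hCM hT hrne hUT hg₁C hg₁N hg₁o
  rw [Subgroup.mem_centralizer_iff]
  intro d hd
  have hd' : y⁻¹ * (d : G) * y⁻¹⁻¹ ∈ U := by
    rw [hU]
    exact conj_mem_conj_smul.mpr ⟨d, hd, rfl⟩
  have h1 := Subgroup.mem_centralizer_iff.mp hgc _ hd'
  rw [hg₁] at h1
  apply Subtype.ext
  have h2 : y⁻¹ * ((d : G) * g) * y⁻¹⁻¹ = y⁻¹ * ((g : G) * d) * y⁻¹⁻¹ := by
    calc y⁻¹ * ((d : G) * g) * y⁻¹⁻¹ = y⁻¹ * (d : G) * y⁻¹⁻¹ * (y⁻¹ * g * y⁻¹⁻¹) := by group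
      _ = y⁻¹ * g * y⁻¹⁻¹ * (y⁻¹ * (d : G) * y⁻¹⁻¹) := h1
      _ = _ := by group
  have h3 : (d : G) * g = (g : G) * d := by simpa using h2
  exact h3

/-- The normal complement from stability. -/
theorem exists_normal_complement {C : Subgroup G} {r : ℕ} [hrp : Fact r.Prime]
    (hst : Cfsg.Agent.Lib.Transfer.FrobeniusStable r C) :
    ∃ N : Subgroup G, N ≤ C ∧ C ≤ normalizer (N : Set G) ∧ (Nat.card N).Coprime r ∧
      (∃ k, Nat.card C = Nat.card N * r ^ k) ∧ ∀ y ∈ C, (orderOf y).Coprime r → y ∈ N := by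
  obtain ⟨S, N, hNn, hc⟩ := Cfsg.Agent.Lib.Transfer.hasNormalPComplement_of_stable hst
  obtain ⟨k, hk⟩ := IsPGroup.iff_card.mp S.isPGroup'
  have hcop : (Nat.card N).Coprime r := by
    have h1 : (S : Subgroup C).index = Nat.card N := hc.index_eq_card
    rw [← h1]
    exact ((Nat.Prime.coprime_iff_not_dvd hrp.out).mpr S.not_dvd_index).symm
  have hidx : N.index = r ^ k := by
    rw [← hk]
    exact hc.symm.index_eq_card
  refine ⟨N.map C.subtype, Subgroup.map_subtype_le _, ?_, ?_, ⟨k, ?_⟩, ?_⟩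
  · intro g hg
    apply mem_normalizer_of_forall_conj_mem
    rintro _ ⟨x, hx, rfl⟩
    refine ⟨⟨g, hg⟩ * x * ⟨g, hg⟩⁻¹, hNn.conj_mem x hx _, ?_⟩
    simp
  · rw [Subgroup.card_map_of_injective C.subtype_injective]
    exact hcop
  · rw [Subgroup.card_map_of_injective C.subtype_injective, ← hidx]
    exact (Subgroup.card_mul_index N).symm
  · intro y hy hyc
    refine ⟨⟨y, hy⟩, ?_, rfl⟩
    exact mem_of_coprime_of_index hidx (by rw [← Subgroup.orderOf_coe]; exact hyc)

/-- **Step 10.** -/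
theorem centralizer_le_of_full (h : KWC A B) (hs : KWSplit A p P K) (hd : p ∣ Nat.card A) {x : G}
    (hxP : x ∈ P) (hx : x ≠ 1)
    (hfull : ∀ g : G, g * x * g⁻¹ ∈ P → Nat.card (P ⊓ centralizer ({g * x * g⁻¹} : Set G) : Subgroup G) ≤
      Nat.card (P ⊓ centralizer ({x} : Set G) : Subgroup G)) :
    centralizer ({x} : Set G) ≤ normalizer (A : Set G) := by
  have hS₁i := h.not_dvd_relIndex_of_full hs hd hxP hfull
  set Cx : Subgroup G := centralizer ({x} : Set G) with hCx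
  set S₁ : Subgroup G := P ⊓ Cx with hS₁
  have hS₁C : S₁ ≤ Cx := inf_le_right
  have hS₁P : S₁ ≤ P := inf_le_left
  have hcx : ∀ {y : G}, y ∈ Cx ↔ y * x = x * y := Subgroup.mem_centralizer_singleton_iff
  have hZ : P ⊓ centralizer (P : Set G) ≤ S₁ := by
    intro z hz
    refine ⟨hz.1, hcx.mpr ?_⟩
    exact (Subgroup.mem_centralizer_iff.mp hz.2 x hxP).symm
  have hS₁N : normalizer (S₁ : Set G) ≤ normalizer (A : Set G) :=
    h.normalizer_le_of_center_le hs hd hS₁P hZ
  obtain ⟨k, hk⟩ := pow_card_eq_one_of_mem hs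
  by_cases hcase : ∃ v ∈ Cx ⊓ normalizer (A : Set G), ∃ q : ℕ, q.Prime ∧ orderOf v = q ∧ ¬ q ∣ Nat.card A
  · -- Case A
    obtain ⟨v, hv, q, hq, hvq, hqA⟩ := hcase
    haveI : Fact q.Prime := ⟨hq⟩
    set M : Subgroup G := normalizer (A : Set G) with hM
    set B₁ : Subgroup G := B ⊓ M with hB₁
    have hqG : q ∣ Nat.card G := by
      rw [← hvq]
      exact orderOf_dvd_natCard v
    have hqB : q ∣ Nat.card B := by
      rw [← h.card_mul] at hqG
      rcases hq.dvd_mul.mp hqG with h1 | h1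
      · exact absurd h1 hqA
      · exact h1
    obtain ⟨Q₁, R₁, hs₁⟩ := exists_kwSplit (isNilpotent_of_le (inf_le_left : B₁ ≤ B) h.nilB) q
    have hAM : A ≤ M := Subgroup.le_normalizer
    have hMfac : ∀ y ∈ M, ∃ a ∈ A, ∃ b ∈ B₁, y = a * b := by
      intro y hy
      obtain ⟨a, ha, b, hb, rfl⟩ := h.fact y
      refine ⟨a, ha, b, ⟨hb, ?_⟩, rfl⟩
      have h4 : b = a⁻¹ * (a * b) := by group
      rw [h4]
      exact M.mul_mem (M.inv_mem (hAM ha)) hy
    have hQ₁M : Q₁ ≤ M := hs₁.le₁.trans inf_le_right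
    have hQ₁i : ¬ q ∣ Q₁.relIndex M := by
      have h1 : Nat.card M ∣ Nat.card A * Nat.card B₁ :=
        card_dvd_mul_of_forall_exists_mul hAM inf_le_right hMfac
      have h2 : Nat.card (Q₁.subgroupOf M) * (Q₁.subgroupOf M).index = Nat.card M := Subgroup.card_mul_index _
      rw [card_subgroupOf_of_le hQ₁M] at h2
      rw [← h2, ← hs₁.card] at h1
      have h3 : Q₁.relIndex M ∣ Nat.card A * Nat.card R₁ := by
        have h4 : Nat.card Q₁ * Q₁.relIndex M ∣ Nat.card Q₁ * (Nat.card A * Nat.card R₁) := by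
          have h5 : Nat.card A * (Nat.card Q₁ * Nat.card R₁) = Nat.card Q₁ * (Nat.card A * Nat.card R₁) := by ring
          rw [← h5]
          exact h1
        exact Nat.dvd_of_mul_dvd_mul_left Nat.card_pos h4
      intro h4
      rcases hq.dvd_mul.mp (h4.trans h3) with h5 | h5
      · exact hqA h5
      · exact hq.one_lt.ne' (Nat.eq_one_of_dvd_coprimes hs₁.cop h5 dvd_rfl)
    obtain ⟨m, hmM, hm⟩ := exists_mem_conj_of_sylow_subgroupOf hQ₁M hs₁.isP hQ₁i hv.2 (k := 1)
      (by rw [pow_one, ← hvq, pow_orderOf_eq_one])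
    set v₁ : G := m⁻¹ * v * m with hv₁
    have hv₁B : v₁ ∈ B₁ := hs₁.le₁ hm
    have hv₁ne : v₁ ≠ 1 := by
      intro h1
      have h2 : v = 1 := by
        have h3 : m⁻¹ * v * m = 1 := h1
        have h4 : v = m * (m⁻¹ * v * m) * m⁻¹ := by group
        rw [h4, h3]
        group
      rw [h2, orderOf_one] at hvq
      exact hq.one_lt.ne hvq
    obtain ⟨Q, R, hsB⟩ := exists_kwSplit h.nilB q
    have hv₁Q : v₁ ∈ Q := hsB.mem_left hv₁B.1 (e := 1) (by
      rw [pow_one, hv₁]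
      have h1 : (m⁻¹ * v * m) ^ q = m⁻¹ * v ^ q * m := by
        have := conj_pow (a := m⁻¹) (b := v) (i := q)
        simpa using this
      rw [h1, ← hvq, pow_orderOf_eq_one]
      group)
    have hVQ : zpowers v₁ ≤ Q := (Subgroup.zpowers_le).mpr hv₁Q
    have hVA : zpowers v₁ ≤ normalizer (A : Set G) := (Subgroup.zpowers_le).mpr hv₁B.2
    have hVb : zpowers v₁ ≠ ⊥ := by
      rw [Ne, Subgroup.zpowers_eq_bot]
      exact hv₁ne
    have hCV := h.symm.centralizer_le hsB hqB hVQ hVA hVb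
    set x₁ : G := m⁻¹ * x * m with hx₁
    have hxA : x ∈ A := hs.le₁ hxP
    have hx₁A : x₁ ∈ A := by
      have h1 := M.inv_mem hmM
      rw [hM, Subgroup.mem_normalizer_iff] at h1
      have h2 := (h1 x).mp hxA
      simpa using h2
    have hvx : v * x = x * v := hcx.mp hv.1
    have hx₁v₁ : x₁ * v₁ = v₁ * x₁ := by
      rw [hx₁, hv₁]
      calc m⁻¹ * x * m * (m⁻¹ * v * m) = m⁻¹ * (x * v) * m := by group
        _ = m⁻¹ * (v * x) * m := by rw [hvx]
        _ = _ := by group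
    have hx₁B : x₁ ∈ normalizer (B : Set G) := hCV (mem_centralizer_zpowers_of_commute hx₁v₁)
    have hx₁p : x₁ ^ p ^ k = 1 := by
      have h1 : (m⁻¹ * x * m) ^ p ^ k = m⁻¹ * x ^ p ^ k * m := by
        have := conj_pow (a := m⁻¹) (b := x) (i := p ^ k)
        simpa using this
      rw [hx₁, h1, hk x hxP]
      group
    have hx₁P : x₁ ∈ P := hs.mem_left hx₁A hx₁p
    have hx₁ne : x₁ ≠ 1 := by
      intro h1
      apply hx
      have h3 : m⁻¹ * x * m = 1 := h1
      have h4 : x = m * (m⁻¹ * x * m) * m⁻¹ := by group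
      rw [h4, h3]
      group
    have hCU := h.centralizer_le hs hd ((Subgroup.zpowers_le).mpr hx₁P)
      ((Subgroup.zpowers_le).mpr hx₁B) (by rw [Ne, Subgroup.zpowers_eq_bot]; exact hx₁ne)
    intro y hy
    have hy' : y * x = x * y := hcx.mp hy
    have h1 : m⁻¹ * y * m ∈ M := by
      refine hCU (mem_centralizer_zpowers_of_commute ?_)
      rw [hx₁]
      calc m⁻¹ * y * m * (m⁻¹ * x * m) = m⁻¹ * (y * x) * m := by group
        _ = m⁻¹ * (x * y) * m := by rw [hy']
        _ = _ := by group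
    have h2 : y = m * (m⁻¹ * y * m) * m⁻¹ := by group
    rw [h2]
    exact M.mul_mem (M.mul_mem hmM h1) (M.inv_mem hmM)
  · -- Case B
    push Not at hcase
    have hCM : Cx ⊓ normalizer (A : Set G) ≤ A := by
      intro y hy
      refine h.mem_of_mem_normalizer hy.2 ?_
      refine Nat.coprime_of_dvd fun q hq h1 h2 => ?_
      have hv : y ^ (orderOf y / q) ∈ Cx ⊓ normalizer (A : Set G) := Subgroup.pow_mem _ hy _
      have hvq := orderOf_pow_orderOf_div (orderOf_pos y).ne' h1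
      have h3 := hcase _ hv q hq hvq
      exact hq.one_lt.ne' (Nat.eq_one_of_dvd_coprimes h.cop h3 h2)
    have hcomp : ∀ r : ℕ, r.Prime → r ≠ p → r ∣ Nat.card A → ∃ N : Subgroup G, N ≤ Cx ∧
        Cx ≤ normalizer (N : Set G) ∧ (Nat.card N).Coprime r ∧
        (∃ k, Nat.card Cx = Nat.card N * r ^ k) ∧ ∀ y ∈ Cx, (orderOf y).Coprime r → y ∈ N := by
      intro r hr hrne hrd
      haveI : Fact r.Prime := ⟨hr⟩
      obtain ⟨T, D, hT⟩ := exists_kwSplit h.nilA r
      have hTK : T ≤ K := hs.le_right_of_isPGroup hrne hT.le₁ hT.isP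
      have hTC : T ≤ Cx := fun t ht => hcx.mpr (hs.comm x hxP t (hTK ht)).symm
      exact exists_normal_complement
        (h.stable_of_core hs hS₁C hS₁P hS₁i hS₁N hCM hT hrne hrd hTC)
    -- all primes of `C(x)` divide `|A|`
    have hprimes : ∀ q : ℕ, q.Prime → q ∣ Nat.card Cx → q ∣ Nat.card A := by
      intro q hq hqC
      obtain ⟨r, hr, hrne, hrd⟩ := h.exists_other_prime p
      haveI : Fact r.Prime := ⟨hr⟩
      obtain ⟨N, -, hNn, hNc, ⟨j, hj⟩, -⟩ := hcomp r hr hrne hrd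
      rw [hj] at hqC
      rcases hq.dvd_mul.mp hqC with h1 | h1
      · haveI : Fact q.Prime := ⟨hq⟩
        obtain ⟨T, D, hT⟩ := exists_kwSplit h.nilA r
        have hTK : T ≤ K := hs.le_right_of_isPGroup hrne hT.le₁ hT.isP
        have hTC : T ≤ Cx := fun t ht => hcx.mpr (hs.comm x hxP t (hTK ht)).symm
        have hTc : (Nat.card T).Coprime (Nat.card N) := by
          obtain ⟨e, he⟩ := IsPGroup.iff_card.mp hT.isP
          rw [he]
          exact Nat.Coprime.pow_left e hNc.symm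
        exact h.prime_dvd_of_normalized hT.le₁ hT.le_normalizer_left (hT.left_ne_bot hrd)
          (h.hall_left hT) hTc (hTC.trans hNn) h1
      · rw [(Nat.prime_dvd_prime_iff_eq hq hr).mp (hq.dvd_of_dvd_pow h1)]
        exact hrd
    intro y hy
    refine hS₁N ?_
    -- `S₁` is normal in `C(x)`
    set J : Subgroup G := S₁ ⊔ MulAut.conj y • S₁ with hJ
    have hyS₁C : MulAut.conj y • S₁ ≤ Cx := by
      rw [← conj_smul_le_of_normalizer (Subgroup.le_normalizer hy)]
      exact Subgroup.pointwise_smul_le_pointwise_smul_iff.mpr hS₁C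
    have hJC : J ≤ Cx := sup_le hS₁C hyS₁C
    have hS₁p : IsPGroup p S₁ := hs.isP.to_le hS₁P
    have hyS₁p : IsPGroup p (MulAut.conj y • S₁ : Subgroup G) :=
      hS₁p.of_surjective (conjSmulEquiv y S₁).toMonoidHom (conjSmulEquiv y S₁).surjective
    have hle : ∀ {X : Subgroup G}, X ≤ Cx → IsPGroup p X → ∀ r : ℕ, r.Prime → r ≠ p → r ∣ Nat.card A →
        ∀ N : Subgroup G, (∀ y ∈ Cx, (orderOf y).Coprime r → y ∈ N) → X ≤ N := by
      intro X hX hXp r hr hrne hrd N hN z hz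
      refine hN z (hX hz) ?_
      obtain ⟨e, he⟩ := IsPGroup.iff_card.mp hXp
      have h1 : orderOf z ∣ p ^ e := by
        rw [← he]
        exact Subgroup.orderOf_dvd_natCard _ hz
      refine Nat.Coprime.coprime_dvd_left h1 (Nat.Coprime.pow_left e ?_)
      exact (Nat.coprime_primes hp.out hr).mpr hrne.symm
    have hJp : IsPGroup p J := by
      rw [IsPGroup.iff_card]
      refine ⟨_, Nat.eq_prime_pow_of_unique_prime_dvd Nat.card_pos.ne' ?_⟩
      intro ℓ hℓ hℓJ
      by_contra hne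
      have hℓC : ℓ ∣ Nat.card Cx := hℓJ.trans (Subgroup.card_dvd_of_le hJC)
      have hℓA := hprimes ℓ hℓ hℓC
      obtain ⟨N, -, -, hNc, -, hNm⟩ := hcomp ℓ hℓ hne hℓA
      have hJN : J ≤ N := sup_le (hle hS₁C hS₁p ℓ hℓ hne hℓA N hNm) (hle hyS₁C hyS₁p ℓ hℓ hne hℓA N hNm)
      have h1 : ℓ ∣ Nat.card N := hℓJ.trans (Subgroup.card_dvd_of_le hJN)
      exact hℓ.one_lt.ne' (Nat.eq_one_of_dvd_coprimes hNc h1 dvd_rfl)
    -- maximality
    have hS₁J : S₁ ≤ J := le_sup_left
    have hrel : S₁.relIndex J ∣ S₁.relIndex Cx := by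
      rw [← Subgroup.relIndex_mul_relIndex S₁ J Cx hS₁J hJC]
      exact Dvd.intro _ rfl
    have hJS : J ≤ S₁ := by
      rw [← Subgroup.relIndex_eq_one]
      have h1 : S₁.relIndex J ∣ Nat.card J := by
        have h2 : Nat.card (S₁.subgroupOf J) * (S₁.subgroupOf J).index = Nat.card J := Subgroup.card_mul_index _
        exact Dvd.intro_left _ h2
      obtain ⟨e, he⟩ := IsPGroup.iff_card.mp hJp
      rw [he] at h1
      obtain ⟨f, -, hf⟩ := (Nat.dvd_prime_pow hp.out).mp h1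
      rcases f with _ | f
      · simpa using hf
      · exfalso
        apply hS₁i
        refine Dvd.dvd.trans ?_ hrel
        rw [hf]
        exact Dvd.intro_left _ (pow_succ p f).symm
    have hle2 : MulAut.conj y • S₁ ≤ S₁ := le_sup_right.trans hJS
    apply mem_normalizer_of_conj_smul_eq
    exact Subgroup.eq_of_le_of_card_ge hle2 (le_of_eq (card_conj_smul y S₁).symm)

/-- **Step 11 for fully centralized elements.** -/
theorem mem_of_conj_mem_of_full (h : KWC A B) (hs : KWSplit A p P K) (hd : p ∣ Nat.card A) {x : G}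
    (hxP : x ∈ P) (hx : x ≠ 1)
    (hfull : ∀ g : G, g * x * g⁻¹ ∈ P → Nat.card (P ⊓ centralizer ({g * x * g⁻¹} : Set G) : Subgroup G) ≤
      Nat.card (P ⊓ centralizer ({x} : Set G) : Subgroup G)) {g : G}
    (hg : g * x * g⁻¹ ∈ normalizer (A : Set G)) : g ∈ normalizer (A : Set G) := by
  have hC := h.centralizer_le_of_full hs hd hxP hx hfull
  obtain ⟨k, hk⟩ := pow_card_eq_one_of_mem hs
  have hx₁p : (g * x * g⁻¹) ^ p ^ k = 1 := by
    rw [conj_pow, hk x hxP]
    group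
  have hx₁A : g * x * g⁻¹ ∈ A := h.mem_of_mem_normalizer hg (h.coprime_of_pElement hd hx₁p)
  have hx₁P : g * x * g⁻¹ ∈ P := hs.mem_left hx₁A hx₁p
  obtain ⟨r, hr, hrne, hrd⟩ := h.exists_other_prime p
  haveI : Fact r.Prime := ⟨hr⟩
  obtain ⟨T, D, hT⟩ := exists_kwSplit h.nilA r
  have hTK : T ≤ K := hs.le_right_of_isPGroup hrne hT.le₁ hT.isP
  obtain ⟨e, he⟩ := pow_card_eq_one_of_mem hT
  have hT₂ : MulAut.conj g⁻¹ • T ≤ T := by
    intro t ht
    rw [mem_conj_smul, inv_inv] at ht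
    have h1 : g * t * g⁻¹ ∈ T := ht
    have hcomm := hs.comm _ hx₁P _ (hTK h1)
    have h2 : t ∈ centralizer ({x} : Set G) := by
      refine Subgroup.mem_centralizer_singleton_iff.mpr ?_
      calc t * x = g⁻¹ * ((g * t * g⁻¹) * (g * x * g⁻¹)) * g := by group
        _ = g⁻¹ * ((g * x * g⁻¹) * (g * t * g⁻¹)) * g := by rw [hcomm]
        _ = _ := by group
    have h3 : t ^ r ^ e = 1 := by
      have h4 := he _ h1
      rw [conj_pow] at h4
      have h5 : t ^ r ^ e = g⁻¹ * (g * t ^ r ^ e * g⁻¹) * g := by group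
      rw [h5, h4]
      group
    have h6 : t ∈ A := h.mem_of_mem_normalizer (hC h2) (h.coprime_of_pElement hrd h3)
    exact hT.mem_left h6 h3
  have hT₃ : MulAut.conj g⁻¹ • T = T :=
    Subgroup.eq_of_le_of_card_ge hT₂ (le_of_eq (card_conj_smul g⁻¹ T).symm)
  have h1 : g⁻¹ ∈ normalizer (T : Set G) := mem_normalizer_of_conj_smul_eq hT₃
  have h2 := h.normalizer_le hT.le₁ hT.le_normalizer_left (hT.left_ne_bot hrd) h1
  have h3 := (normalizer (A : Set G)).inv_mem h2
  rwa [inv_inv] at h3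

/-- **Step 11.** -/
theorem mem_of_conj_mem (h : KWC A B) (hs : KWSplit A p P K) (hd : p ∣ Nat.card A) {x : G}
    (hxP : x ∈ P) (hx : x ≠ 1) {g : G} (hg : g * x * g⁻¹ ∈ normalizer (A : Set G)) :
    g ∈ normalizer (A : Set G) := by
  classical
  set M : Subgroup G := normalizer (A : Set G) with hM
  let Ω : Set G := {y | y ∈ P ∧ ∃ t : G, y = t * x * t⁻¹}
  haveI : Nonempty Ω := ⟨⟨x, hxP, 1, by group⟩⟩
  obtain ⟨⟨y, hyP, t, hyt⟩, hmax⟩ := Finite.exists_max (fun y : Ω =>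
    Nat.card (P ⊓ centralizer ({(y : G)} : Set G) : Subgroup G))
  have hyne : y ≠ 1 := by
    rw [hyt]
    intro h1
    apply hx
    have h4 : x = t⁻¹ * (t * x * t⁻¹) * t := by group
    rw [h4, h1]
    group
  have hfull : ∀ g : G, g * y * g⁻¹ ∈ P → Nat.card (P ⊓ centralizer ({g * y * g⁻¹} : Set G) : Subgroup G) ≤
      Nat.card (P ⊓ centralizer ({y} : Set G) : Subgroup G) := by
    intro u hu
    refine hmax ⟨u * y * u⁻¹, hu, u * t, ?_⟩
    rw [hyt]
    group
  have hAM : A ≤ M := Subgroup.le_normalizer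
  have h1 : t⁻¹ ∈ M := by
    refine h.mem_of_conj_mem_of_full hs hd hyP hyne hfull (hAM (hs.le₁ ?_))
    have h2 : t⁻¹ * y * t⁻¹⁻¹ = x := by
      rw [hyt]
      group
    rw [h2]
    exact hxP
  have h2 : g * t⁻¹ ∈ M := by
    refine h.mem_of_conj_mem_of_full hs hd hyP hyne hfull ?_
    have h3 : g * t⁻¹ * y * (g * t⁻¹)⁻¹ = g * x * g⁻¹ := by
      rw [hyt]
      group
    rw [h3]
    exact hg
  have h3 : g = g * t⁻¹ * t⁻¹⁻¹ := by group
  rw [h3]
  exact M.mul_mem h2 (M.inv_mem h1)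

end KWC

end Cfsg.Agent.Lib.Basic
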