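import Cfsg.Agent.Lib.Basic.KW4
import Cfsg.Agent.Lib.Recog.PermBasic
import Cfsg.Agent.Lib.Char.PermChar
import Cfsg.Agent.Lib.Char.Burnside

/-!
# Wielandt's theorem on products of coprime nilpotent groups: the count and the theorem.
-/

set_option autoImplicit false

namespace Cfsg.Agent.Lib.Basic

open Subgroup Cfsg

open scoped Pointwise

universe u

variable {G : Type*} [Group G] [Finite G]

set_option linter.unusedSectionVars false

namespace KWC

variable {A B : Subgroup G}

/-- **Step 12**: `g` with a prime `p ∣ |A|` dividing its order has a unique fixed point on `G/N(A)`. -/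
theorem card_fixedBy_eq_one (h : KWC A B) {g : G} {p : ℕ} [hp : Fact p.Prime] (hd : p ∣ Nat.card A)
    (hpg : p ∣ orderOf g) :
    Nat.card (MulAction.fixedBy (G ⧸ normalizer (A : Set G)) g) = 1 := by
  set M : Subgroup G := normalizer (A : Set G) with hM
  obtain ⟨P, K, hs⟩ := exists_kwSplit h.nilA p
  set x : G := g ^ (orderOf g / p) with hx
  have hxo : orderOf x = p := orderOf_pow_orderOf_div (orderOf_pos g).ne' hpg
  have hx1 : x ≠ 1 := by
    intro h1
    rw [h1, orderOf_one] at hxo
    exact hp.out.one_lt.ne hxo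
  have hzp : IsPGroup p (zpowers x) := by
    refine IsPGroup.of_card (n := 1) ?_
    rw [Nat.card_zpowers, hxo, pow_one]
  obtain ⟨s, hs'⟩ := exists_le_conj_of_hall_of_isPGroup (h.hall_left hs) (hs.dvd_left hd) hzp
  have hx' : s⁻¹ * x * s ∈ P := by
    have := hs' (Subgroup.mem_zpowers x)
    rwa [mem_conj_smul] at this
  have hx'1 : s⁻¹ * x * s ≠ 1 := by
    intro h1
    apply hx1
    have h4 : x = s * (s⁻¹ * x * s) * s⁻¹ := by group
    rw [h4, h1]
    group
  have hAM : A ≤ M := Subgroup.le_normalizer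
  -- Claim A
  have hA : ∀ t : G, x • (t : G ⧸ M) = (t : G ⧸ M) → (t : G ⧸ M) = (s : G ⧸ M) := by
    intro t ht
    have h1 : t⁻¹ * x * t ∈ M := by
      have h2 : ((x * t : G) : G ⧸ M) = (t : G ⧸ M) := ht
      rw [QuotientGroup.eq] at h2
      have h3 := M.inv_mem h2
      have h5 : ((x * t)⁻¹ * t)⁻¹ = t⁻¹ * x * t := by group
      rwa [h5] at h3
    have h2 : t⁻¹ * s ∈ M := by
      refine h.mem_of_conj_mem hs hd hx' hx'1 ?_
      have h3 : t⁻¹ * s * (s⁻¹ * x * s) * (t⁻¹ * s)⁻¹ = t⁻¹ * x * t := by group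
      rw [h3]
      exact h1
    exact QuotientGroup.eq.mpr h2
  -- Claim B
  have hB : x • (s : G ⧸ M) = (s : G ⧸ M) := by
    have h1 : s⁻¹ * x * s ∈ M := hAM (hs.le₁ hx')
    change ((x * s : G) : G ⧸ M) = (s : G ⧸ M)
    rw [QuotientGroup.eq]
    have h5 : (x * s)⁻¹ * s = (s⁻¹ * x * s)⁻¹ := by group
    rw [h5]
    exact M.inv_mem h1
  -- Claim C
  have hcomm : x * g = g * x := by
    rw [hx, ← pow_succ, ← pow_succ']
  have hC : g • (s : G ⧸ M) = (s : G ⧸ M) := by
    obtain ⟨t, ht⟩ := QuotientGroup.mk_surjective (g • (s : G ⧸ M))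
    have h1 : x • (t : G ⧸ M) = (t : G ⧸ M) := by
      rw [ht, ← mul_smul, hcomm, mul_smul, hB]
    rw [← ht]
    exact hA t h1
  rw [Nat.card_eq_one_iff_unique]
  refine ⟨⟨?_⟩, ⟨⟨(s : G ⧸ M), hC⟩⟩⟩
  have huniq : ∀ y : MulAction.fixedBy (G ⧸ M) g, (y : G ⧸ M) = (s : G ⧸ M) := by
    rintro ⟨y, hy⟩
    obtain ⟨t, rfl⟩ := QuotientGroup.mk_surjective y
    refine hA t ?_
    have h1 : g • (t : G ⧸ M) = (t : G ⧸ M) := hy
    exact MulAction.mem_stabilizer_iff.mp
      (Subgroup.pow_mem _ (MulAction.mem_stabilizer_iff.mpr h1) (orderOf g / p))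
  intro y z
  exact Subtype.ext ((huniq y).trans (huniq z).symm)

/-- **Step 13**: the count. -/
theorem false_of (h : KWC A B) : False := by
  classical
  letI : Fintype G := Fintype.ofFinite G
  set M : Subgroup G := normalizer (A : Set G) with hM
  set M' : Subgroup G := normalizer (B : Set G) with hM'
  have hAM : A ≤ M := Subgroup.le_normalizer
  have hBM' : B ≤ M' := Subgroup.le_normalizer
  have h1 := Cfsg.Agent.Lib.Recog.sum_card_fixedBy_of_transitive (G := G) (Ω := G ⧸ M)
  have h2 := Cfsg.Agent.Lib.Recog.sum_card_fixedBy_of_transitive (G := G) (Ω := G ⧸ M')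
  haveI htr : MulAction.IsPretransitive G ((G ⧸ M) × (G ⧸ M')) := by
    rw [MulAction.isPretransitive_iff_base (((1 : G) : G ⧸ M), ((1 : G) : G ⧸ M'))]
    rintro ⟨u, v⟩
    obtain ⟨a, rfl⟩ := QuotientGroup.mk_surjective u
    obtain ⟨b, rfl⟩ := QuotientGroup.mk_surjective v
    obtain ⟨a', ha', b', hb', e⟩ := h.fact (a⁻¹ * b)
    refine ⟨a * a', ?_⟩
    refine Prod.ext ?_ ?_
    · change (((a * a' : G) • ((1 : G) : G ⧸ M)) : G ⧸ M) = (a : G ⧸ M)
      rw [MulAction.Quotient.smul_coe, smul_eq_mul, mul_one]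
      refine QuotientGroup.eq.mpr ?_
      have h3 : (a * a')⁻¹ * a = a'⁻¹ := by group
      rw [h3]
      exact M.inv_mem (hAM ha')
    · change (((a * a' : G) • ((1 : G) : G ⧸ M')) : G ⧸ M') = (b : G ⧸ M')
      rw [MulAction.Quotient.smul_coe, smul_eq_mul, mul_one]
      refine QuotientGroup.eq.mpr ?_
      have h3 : (a * a')⁻¹ * b = b' := by
        have h4 : b = a * (a' * b') := by
          rw [← e]
          group
        rw [h4]
        group
      rw [h3]
      exact hBM' hb'
  have h3 := Cfsg.Agent.Lib.Recog.sum_card_fixedBy_of_transitive (G := G) (Ω := (G ⧸ M) × (G ⧸ M'))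
  simp_rw [Cfsg.Agent.Lib.Char.card_fixedBy_prod] at h3
  let f : G → ℕ := fun g => Nat.card (MulAction.fixedBy (G ⧸ M) g)
  let f' : G → ℕ := fun g => Nat.card (MulAction.fixedBy (G ⧸ M') g)
  have hone : ∀ g : G, g ≠ 1 → f g = 1 ∨ f' g = 1 := by
    intro g hg
    have ho : orderOf g ≠ 1 := fun h4 => hg (orderOf_eq_one_iff.mp h4)
    obtain ⟨p, hp, hpg⟩ := Nat.exists_prime_and_dvd ho
    haveI : Fact p.Prime := ⟨hp⟩
    have hpG : p ∣ Nat.card G := hpg.trans (orderOf_dvd_natCard g)
    rw [← h.card_mul] at hpG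
    rcases hp.dvd_mul.mp hpG with h4 | h4
    · exact Or.inl (h.card_fixedBy_eq_one h4 hpg)
    · exact Or.inr (h.symm.card_fixedBy_eq_one h4 hpg)
  have hsum : ∑ g : G, (f g * f' g + 1) = ∑ g : G, (f g + f' g) := by
    rw [Finset.sum_add_distrib, Finset.sum_add_distrib, h3, h1, h2]
    simp
  rw [← Finset.add_sum_erase Finset.univ _ (Finset.mem_univ (1 : G)),
    ← Finset.add_sum_erase Finset.univ (fun g => f g + f' g) (Finset.mem_univ (1 : G))] at hsum
  have hrest : ∑ g ∈ Finset.univ.erase (1 : G), (f g * f' g + 1) =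
      ∑ g ∈ Finset.univ.erase (1 : G), (f g + f' g) := by
    refine Finset.sum_congr rfl fun g hg => ?_
    rcases hone g (Finset.ne_of_mem_erase hg) with h4 | h4
    · rw [h4]; ring
    · rw [h4]; ring
  rw [hrest] at hsum
  have hfin := Nat.add_right_cancel hsum
  have hf1 : f 1 = M.index := by
    change Nat.card (MulAction.fixedBy (G ⧸ M) (1 : G)) = Nat.card (G ⧸ M)
    rw [MulAction.fixedBy_one_eq_univ]
    exact Nat.card_congr (Equiv.Set.univ _)
  have hf'1 : f' 1 = M'.index := by
    change Nat.card (MulAction.fixedBy (G ⧸ M') (1 : G)) = Nat.card (G ⧸ M')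
    rw [MulAction.fixedBy_one_eq_univ]
    exact Nat.card_congr (Equiv.Set.univ _)
  have hn : 2 ≤ M.index := by
    have h5 : M.index ≠ 0 := Subgroup.index_ne_zero_of_finite
    have h6 : M.index ≠ 1 := fun h7 => h.normalizer_ne_top (Subgroup.index_eq_one.mp h7)
    omega
  have hn' : 2 ≤ M'.index := by
    have h5 : M'.index ≠ 0 := Subgroup.index_ne_zero_of_finite
    have h6 : M'.index ≠ 1 := fun h7 => h.symm.normalizer_ne_top (Subgroup.index_eq_one.mp h7)
    omega
  rw [hf1, hf'1] at hfin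
  nlinarith

end KWC

theorem kw_relIndex_sup_eq (H N : Subgroup G) [hN : N.Normal] :
    H.relIndex (H ⊔ N) = H.relIndex N := by
  have ia : (H ⊓ N).relIndex N * N.index = (H ⊓ N).index := relIndex_mul_index inf_le_right
  have ib : H.relIndex (H ⊔ N) * (H ⊔ N).index = H.index := relIndex_mul_index le_sup_left
  have ic : (H ⊓ N).relIndex H * H.index = (H ⊓ N).index := relIndex_mul_index inf_le_left
  have id : N.relIndex (H ⊔ N) * (H ⊔ N).index = N.index := relIndex_mul_index le_sup_right
  rw [inf_relIndex_right] at ia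
  rw [inf_relIndex_left] at ic
  rw [relIndex_sup_right] at id
  have hpos : 0 < (H ⊔ N).index := Nat.pos_of_ne_zero (index_ne_zero_of_finite)
  have hc : 0 < N.relIndex H := Nat.pos_of_ne_zero (by
    intro h0
    have : (H ⊓ N).index = 0 := by rw [← ic, h0, zero_mul]
    exact index_ne_zero_of_finite this)
  have h1 : (H.relIndex N) * (N.relIndex H * (H ⊔ N).index) =
      (H.relIndex (H ⊔ N)) * (N.relIndex H * (H ⊔ N).index) := by
    calc (H.relIndex N) * (N.relIndex H * (H ⊔ N).index) = (H.relIndex N) * N.index := by rw [id]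
      _ = (H ⊓ N).index := ia
      _ = N.relIndex H * H.index := ic.symm
      _ = (H.relIndex (H ⊔ N)) * (N.relIndex H * (H ⊔ N).index) := by rw [← ib]; ring
  exact (Nat.eq_of_mul_eq_mul_right (Nat.mul_pos hc hpos) h1).symm

theorem kw_relIndex_dvd_index (H N : Subgroup G) [hN : N.Normal] : H.relIndex N ∣ H.index := by
  rw [← kw_relIndex_sup_eq]
  exact relIndex_dvd_index_of_le le_sup_left

/-- A normal subgroup of a coprime product is the product of its intersections with the factors. -/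
theorem normal_fac_of_coprime {A B N : Subgroup G} (hN : N.Normal) (hc : (Nat.card A).Coprime (Nat.card B))
    (hf : ∀ g : G, ∃ a ∈ A, ∃ b ∈ B, g = a * b) :
    ∀ x ∈ N, ∃ a ∈ N ⊓ A, ∃ b ∈ N ⊓ B, x = a * b := by
  have hdisj : A ⊓ B = ⊥ := (disjoint_of_coprime_natCard hc).eq_bot
  have hcard := card_mul_card_inf_of_factorization hf
  rw [hdisj, Subgroup.card_bot, mul_one] at hcard
  have hA : A.index = Nat.card B := by
    have h1 := A.card_mul_index
    rw [hcard] at h1
    exact Nat.eq_of_mul_eq_mul_left Nat.card_pos h1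
  have hB : B.index = Nat.card A := by
    have h1 := B.card_mul_index
    rw [hcard, mul_comm] at h1
    exact Nat.eq_of_mul_eq_mul_right Nat.card_pos h1
  refine exists_mul_of_card_le inf_le_left inf_le_left ?_
  have hbot : N ⊓ A ⊓ (N ⊓ B) = ⊥ := by
    rw [eq_bot_iff, ← hdisj]
    exact le_inf (inf_le_left.trans inf_le_right) (inf_le_right.trans inf_le_right)
  rw [hbot, Subgroup.card_bot, mul_one]
  have h1 : Nat.card (N ⊓ A : Subgroup G) * A.relIndex N = Nat.card N := by
    have := Subgroup.relIndex_mul_relIndex ⊥ (N ⊓ A) N bot_le inf_le_left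
    rwa [Subgroup.relIndex_bot_left, Subgroup.relIndex_bot_left, Subgroup.inf_relIndex_left] at this
  have h2 : Nat.card (N ⊓ B : Subgroup G) * B.relIndex N = Nat.card N := by
    have := Subgroup.relIndex_mul_relIndex ⊥ (N ⊓ B) N bot_le inf_le_left
    rwa [Subgroup.relIndex_bot_left, Subgroup.relIndex_bot_left, Subgroup.inf_relIndex_left] at this
  have hi : A.relIndex N ∣ Nat.card B := hA ▸ kw_relIndex_dvd_index A N
  have hj : B.relIndex N ∣ Nat.card A := hB ▸ kw_relIndex_dvd_index B N
  have hcij : (A.relIndex N).Coprime (B.relIndex N) :=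
    Nat.Coprime.coprime_dvd_left hi (Nat.Coprime.coprime_dvd_right hj hc.symm)
  have hdvd : A.relIndex N ∣ Nat.card (N ⊓ B : Subgroup G) := by
    have h3 : A.relIndex N ∣ Nat.card (N ⊓ B : Subgroup G) * B.relIndex N := by
      rw [h2, ← h1]
      exact Dvd.intro_left _ rfl
    exact hcij.dvd_of_dvd_mul_right h3
  rw [← h1]
  exact Nat.mul_le_mul_left _ (Nat.le_of_dvd Nat.card_pos hdvd)

/-- A group which is a product of nilpotent groups of coprime orders, simple and not solvable, has at
least two primes dividing each factor. -/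
theorem exists_two_primes {A B : Subgroup G} (hA : Group.IsNilpotent A) (hB : Group.IsNilpotent B)
    (hc : (Nat.card A).Coprime (Nat.card B)) (hf : ∀ g : G, ∃ a ∈ A, ∃ b ∈ B, g = a * b)
    (hsimple : ∀ N : Subgroup G, N.Normal → N = ⊥ ∨ N = ⊤) (hns : ¬ Group.IsSolvable G) :
    ∃ p q : ℕ, p.Prime ∧ q.Prime ∧ p ≠ q ∧ p ∣ Nat.card A ∧ q ∣ Nat.card A := by
  classical
  by_contra hnot
  push Not at hnot
  have hntr : Nontrivial G := by
    by_contra h1
    rw [not_nontrivial_iff_subsingleton] at h1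
    apply hns
    infer_instance
  haveI hsimp : IsSimpleGroup G := ⟨hsimple⟩
  have hdisj : A ⊓ B = ⊥ := (disjoint_of_coprime_natCard hc).eq_bot
  have hcard := card_mul_card_inf_of_factorization hf
  rw [hdisj, Subgroup.card_bot, mul_one] at hcard
  have hBindex : B.index = Nat.card A := by
    have h1 := B.card_mul_index
    rw [hcard, mul_comm] at h1
    exact Nat.eq_of_mul_eq_mul_right Nat.card_pos h1
  -- `B ≠ ⊥`
  have hBb : B ≠ ⊥ := by
    rintro rfl
    apply hns
    have h1 : A = ⊤ := by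
      rw [Subgroup.card_bot, mul_one] at hcard
      exact Subgroup.eq_top_of_card_eq A hcard.symm
    subst h1
    haveI := hA
    haveI : Group.IsNilpotent G := Group.nilpotent_of_mulEquiv (Subgroup.topEquiv (G := G))
    infer_instance
  haveI := hB
  haveI : Nontrivial B := (Subgroup.nontrivial_iff_ne_bot B).mpr hBb
  have hZ := normal_inf_center_ne_bot (⊤ : Subgroup B) (by simp)
  rw [Subgroup.ne_bot_iff_exists_ne_one] at hZ
  obtain ⟨⟨z, hz1, hz2⟩, hzne⟩ := hZ
  have hzG : (z : G) ≠ 1 := fun h1 => hzne (Subtype.ext (Subtype.ext h1))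
  have hBC : B ≤ centralizer ({(z : G)} : Set G) := by
    intro y hy
    refine Subgroup.mem_centralizer_singleton_iff.mpr ?_
    have := (Subgroup.mem_center_iff.mp hz2) ⟨y, hy⟩
    exact congrArg Subtype.val this
  have hdvd : (centralizer ({(z : G)} : Set G)).index ∣ Nat.card A := by
    rw [← hBindex]
    exact Subgroup.index_dvd_of_le hBC
  have hpp : ∃ p k : ℕ, p.Prime ∧ (centralizer ({(z : G)} : Set G)).index = p ^ k := by
    by_cases h1 : (centralizer ({(z : G)} : Set G)).index = 1
    · exact ⟨2, 0, Nat.prime_two, by rw [h1, pow_zero]⟩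
    · obtain ⟨p, hp, hpd⟩ := Nat.exists_prime_and_dvd h1
      refine ⟨p, _, hp, Nat.eq_prime_pow_of_unique_prime_dvd Subgroup.index_ne_zero_of_finite ?_⟩
      intro q hq hqd
      by_contra hne
      exact hnot q p hq hp hne (hqd.trans hdvd) (hpd.trans hdvd)
  obtain ⟨p, k, hp, hpk⟩ := hpp
  have hprime := Cfsg.Agent.Lib.Char.prime_card_of_class_prime_pow p k hp (z : G) hzG hpk
  apply hns
  haveI : Fact (Nat.card G).Prime := ⟨hprime⟩
  have hpg : IsPGroup (Nat.card G) G := IsPGroup.of_card (n := 1) (pow_one _).symm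
  haveI := hpg.isNilpotent
  infer_instance

/-- **Wielandt's theorem**, the induction. -/
theorem wielandt_coprime_aux (n : ℕ) : ∀ (G : Type u) [Group G] [Finite G] (A B : Subgroup G),
    Nat.card G = n → Group.IsNilpotent A → Group.IsNilpotent B → (Nat.card A).Coprime (Nat.card B) →
    (∀ g : G, ∃ a ∈ A, ∃ b ∈ B, g = a * b) → Group.IsSolvable G := by
  induction n using Nat.strong_induction_on with
  | _ n ih =>
  intro G _ _ A B hn hA hB hc hf
  by_contra hns
  -- subgroups
  have hsub : ∀ H : Subgroup G, H ≠ ⊤ → ∀ A' B' : Subgroup G, A' ≤ H → B' ≤ H →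
      Group.IsNilpotent A' → Group.IsNilpotent B' → (Nat.card A').Coprime (Nat.card B') →
      (∀ h ∈ H, ∃ a ∈ A', ∃ b ∈ B', h = a * b) → Group.IsSolvable H := by
    intro H hH A' B' hA' hB' hnA hnB hcop hfac
    have hlt : Nat.card H < n := by
      rw [← hn]
      have h1 := card_lt_of_lt (lt_top_iff_ne_top.mpr hH)
      rwa [Subgroup.card_top] at h1
    refine ih _ hlt H (A'.subgroupOf H) (B'.subgroupOf H) rfl (isNilpotent_subgroupOf_of_le hA' hnA)
      (isNilpotent_subgroupOf_of_le hB' hnB) ?_ ?_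
    · rw [card_subgroupOf_of_le hA', card_subgroupOf_of_le hB']
      exact hcop
    · intro g
      obtain ⟨a, ha, b, hb, e⟩ := hfac g g.2
      exact ⟨⟨a, hA' ha⟩, ha, ⟨b, hB' hb⟩, hb, Subtype.ext e⟩
  -- simplicity
  have hsimple : ∀ N : Subgroup G, N.Normal → N = ⊥ ∨ N = ⊤ := by
    intro N hN
    by_contra hcon
    push Not at hcon
    obtain ⟨hN1, hN2⟩ := hcon
    haveI := hN
    have hNs : Group.IsSolvable N := hsub N hN2 (N ⊓ A) (N ⊓ B) inf_le_left inf_le_left
      (isNilpotent_of_le inf_le_right hA) (isNilpotent_of_le inf_le_right hB)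
      (Nat.Coprime.coprime_dvd_left (Subgroup.card_dvd_of_le inf_le_right)
        (Nat.Coprime.coprime_dvd_right (Subgroup.card_dvd_of_le inf_le_right) hc))
      (normal_fac_of_coprime hN hc hf)
    let π : G →* G ⧸ N := QuotientGroup.mk' N
    have hlt : Nat.card (G ⧸ N) < n := by
      have h1 : Nat.card N * Nat.card (G ⧸ N) = Nat.card G := by
        rw [mul_comm]
        exact (Subgroup.card_eq_card_quotient_mul_card_subgroup N).symm
      have h2 : 0 < Nat.card (G ⧸ N) := Nat.card_pos
      have h3 : 1 < Nat.card N := by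
        have h4 : Nat.card N ≠ 1 := fun h => hN1 (Subgroup.card_eq_one.mp h)
        have h5 : 0 < Nat.card N := Nat.card_pos
        omega
      rw [← hn, ← h1]
      nlinarith
    have hQs : Group.IsSolvable (G ⧸ N) := by
      refine ih _ hlt (G ⧸ N) (A.map π) (B.map π) rfl (isNilpotent_map_of_isNilpotent π hA)
        (isNilpotent_map_of_isNilpotent π hB) ?_ ?_
      · exact Nat.Coprime.coprime_dvd_left (Subgroup.card_map_dvd A π)
          (Nat.Coprime.coprime_dvd_right (Subgroup.card_map_dvd B π) hc)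
      · intro q
        obtain ⟨g, rfl⟩ := QuotientGroup.mk'_surjective N q
        obtain ⟨a, ha, b, hb, rfl⟩ := hf g
        exact ⟨π a, ⟨a, ha, rfl⟩, π b, ⟨b, hb, rfl⟩, map_mul π a b⟩
    apply hns
    refine solvable_of_ker_le_range N.subtype π ?_
    intro x hx
    have h1 : x ∈ N := (QuotientGroup.eq_one_iff x).mp hx
    exact ⟨⟨x, h1⟩, rfl⟩
  -- the configuration
  have hK : KWC A B := {
    nilA := hA
    nilB := hB
    cop := hc
    fact := hf
    simple := hsimple
    ih := hsub
    twoA := exists_two_primes hA hB hc hf hsimple hns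
    twoB := exists_two_primes hB hA hc.symm (fun g => by
      obtain ⟨a, ha, b, hb, e⟩ := hf g⁻¹
      refine ⟨b⁻¹, B.inv_mem hb, a⁻¹, A.inv_mem ha, ?_⟩
      rw [← mul_inv_rev, ← e, inv_inv]) hsimple hns }
  exact hK.false_of

/-- **Wielandt's theorem**: a product of two nilpotent subgroups of coprime orders is solvable. -/
theorem isSolvable_of_coprime_product {G : Type u} [Group G] [Finite G] (A B : Subgroup G)
    (hA : Group.IsNilpotent A) (hB : Group.IsNilpotent B) (hc : (Nat.card A).Coprime (Nat.card B))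
    (hf : ∀ g : G, ∃ a ∈ A, ∃ b ∈ B, g = a * b) : Group.IsSolvable G :=
  wielandt_coprime_aux _ G A B rfl hA hB hc hf

end Cfsg.Agent.Lib.Basic
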