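import Cfsg.Agent.Lib.Basic.KW5

/-!
# The Kegel-Wielandt theorem: products of two nilpotent groups.
-/

set_option autoImplicit false

namespace Cfsg.Agent.Lib.Basic

open Subgroup Cfsg

open scoped Pointwise

universe u

variable {G : Type*} [Group G] [Finite G]

set_option linter.unusedSectionVars false

/-- An abelian minimal normal subgroup is a `p`-group. -/
theorem IsMinNormal.isPGroup_of_comm {N : Subgroup G} (hmin : IsMinNormal N) (hcomm : IsMulCommutative N) :
    ∃ p : ℕ, p.Prime ∧ IsPGroup p N := by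
  obtain ⟨hN, hne, hM⟩ := hmin
  have hnt : Nontrivial N := (Subgroup.nontrivial_iff_ne_bot N).mpr hne
  have hcard : Nat.card N ≠ 1 := Finite.one_lt_card_iff_nontrivial.mpr hnt |>.ne'
  obtain ⟨p, hp, hdvd⟩ := Nat.exists_prime_and_dvd hcard
  refine ⟨p, hp, ?_⟩
  have : Fact p.Prime := ⟨hp⟩
  obtain ⟨x, hx⟩ := exists_prime_orderOf_dvd_card' (G := N) p hdvd
  have hE : torsionSubgroupOf N p ≠ ⊥ := by
    intro hbot
    have hxmem : (x : G) ∈ torsionSubgroupOf N p := by
      refine ⟨x.2, ?_⟩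
      have := pow_orderOf_eq_one x
      rw [hx] at this
      exact congrArg Subtype.val this
    rw [hbot, Subgroup.mem_bot] at hxmem
    have h1 : x = 1 := Subtype.ext hxmem
    rw [h1, orderOf_one] at hx
    exact hp.one_lt.ne hx
  have hEn : (torsionSubgroupOf N p).Normal := torsionSubgroupOf_normal p
  rcases hM _ hEn (fun y hy => hy.1) with h | h
  · exact absurd h hE
  · intro y
    have hy : (y : G) ∈ torsionSubgroupOf N p := by
      rw [h]
      exact y.2
    exact ⟨1, Subtype.ext (by simpa using hy.2)⟩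

/-- A proper subgroup of a nilpotent group lies in a proper normal subgroup. -/
theorem exists_normal_ge_of_isNilpotent (hG : Group.IsNilpotent G) {B : Subgroup G} (hB : B ≠ ⊤) :
    ∃ N : Subgroup G, N.Normal ∧ N ≠ ⊤ ∧ B ≤ N := by
  obtain ⟨M, hM, hBM⟩ := (eq_top_or_exists_le_coatom B).resolve_left hB
  refine ⟨M, ?_, hM.1, hBM⟩
  exact Subgroup.normalizer_eq_top_iff.mp (hM.2 _ (lt_normalizer_of_isNilpotent hG hM.1))

/-- The configuration in a minimal counterexample to the Kegel-Wielandt theorem. -/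
structure KegC (A B : Subgroup G) : Prop where
  nilA : Group.IsNilpotent A
  nilB : Group.IsNilpotent B
  fact : ∀ g : G, ∃ a ∈ A, ∃ b ∈ B, g = a * b
  neA : A ≠ ⊤
  neB : B ≠ ⊤
  noA : ∀ N : Subgroup G, N.Normal → N ≠ ⊤ → ¬ A ≤ N
  noB : ∀ N : Subgroup G, N.Normal → N ≠ ⊤ → ¬ B ≤ N
  supA : ∀ N : Subgroup G, N.Normal → N ≠ ⊥ → A ⊔ N = ⊤
  supB : ∀ N : Subgroup G, N.Normal → N ≠ ⊥ → B ⊔ N = ⊤

namespace KegC

variable {A B : Subgroup G}

theorem symm (h : KegC A B) : KegC B A where
  nilA := h.nilB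
  nilB := h.nilA
  fact := fun g => by
    obtain ⟨a, ha, b, hb, e⟩ := h.fact g⁻¹
    refine ⟨b⁻¹, B.inv_mem hb, a⁻¹, A.inv_mem ha, ?_⟩
    rw [← mul_inv_rev, ← e, inv_inv]
  neA := h.neB
  neB := h.neA
  noA := h.noB
  noB := h.noA
  supA := h.supB
  supB := h.supA

theorem not_nilpotent (h : KegC A B) : ¬ Group.IsNilpotent G := by
  intro hG
  obtain ⟨N, hN, hNt, hAN⟩ := exists_normal_ge_of_isNilpotent hG h.neA
  exact h.noA N hN hNt hAN

theorem not_le (h : KegC A B) {N : Subgroup G} (hN : N.Normal) (hb : N ≠ ⊥) (hNA : N ≤ A) : False := by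
  have := h.supA N hN hb
  rw [sup_eq_left.mpr hNA] at this
  exact h.neA this

theorem nil_quot (h : KegC A B) {N : Subgroup G} [hN : N.Normal] (hb : N ≠ ⊥) :
    Group.IsNilpotent (G ⧸ N) := by
  haveI := h.nilA
  refine Group.nilpotent_of_surjective ((QuotientGroup.mk' N).comp A.subtype) ?_
  intro q
  obtain ⟨g, rfl⟩ := QuotientGroup.mk'_surjective N q
  have hg : g ∈ A ⊔ N := by
    rw [h.supA N hN hb]
    trivial
  obtain ⟨a, ha, n, hn, rfl⟩ := Subgroup.mem_sup_of_normal_right.mp hg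
  refine ⟨⟨a, ha⟩, ?_⟩
  simp only [MonoidHom.comp_apply, Subgroup.subtype_apply, map_mul]
  have : QuotientGroup.mk' N n = 1 := (QuotientGroup.eq_one_iff n).mpr hn
  rw [this, mul_one]

theorem inter_ne_bot (h : KegC A B) {N₁ N₂ : Subgroup G} (h₁ : N₁.Normal) (h₂ : N₂.Normal) (hb₁ : N₁ ≠ ⊥)
    (hb₂ : N₂ ≠ ⊥) : N₁ ⊓ N₂ ≠ ⊥ := by
  intro hbot
  apply h.not_nilpotent
  haveI := h₁
  haveI := h₂
  haveI hn₁ := h.nil_quot hb₁
  haveI hn₂ := h.nil_quot hb₂
  let f : G →* (G ⧸ N₁) × (G ⧸ N₂) := (QuotientGroup.mk' N₁).prod (QuotientGroup.mk' N₂)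
  have hf : Function.Injective f := by
    rw [injective_iff_map_eq_one]
    intro g hg
    have hg1 : QuotientGroup.mk' N₁ g = 1 := congrArg Prod.fst hg
    have hg2 : QuotientGroup.mk' N₂ g = 1 := congrArg Prod.snd hg
    have hg3 : g ∈ N₁ ⊓ N₂ :=
      ⟨(QuotientGroup.eq_one_iff g).mp hg1, (QuotientGroup.eq_one_iff g).mp hg2⟩
    rw [hbot] at hg3
    exact hg3
  exact isNilpotent_of_injective' f hf inferInstance

theorem min_le (h : KegC A B) {N K : Subgroup G} (hmin : IsMinNormal N) (hK : K.Normal) (hb : K ≠ ⊥) :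
    N ≤ K := by
  have h1 := h.inter_ne_bot hK hmin.1 hb hmin.2.1
  haveI := hK
  haveI := hmin.1
  rcases hmin.2.2 (K ⊓ N) inferInstance inf_le_right with h2 | h2
  · exact absurd h2 h1
  · rw [← h2]
    exact inf_le_left

/-- Minimal normal subgroups are not abelian. -/
theorem not_comm (h : KegC A B) {N : Subgroup G} (hmin : IsMinNormal N) (hcomm : IsMulCommutative N) :
    False := by
  obtain ⟨s, hs, hNs⟩ := hmin.isPGroup_of_comm hcomm
  haveI hsf : Fact s.Prime := ⟨hs⟩
  haveI hNn : N.Normal := hmin.1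
  have hNb : N ≠ ⊥ := hmin.2.1
  have hcN : ∀ x ∈ N, ∀ y ∈ N, x * y = y * x := fun x hx y hy => by
    have := hcomm.is_comm.comm ⟨x, hx⟩ ⟨y, hy⟩
    exact congrArg Subtype.val this
  have hNle : ∀ L : Subgroup G, L ≤ N → N ≤ normalizer (L : Set G) := fun L hL x hx =>
    Subgroup.centralizer_le_normalizer _ (Subgroup.mem_centralizer_iff.mpr fun y hy => hcN y (hL hy) x hx)
  -- `N ⊓ A` is normal, hence trivial
  have hinf : ∀ {X Y : Subgroup G}, KegC X Y → N ⊓ X = ⊥ := by
    intro X Y hXY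
    by_contra hne
    have hnorm : (N ⊓ X).Normal := by
      apply Subgroup.normalizer_eq_top_iff.mp
      rw [eq_top_iff, ← hXY.supA N hNn hNb]
      refine sup_le ?_ (hNle _ inf_le_left)
      intro a ha
      exact mem_normalizer_inf' ((Subgroup.normalizer_eq_top_iff.mpr hNn) ▸ Subgroup.mem_top a)
        (Subgroup.le_normalizer ha)
    exact hXY.not_le hnorm hne inf_le_right
  have hNA : N ⊓ A = ⊥ := hinf h
  have hNB : N ⊓ B = ⊥ := hinf h.symm
  have hfacN : ∀ {X : Subgroup G}, X ⊔ N = ⊤ → ∀ g : G, ∃ a ∈ X, ∃ n ∈ N, g = a * n := by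
    intro X hX g
    have hg : g ∈ X ⊔ N := by rw [hX]; trivial
    obtain ⟨a, ha, n, hn, rfl⟩ := Subgroup.mem_sup_of_normal_right.mp hg
    exact ⟨a, ha, n, hn, rfl⟩
  have hcA := card_mul_card_inf_of_factorization (hfacN (h.supA N hNn hNb))
  have hcB := card_mul_card_inf_of_factorization (hfacN (h.supB N hNn hNb))
  rw [inf_comm, hNA, Subgroup.card_bot, mul_one] at hcA
  rw [inf_comm, hNB, Subgroup.card_bot, mul_one] at hcB
  have hAB : Nat.card A = Nat.card B := by
    have : Nat.card A * Nat.card N = Nat.card B * Nat.card N := by rw [← hcA, ← hcB]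
    exact Nat.eq_of_mul_eq_mul_right Nat.card_pos this
  have hfac := card_mul_card_inf_of_factorization h.fact
  have hNdvd : Nat.card N ∣ Nat.card A := by
    rw [hcA, ← hAB] at hfac
    have h1 : Nat.card A * (Nat.card N * Nat.card (A ⊓ B : Subgroup G)) = Nat.card A * Nat.card A := by
      rw [← mul_assoc]
      exact hfac
    have h2 := Nat.eq_of_mul_eq_mul_left Nat.card_pos h1
    exact Dvd.intro _ h2
  have hsA : s ∣ Nat.card A := by
    refine Dvd.dvd.trans ?_ hNdvd
    obtain ⟨k, hk⟩ := IsPGroup.iff_card.mp hNs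
    rcases k with _ | k
    · rw [pow_zero] at hk
      exact absurd (Subgroup.card_eq_one.mp hk) hNb
    · rw [hk]
      exact Dvd.intro_left _ (pow_succ s k).symm
  obtain ⟨P, K, hsplit⟩ := exists_kwSplit h.nilA s
  have hPb : P ≠ ⊥ := hsplit.left_ne_bot hsA
  -- `N ⊓ C(P) ≠ 1`
  have hXp : IsPGroup s (P ⊔ N : Subgroup G) := hsplit.isP.to_sup_of_normal_right hNs
  haveI hXn : Group.IsNilpotent (P ⊔ N : Subgroup G) := hXp.isNilpotent
  have hNX : N ≤ P ⊔ N := le_sup_right
  have hcenter : (N.subgroupOf (P ⊔ N)) ⊓ center (P ⊔ N : Subgroup G) ≠ ⊥ := by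
    refine normal_inf_center_ne_bot _ ?_
    intro hbot
    apply hNb
    rw [eq_bot_iff]
    intro x hx
    have h1 : (⟨x, hNX hx⟩ : (P ⊔ N : Subgroup G)) ∈ N.subgroupOf (P ⊔ N) := Subgroup.mem_subgroupOf.mpr hx
    rw [hbot, Subgroup.mem_bot] at h1
    exact Subgroup.mem_bot.mpr (congrArg Subtype.val h1)
  rw [Subgroup.ne_bot_iff_exists_ne_one] at hcenter
  obtain ⟨⟨z, hz1, hz2⟩, hzne⟩ := hcenter
  have hzG : (z : G) ≠ 1 := fun h1 => hzne (Subtype.ext (Subtype.ext h1))
  set L : Subgroup G := N ⊓ centralizer (P : Set G) with hL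
  have hzL : (z : G) ∈ L := by
    refine ⟨Subgroup.mem_subgroupOf.mp hz1, Subgroup.mem_centralizer_iff.mpr ?_⟩
    intro y hy
    have := (Subgroup.mem_center_iff.mp hz2) ⟨y, Subgroup.mem_sup_left hy⟩
    exact congrArg Subtype.val this
  have hLb : L ≠ ⊥ := by
    intro h1
    rw [h1, Subgroup.mem_bot] at hzL
    exact hzG hzL
  have hLn : L.Normal := by
    apply Subgroup.normalizer_eq_top_iff.mp
    rw [eq_top_iff, ← h.supA N hNn hNb]
    refine sup_le ?_ (hNle _ inf_le_left)
    intro a ha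
    exact mem_normalizer_inf' ((Subgroup.normalizer_eq_top_iff.mpr hNn) ▸ Subgroup.mem_top a)
      (mem_normalizer_centralizer (hsplit.le_normalizer_left ha))
  have hNC : N ≤ centralizer (P : Set G) := by
    rcases hmin.2.2 L hLn inf_le_left with h1 | h1
    · exact absurd h1 hLb
    · rw [← h1]
      exact inf_le_right
  have hPn : P.Normal := by
    apply Subgroup.normalizer_eq_top_iff.mp
    rw [eq_top_iff, ← h.supA N hNn hNb]
    exact sup_le hsplit.le_normalizer_left (hNC.trans (Subgroup.centralizer_le_normalizer _))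
  exact h.not_le hPn hPb hsplit.le₁

/-- Minimal normal subgroups are not `p`-groups. -/
theorem not_pGroup (h : KegC A B) {N : Subgroup G} (hmin : IsMinNormal N) {p : ℕ} [hp : Fact p.Prime]
    (hN : IsPGroup p N) : False := by
  haveI hNn : N.Normal := hmin.1
  haveI : Nontrivial N := (Subgroup.nontrivial_iff_ne_bot N).mpr hmin.2.1
  haveI := hN.center_nontrivial
  obtain ⟨z, hz⟩ := exists_ne (1 : Subgroup.center N)
  set Z : Subgroup G := N ⊓ centralizer (N : Set G) with hZ
  have hZn : Z.Normal := inferInstance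
  have hzZ : ((z : N) : G) ∈ Z := by
    refine ⟨(z : N).2, Subgroup.mem_centralizer_iff.mpr ?_⟩
    intro y hy
    have := (Subgroup.mem_center_iff.mp z.2) ⟨y, hy⟩
    exact congrArg Subtype.val this
  have hZb : Z ≠ ⊥ := by
    intro h1
    rw [h1, Subgroup.mem_bot] at hzZ
    exact hz (Subtype.ext (Subtype.ext hzZ))
  rcases hmin.2.2 Z hZn inf_le_left with h1 | h1
  · exact hZb h1
  · refine h.not_comm hmin ⟨⟨fun x y => Subtype.ext ?_⟩⟩
    have h2 : (y : G) ∈ Z := by
      rw [h1]
      exact y.2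
    exact Subgroup.mem_centralizer_iff.mp h2.2 x x.2

/-- Core-type argument: a subgroup `K` normal in `E = P N` containing `P` equals `E`. -/
theorem eq_of_normal_of_ge (h : KegC A B) {N P E K : Subgroup G} (hmin : IsMinNormal N) (hPA : P ≤ A)
    (hAP : A ≤ normalizer (P : Set G)) (hPb : P ≠ ⊥) (hE : E = P ⊔ N) (hEn : E.Normal) (hKE : K ≤ E)
    (hEK : E ≤ normalizer (K : Set G)) (hPK : P ≤ K) : K = E := by
  set K₀ : Subgroup G := ⨅ a : A, MulAut.conj (a : G) • K with hK₀
  have hmem : ∀ {x : G}, x ∈ K₀ ↔ ∀ a : A, (a : G)⁻¹ * x * a ∈ K := by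
    intro x
    rw [hK₀, Subgroup.mem_iInf]
    exact forall_congr' fun a => mem_conj_smul
  have hAK₀ : A ≤ normalizer (K₀ : Set G) := by
    intro a ha
    apply mem_normalizer_of_forall_conj_mem
    intro x hx
    rw [hmem] at hx ⊢
    intro b
    have h1 := hx ⟨a⁻¹ * b, A.mul_mem (A.inv_mem ha) b.2⟩
    have h2 : (⟨a⁻¹ * b, A.mul_mem (A.inv_mem ha) b.2⟩ : A).1⁻¹ * x * (⟨a⁻¹ * b, A.mul_mem (A.inv_mem ha) b.2⟩ : A).1 =
        (b : G)⁻¹ * (a * x * a⁻¹) * b := by
      simp only
      group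
    rwa [h2] at h1
  have hEK₀ : E ≤ normalizer (K₀ : Set G) := by
    intro e he
    apply mem_normalizer_of_forall_conj_mem
    intro x hx
    rw [hmem] at hx ⊢
    intro b
    have h1 := hx b
    have h2 : (b : G)⁻¹ * e * b ∈ E := by
      have := hEn.conj_mem e he (b : G)⁻¹
      simpa using this
    have h3 := hEK h2
    rw [Subgroup.mem_normalizer_iff] at h3
    have h4 := (h3 _).mp h1
    have h5 : (b : G)⁻¹ * e * b * ((b : G)⁻¹ * x * b) * ((b : G)⁻¹ * e * b)⁻¹ =
        (b : G)⁻¹ * (e * x * e⁻¹) * b := by group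
    rwa [h5] at h4
  have hNE : N ≤ E := hE ▸ le_sup_right
  haveI hNn : N.Normal := hmin.1
  have hK₀n : K₀.Normal := by
    apply Subgroup.normalizer_eq_top_iff.mp
    rw [eq_top_iff, ← h.supA N hNn hmin.2.1]
    exact sup_le hAK₀ (hNE.trans hEK₀)
  have hPK₀ : P ≤ K₀ := by
    intro x hx
    rw [hmem]
    intro a
    apply hPK
    have h1 := hAP (A.inv_mem a.2)
    rw [Subgroup.mem_normalizer_iff] at h1
    have h2 := (h1 x).mp hx
    simpa using h2
  have hK₀b : K₀ ≠ ⊥ := by
    intro h1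
    exact hPb (le_bot_iff.mp (h1 ▸ hPK₀))
  have hNK₀ : N ≤ K₀ := h.min_le hmin hK₀n hK₀b
  have hK₀K : K₀ ≤ K := by
    intro x hx
    rw [hmem] at hx
    have := hx 1
    simpa using this
  refine le_antisymm hKE ?_
  rw [hE]
  exact sup_le hPK (hNK₀.trans hK₀K)

/-- Images of Sylow subgroups of a factor in `G / N`. -/
theorem image_sylow (h : KegC A B) {N : Subgroup G} [hN : N.Normal] (hb : N ≠ ⊥) {p : ℕ} [hp : Fact p.Prime]
    (S : Sylow p A) :
    (((S : Subgroup A).map A.subtype).map (QuotientGroup.mk' N)).Normal ∧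
      ¬ p ∣ (((S : Subgroup A).map A.subtype).map (QuotientGroup.mk' N)).index ∧
      IsPGroup p (((S : Subgroup A).map A.subtype).map (QuotientGroup.mk' N) : Subgroup (G ⧸ N)) := by
  haveI := h.nilA
  have hsurj : Function.Surjective ((QuotientGroup.mk' N).comp A.subtype) := by
    intro q
    obtain ⟨g, rfl⟩ := QuotientGroup.mk'_surjective N q
    have hg : g ∈ A ⊔ N := by
      rw [h.supA N hN hb]
      trivial
    obtain ⟨a, ha, n, hn, rfl⟩ := Subgroup.mem_sup_of_normal_right.mp hg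
    refine ⟨⟨a, ha⟩, ?_⟩
    simp only [MonoidHom.comp_apply, Subgroup.subtype_apply, map_mul]
    have : QuotientGroup.mk' N n = 1 := (QuotientGroup.eq_one_iff n).mpr hn
    rw [this, mul_one]
  rw [Subgroup.map_map]
  haveI hSn : (S : Subgroup A).Normal := inferInstance
  refine ⟨hSn.map _ hsurj, ?_, S.isPGroup'.map _⟩
  intro h1
  exact S.not_dvd_index (h1.trans ((S : Subgroup A).index_map_dvd hsurj))

/-- **The factors have coprime orders.** -/
theorem coprime (h : KegC A B) : (Nat.card A).Coprime (Nat.card B) := by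
  by_contra hnc
  obtain ⟨p, hp, hpA, hpB⟩ := Nat.Prime.not_coprime_iff_dvd.mp hnc
  haveI : Fact p.Prime := ⟨hp⟩
  obtain ⟨P', Q', R, hR⟩ := factorization_sylow_product A B h.fact p
  haveI := h.nilA
  haveI := h.nilB
  haveI hnt : Nontrivial G := by
    by_contra h1
    rw [not_nontrivial_iff_subsingleton] at h1
    exact h.neA (Subsingleton.elim _ _)
  obtain ⟨N, hmin⟩ := exists_isMinNormal (G := G)
  haveI hNn : N.Normal := hmin.1
  have hNb : N ≠ ⊥ := hmin.2.1
  set P : Subgroup G := (P' : Subgroup A).map A.subtype with hP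
  set Q : Subgroup G := (Q' : Subgroup B).map B.subtype with hQ
  have hPA : P ≤ A := Subgroup.map_subtype_le _
  have hQB : Q ≤ B := Subgroup.map_subtype_le _
  have hPp : IsPGroup p P := P'.isPGroup'.map _
  have hQp : IsPGroup p Q := Q'.isPGroup'.map _
  haveI hP'n : (P' : Subgroup A).Normal := inferInstance
  haveI hQ'n : (Q' : Subgroup B).Normal := inferInstance
  have hAP : A ≤ normalizer (P : Set G) := by
    intro a ha
    apply mem_normalizer_of_forall_conj_mem
    rintro _ ⟨x, hx, rfl⟩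
    refine ⟨⟨a, ha⟩ * x * ⟨a, ha⟩⁻¹, hP'n.conj_mem x hx _, ?_⟩
    simp
  have hBQ : B ≤ normalizer (Q : Set G) := by
    intro a ha
    apply mem_normalizer_of_forall_conj_mem
    rintro _ ⟨x, hx, rfl⟩
    refine ⟨⟨a, ha⟩ * x * ⟨a, ha⟩⁻¹, hQ'n.conj_mem x hx _, ?_⟩
    simp
  have hPb : P ≠ ⊥ := by
    intro h1
    exact P'.ne_bot_of_dvd_card hpA ((Subgroup.map_eq_bot_iff_of_injective _ A.subtype_injective).mp h1)
  have hQb : Q ≠ ⊥ := by
    intro h1
    exact Q'.ne_bot_of_dvd_card hpB ((Subgroup.map_eq_bot_iff_of_injective _ B.subtype_injective).mp h1)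
  -- the subgroup `E`
  obtain ⟨hPn, hPi, hPq⟩ := h.image_sylow hNb P'
  obtain ⟨hQn, hQi, hQq⟩ := h.symm.image_sylow hNb Q'
  have heq : P.map (QuotientGroup.mk' N) = Q.map (QuotientGroup.mk' N) :=
    le_antisymm (normal_pGroup_le_sylow hPn hPq (hQq.toSylow hQi))
      (normal_pGroup_le_sylow hQn hQq (hPq.toSylow hPi))
  have hcomap : ∀ X : Subgroup G, (X.map (QuotientGroup.mk' N)).comap (QuotientGroup.mk' N) = X ⊔ N := by
    intro X
    rw [Subgroup.comap_map_eq, QuotientGroup.ker_mk']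
  set E : Subgroup G := P ⊔ N with hE
  have hEQ : E = Q ⊔ N := by
    rw [hE, ← hcomap P, ← hcomap Q, heq]
  have hEn : E.Normal := by
    rw [hE, ← hcomap P]
    exact hPn.comap _
  have hPE : P ≤ E := le_sup_left
  have hQE : Q ≤ E := hEQ ▸ le_sup_left
  have hNE : N ≤ E := le_sup_right
  have hRE : (R : Subgroup G) ≤ E := by
    intro r hr
    have h1 : r ∈ ((R : Subgroup G) : Set G) := hr
    rw [hR] at h1
    obtain ⟨u, hu, v, hv, rfl⟩ := h1
    exact E.mul_mem (hPE hu) (hQE hv)
  obtain ⟨K', hK'n, hK't, hK'⟩ := kegel_lemma (P.subgroupOf E) (Q.subgroupOf E) (fun x => by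
    obtain ⟨a, ha, b, hb, e⟩ := h.fact x
    set T : Subgroup G := MulAut.conj a • (R : Subgroup G) with hT
    have hTE : T ≤ E := by
      have h0 : MulAut.conj a • E = E :=
        conj_smul_le_of_normalizer ((Subgroup.normalizer_eq_top_iff.mpr hEn) ▸ Subgroup.mem_top a)
      have h1 : T ≤ MulAut.conj a • E := Subgroup.pointwise_smul_le_pointwise_smul_iff.mpr hRE
      rwa [h0] at h1
    have hTp : IsPGroup p T :=
      R.isPGroup'.of_surjective (conjSmulEquiv a (R : Subgroup G)).toMonoidHom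
        (conjSmulEquiv a (R : Subgroup G)).surjective
    refine ⟨T.subgroupOf E, ?_, ?_⟩
    · intro h1
      have hEle : E ≤ T := Subgroup.subgroupOf_eq_top.mp h1
      exact h.not_pGroup hmin (hTp.to_le (hNE.trans hEle))
    · ext y
      have hyE := y.2
      have hab : (x : G) = a * b := e
      have haP : ∀ {u : G}, u ∈ P → a * u * a⁻¹ ∈ P := by
        intro u hu
        have h1 := hAP ha
        rw [Subgroup.mem_normalizer_iff] at h1
        exact (h1 u).mp hu
      have haP' : ∀ {u : G}, u ∈ P → a⁻¹ * u * a ∈ P := by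
        intro u hu
        have h1 := hAP (A.inv_mem ha)
        rw [Subgroup.mem_normalizer_iff] at h1
        have h2 := (h1 u).mp hu
        simpa using h2
      have hbQ : ∀ {u : G}, u ∈ Q → b * u * b⁻¹ ∈ Q := by
        intro u hu
        have h1 := hBQ hb
        rw [Subgroup.mem_normalizer_iff] at h1
        exact (h1 u).mp hu
      have hbQ' : ∀ {u : G}, u ∈ Q → b⁻¹ * u * b ∈ Q := by
        intro u hu
        have h1 := hBQ (B.inv_mem hb)
        rw [Subgroup.mem_normalizer_iff] at h1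
        have h2 := (h1 u).mp hu
        simpa using h2
      constructor
      · intro hy
        have h1 : (y : G) ∈ T := Subgroup.mem_subgroupOf.mp hy
        rw [hT, mem_conj_smul] at h1
        have h2 : a⁻¹ * (y : G) * a ∈ ((R : Subgroup G) : Set G) := h1
        rw [hR] at h2
        obtain ⟨u, hu, v, hv, huv⟩ := h2
        have hu₁E : a * u * a⁻¹ ∈ E := hPE (haP hu)
        have hv₁E : a * v * a⁻¹ ∈ E := by
          have h3 := hEn.conj_mem v (hQE hv) a
          exact h3
        refine ⟨⟨a * u * a⁻¹, hu₁E⟩, Subgroup.mem_subgroupOf.mpr (haP hu), ⟨a * v * a⁻¹, hv₁E⟩, ?_, ?_⟩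
        · change _ ∈ MulAut.conj x • Q.subgroupOf E
          rw [mem_conj_smul]
          refine Subgroup.mem_subgroupOf.mpr ?_
          simp only [Subgroup.coe_mul, InvMemClass.coe_inv, hab]
          have h3 : (a * b)⁻¹ * (a * v * a⁻¹) * (a * b) = b⁻¹ * v * b := by group
          rw [h3]
          exact hbQ' hv
        · apply Subtype.ext
          simp only [Subgroup.coe_mul]
          have h3 : (y : G) = a * (u * v) * a⁻¹ := by
            have h4 : u * v = a⁻¹ * (y : G) * a := huv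
            rw [h4]
            group
          rw [h3]
          group
      · rintro ⟨u, hu, w, hw, rfl⟩
        refine Subgroup.mem_subgroupOf.mpr ?_
        rw [hT, mem_conj_smul]
        have hu' : (u : G) ∈ P := Subgroup.mem_subgroupOf.mp hu
        have hw' : x⁻¹ * w * x ∈ Q.subgroupOf E := by
          have h3 : w ∈ MulAut.conj x • Q.subgroupOf E := hw
          rw [mem_conj_smul] at h3
          exact h3
        have hw2 : (x : G)⁻¹ * w * x ∈ Q := by
          have h3 := Subgroup.mem_subgroupOf.mp hw'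
          simpa using h3
        rw [hab] at hw2
        have h4 : a⁻¹ * (w : G) * a ∈ Q := by
          have h5 := hbQ hw2
          have h6 : b * ((a * b)⁻¹ * (w : G) * (a * b)) * b⁻¹ = a⁻¹ * w * a := by group
          rwa [h6] at h5
        have h7 : a⁻¹ * ((u * w : E) : G) * a ∈ ((R : Subgroup G) : Set G) := by
          rw [hR]
          refine ⟨a⁻¹ * u * a, haP' hu', a⁻¹ * w * a, h4, ?_⟩
          simp only [Subgroup.coe_mul]
          group
        exact h7)
  have hKE : K'.map E.subtype ≤ E := Subgroup.map_subtype_le _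
  have hEK : E ≤ normalizer ((K'.map E.subtype : Subgroup G) : Set G) := by
    intro g hg
    apply mem_normalizer_of_forall_conj_mem
    rintro _ ⟨x, hx, rfl⟩
    refine ⟨⟨g, hg⟩ * x * ⟨g, hg⟩⁻¹, hK'n.conj_mem x hx _, ?_⟩
    simp
  have hfin : K'.map E.subtype = E → False := by
    intro h1
    apply hK't
    rw [eq_top_iff]
    intro y _
    have h2 : (y : G) ∈ K'.map E.subtype := by
      rw [h1]
      exact y.2
    obtain ⟨z, hz, hzy⟩ := h2
    have : z = y := Subtype.ext hzy
    exact this ▸ hz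
  rcases hK' with hK' | hK'
  · refine hfin (h.eq_of_normal_of_ge hmin hPA hAP hPb hE hEn hKE hEK ?_)
    intro u hu
    exact ⟨⟨u, hPE hu⟩, hK' (Subgroup.mem_subgroupOf.mpr hu), rfl⟩
  · refine hfin (h.symm.eq_of_normal_of_ge hmin hQB hBQ hQb hEQ hEn hKE hEK ?_)
    intro u hu
    exact ⟨⟨u, hQE hu⟩, hK' (Subgroup.mem_subgroupOf.mpr hu), rfl⟩

theorem false_of (h : KegC A B) : False := by
  haveI hs := isSolvable_of_coprime_product A B h.nilA h.nilB h.coprime h.fact
  haveI hnt : Nontrivial G := by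
    by_contra h1
    rw [not_nontrivial_iff_subsingleton] at h1
    exact h.neA (Subsingleton.elim _ _)
  obtain ⟨N, hmin⟩ := exists_isMinNormal (G := G)
  exact h.not_comm hmin hmin.isPGroup.1

end KegC

/-- **Kegel-Wielandt**, the normal subgroup statement. -/
theorem kegel_product_aux (n : ℕ) : ∀ (G : Type u) [Group G] [Finite G] (A B : Subgroup G),
    Nat.card G = n → Group.IsNilpotent A → Group.IsNilpotent B →
    (∀ g : G, ∃ a ∈ A, ∃ b ∈ B, g = a * b) → (A ≠ ⊤ ∨ B ≠ ⊤) →
    ∃ N : Subgroup G, N.Normal ∧ N ≠ ⊤ ∧ (A ≤ N ∨ B ≤ N) := by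
  induction n using Nat.strong_induction_on with
  | _ n ih =>
  intro G _ _ A B hn hA hB hf hproper
  by_contra hno
  push Not at hno
  have hnilTop : ∀ {X : Subgroup G}, Group.IsNilpotent X → X = ⊤ → Group.IsNilpotent G := by
    intro X hX h1
    subst h1
    haveI := hX
    exact Group.nilpotent_of_mulEquiv (Subgroup.topEquiv (G := G))
  have hneA : A ≠ ⊤ := by
    intro h1
    have hBt : B ≠ ⊤ := by
      rcases hproper with h2 | h2
      · exact absurd h1 h2
      · exact h2
    obtain ⟨N, hN, hNt, hBN⟩ := exists_normal_ge_of_isNilpotent (hnilTop hA h1) hBt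
    exact (hno N hN hNt).2 hBN
  have hneB : B ≠ ⊤ := by
    intro h1
    obtain ⟨N, hN, hNt, hAN⟩ := exists_normal_ge_of_isNilpotent (hnilTop hB h1) hneA
    exact (hno N hN hNt).1 hAN
  have hsup : ∀ N : Subgroup G, N.Normal → N ≠ ⊥ → A ⊔ N = ⊤ ∧ B ⊔ N = ⊤ := by
    intro N hN hb
    haveI := hN
    by_contra hcon
    let π : G →* G ⧸ N := QuotientGroup.mk' N
    have hsurj : Function.Surjective π := QuotientGroup.mk'_surjective N
    have hlt : Nat.card (G ⧸ N) < n := by
      have h1 : Nat.card N * Nat.card (G ⧸ N) = Nat.card G := by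
        rw [mul_comm]
        exact (Subgroup.card_eq_card_quotient_mul_card_subgroup N).symm
      have h2 : 0 < Nat.card (G ⧸ N) := Nat.card_pos
      have h3 : 1 < Nat.card N := by
        have h4 : Nat.card N ≠ 1 := fun h => hb (Subgroup.card_eq_one.mp h)
        have h5 : 0 < Nat.card N := Nat.card_pos
        omega
      rw [← hn, ← h1]
      nlinarith
    have hcomap : ∀ X : Subgroup G, (X.map π).comap π = X ⊔ N := by
      intro X
      rw [Subgroup.comap_map_eq, QuotientGroup.ker_mk']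
    have hne : A.map π ≠ ⊤ ∨ B.map π ≠ ⊤ := by
      by_contra h1
      push Not at h1
      apply hcon
      constructor
      · rw [← hcomap, h1.1, Subgroup.comap_top]
      · rw [← hcomap, h1.2, Subgroup.comap_top]
    obtain ⟨Nb, hNb, hNbt, hNbA⟩ := ih _ hlt (G ⧸ N) (A.map π) (B.map π) rfl
      (isNilpotent_map_of_isNilpotent π hA) (isNilpotent_map_of_isNilpotent π hB) (fun q => by
        obtain ⟨g, rfl⟩ := hsurj q
        obtain ⟨a, ha, b, hb, rfl⟩ := hf g
        exact ⟨π a, ⟨a, ha, rfl⟩, π b, ⟨b, hb, rfl⟩, map_mul π a b⟩) hne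
    have hcn : (Nb.comap π).Normal := hNb.comap π
    have hct : Nb.comap π ≠ ⊤ := by
      intro h1
      apply hNbt
      rw [← Subgroup.map_comap_eq_self_of_surjective hsurj Nb, h1, ← MonoidHom.range_eq_map,
        MonoidHom.range_eq_top.mpr hsurj]
    rcases hNbA with h1 | h1
    · exact (hno _ hcn hct).1 (Subgroup.map_le_iff_le_comap.mp h1)
    · exact (hno _ hcn hct).2 (Subgroup.map_le_iff_le_comap.mp h1)
  have hK : KegC A B := {
    nilA := hA
    nilB := hB
    fact := hf
    neA := hneA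
    neB := hneB
    noA := fun N hN hNt => (hno N hN hNt).1
    noB := fun N hN hNt => (hno N hN hNt).2
    supA := fun N hN hb => (hsup N hN hb).1
    supB := fun N hN hb => (hsup N hN hb).2 }
  exact hK.false_of

/-- **Kegel-Wielandt**, normal subgroups. -/
theorem exists_normal_of_nilpotent_product {G : Type u} [Group G] [Finite G] (A B : Subgroup G)
    (hA : Group.IsNilpotent A) (hB : Group.IsNilpotent B) (hf : ∀ g : G, ∃ a ∈ A, ∃ b ∈ B, g = a * b)
    (hproper : A ≠ ⊤ ∨ B ≠ ⊤) : ∃ N : Subgroup G, N.Normal ∧ N ≠ ⊤ ∧ (A ≤ N ∨ B ≤ N) :=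
  kegel_product_aux _ G A B rfl hA hB hf hproper

/-- **Kegel-Wielandt**, the induction for solvability. -/
theorem isSolvable_of_nilpotent_product_aux (n : ℕ) : ∀ (G : Type u) [Group G] [Finite G] (A B : Subgroup G),
    Nat.card G = n → Group.IsNilpotent A → Group.IsNilpotent B →
    (∀ g : G, ∃ a ∈ A, ∃ b ∈ B, g = a * b) → Group.IsSolvable G := by
  induction n using Nat.strong_induction_on with
  | _ n ih =>
  intro G _ _ A B hn hA hB hf
  have hnilTop : ∀ {X : Subgroup G}, Group.IsNilpotent X → X = ⊤ → Group.IsSolvable G := by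
    intro X hX h1
    subst h1
    haveI := hX
    haveI : Group.IsNilpotent G := Group.nilpotent_of_mulEquiv (Subgroup.topEquiv (G := G))
    infer_instance
  by_cases hAt : A = ⊤
  · exact hnilTop hA hAt
  -- the main step for `A ≤ N`
  have key : ∀ (A B N : Subgroup G), Group.IsNilpotent A → Group.IsNilpotent B →
      (∀ g : G, ∃ a ∈ A, ∃ b ∈ B, g = a * b) → N.Normal → N ≠ ⊤ → A ≤ N → Group.IsSolvable G := by
    intro A B N hA hB hf hN hNt hAN
    haveI := hN
    have hlt : Nat.card N < n := by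
      rw [← hn]
      have h1 := card_lt_of_lt (lt_top_iff_ne_top.mpr hNt)
      rwa [Subgroup.card_top] at h1
    have hNs : Group.IsSolvable N := by
      refine ih _ hlt N (A.subgroupOf N) (B.subgroupOf N) rfl (isNilpotent_subgroupOf_of_le hAN hA) ?_ ?_
      · let f : (B.subgroupOf N) →* B :=
          { toFun := fun x => ⟨((x : N) : G), Subgroup.mem_subgroupOf.mp x.2⟩
            map_one' := rfl
            map_mul' := fun _ _ => rfl }
        refine isNilpotent_of_injective' f ?_ hB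
        intro x y hxy
        have h5 : ((f x : B) : G) = ((f y : B) : G) := by rw [hxy]
        exact Subtype.ext (Subtype.ext h5)
      · intro g
        obtain ⟨a, ha, b, hb, e⟩ := hf g
        refine ⟨⟨a, hAN ha⟩, ha, ⟨b, ?_⟩, hb, Subtype.ext e⟩
        have h4 : b = a⁻¹ * g := by rw [e]; group
        rw [h4]
        exact N.mul_mem (N.inv_mem (hAN ha)) g.2
    have hQn : Group.IsNilpotent (G ⧸ N) := by
      haveI := hB
      refine Group.nilpotent_of_surjective ((QuotientGroup.mk' N).comp B.subtype) ?_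
      intro q
      obtain ⟨g, rfl⟩ := QuotientGroup.mk'_surjective N q
      obtain ⟨a, ha, b, hb, rfl⟩ := hf g
      refine ⟨⟨b, hb⟩, ?_⟩
      simp only [MonoidHom.comp_apply, Subgroup.subtype_apply, map_mul]
      have : QuotientGroup.mk' N a = 1 := (QuotientGroup.eq_one_iff a).mpr (hAN ha)
      rw [this, one_mul]
    haveI := hQn
    refine solvable_of_ker_le_range N.subtype (QuotientGroup.mk' N) ?_
    intro x hx
    have h1 : x ∈ N := (QuotientGroup.eq_one_iff x).mp hx
    exact ⟨⟨x, h1⟩, rfl⟩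
  obtain ⟨N, hN, hNt, hle⟩ := exists_normal_of_nilpotent_product A B hA hB hf (Or.inl hAt)
  rcases hle with hle | hle
  · exact key A B N hA hB hf hN hNt hle
  · refine key B A N hB hA (fun g => ?_) hN hNt hle
    obtain ⟨a, ha, b, hb, e⟩ := hf g⁻¹
    refine ⟨b⁻¹, B.inv_mem hb, a⁻¹, A.inv_mem ha, ?_⟩
    rw [← mul_inv_rev, ← e, inv_inv]

/-- **The Kegel-Wielandt theorem**. -/
theorem isSolvable_of_nilpotent_product {G : Type u} [Group G] [Finite G] (A B : Subgroup G)
    (hA : Group.IsNilpotent A) (hB : Group.IsNilpotent B) (hf : ∀ g : G, ∃ a ∈ A, ∃ b ∈ B, g = a * b) :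
    Group.IsSolvable G :=
  isSolvable_of_nilpotent_product_aux _ G A B rfl hA hB hf

end Cfsg.Agent.Lib.Basic
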