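import Cfsg.Agent.Lib.Basic.Zipper
import Cfsg.Agent.Lib.Basic.Nilpotent
import Mathlib.GroupTheory.Sylow

/-!
# Matsuyama's lemma: S0541.
-/

set_option autoImplicit false

namespace Cfsg.Agent.Lib.Basic

open Subgroup Cfsg.Agent.Lib.Coprime.Wielandt

open scoped Pointwise

variable {G : Type*} [Group G] [Finite G]

/-- **Matsuyama's lemma**. -/
theorem matsuyama (p : ℕ) [hp : Fact p.Prime] (Z Y : Subgroup G)
    (h : ∀ g : G, IsPGroup p ↥(⨆ y ∈ Y, MulAut.conj (y * g) • Z)) :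
    ∃ P : Sylow p G, Y ≤ normalizer ((⨆ g ∈ {g : G | MulAut.conj g • Z ≤ (P : Subgroup G)},
      MulAut.conj g • Z : Subgroup G) : Set G) := by
  classical
  -- conjugates inside `K`
  let cs : Subgroup G → Set (Subgroup G) := fun K => {C | (∃ g : G, C = MulAut.conj g • Z) ∧ C ≤ K}
  have hcsle : ∀ K, sSup (cs K) ≤ K := fun K => sSup_le fun C hC => hC.2
  let F : Set (Subgroup G) := {X | IsPGroup p X ∧ Y ≤ normalizer (X : Set G) ∧ sSup (cs X) = X}
  have hFne : F.Nonempty := by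
    refine ⟨⊥, IsPGroup.of_bot, ?_, le_bot_iff.mp (hcsle ⊥)⟩
    rw [Subgroup.normalizer_eq_top_iff.mpr (inferInstance : (⊥ : Subgroup G).Normal)]
    exact le_top
  obtain ⟨X, ⟨hXp, hXY, hXW⟩, hXmax⟩ := (Set.toFinite F).exists_maximal hFne
  obtain ⟨P, hXP⟩ := hXp.exists_le_sylow
  refine ⟨P, ?_⟩
  have htarget : (⨆ g ∈ {g : G | MulAut.conj g • Z ≤ (P : Subgroup G)},
      MulAut.conj g • Z : Subgroup G) = sSup (cs P) := by
    refine le_antisymm ?_ ?_
    · refine iSup₂_le fun g hg => le_sSup ⟨⟨g, rfl⟩, hg⟩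
    · refine sSup_le ?_
      rintro C ⟨⟨g, rfl⟩, hC⟩
      exact le_iSup₂_of_le g hC le_rfl
  rw [htarget]
  have hsub : cs X ⊆ cs P := fun C hC => ⟨hC.1, hC.2.trans hXP⟩
  by_cases heq : cs X = cs P
  · rw [← heq, hXW]
    exact hXY
  exfalso
  have hss : cs X ⊂ cs P := ⟨hsub, fun h => heq (le_antisymm hsub h)⟩
  haveI hPnil : Group.IsNilpotent (P : Subgroup G) := P.isPGroup'.isNilpotent
  have hSn : ∀ U ∈ cs P, SnIn (P : Subgroup G) U := by
    intro U hU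
    refine (snIn_iff hU.2).mpr ?_
    exact isSubnormal_of_isNilpotent _
  have hconj : ∀ U ∈ cs P, ∀ g ∈ (P : Subgroup G), Cj g U ∈ cs P := by
    rintro U ⟨⟨k, rfl⟩, hU⟩ g hg
    refine ⟨⟨g * k, ?_⟩, ?_⟩
    · rw [map_mul, mul_smul]
      rfl
    · rintro _ ⟨u, hu, rfl⟩
      exact (P : Subgroup G).mul_mem ((P : Subgroup G).mul_mem hg (hU hu)) ((P : Subgroup G).inv_mem hg)
  obtain ⟨C, hC, hCn, hCN⟩ := exists_member_normalizes_sSup _ (cs P) (cs X) hSn hconj hss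
  rw [hXW] at hCN
  obtain ⟨⟨g, rfl⟩, hCP⟩ := hC
  -- the subgroup `L`
  set L : Subgroup G := ⨆ y ∈ Y, MulAut.conj (y * g) • Z with hL
  have hLp : IsPGroup p L := h g
  have hCL : MulAut.conj g • Z ≤ L := by
    have h1 : MulAut.conj ((1 : G) * g) • Z ≤ L := le_iSup₂_of_le 1 Y.one_mem le_rfl
    rwa [one_mul] at h1
  have hLN : L ≤ normalizer (X : Set G) := by
    refine iSup₂_le fun y hy => ?_
    rintro _ ⟨z, hz, rfl⟩
    have h1 : (MulAut.conj g • Z : Subgroup G) ≤ normalizer (X : Set G) := hCN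
    have h2 : g * z * g⁻¹ ∈ normalizer (X : Set G) := h1 ⟨z, hz, rfl⟩
    have h3 := hXY hy
    have h4 : (y * g) * z * (y * g)⁻¹ = y * (g * z * g⁻¹) * y⁻¹ := by group
    change (y * g) * z * (y * g)⁻¹ ∈ _
    rw [h4]
    exact mul_mem (mul_mem h3 h2) (inv_mem h3)
  have hX'p : IsPGroup p (L ⊔ X : Subgroup G) := hLp.to_sup_of_normal_right' hXp hLN
  have hLY : Y ≤ normalizer (L : Set G) := by
    intro y hy
    refine mem_normalizer_of_le_comap ?_
    refine iSup₂_le fun y' hy' => ?_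
    rw [← Subgroup.map_le_iff_le_comap]
    refine le_iSup₂_of_le (y * y') (Y.mul_mem hy hy') ?_
    rintro _ ⟨_, ⟨z, hz, rfl⟩, rfl⟩
    refine ⟨z, hz, ?_⟩
    change (y * y' * g) * z * (y * y' * g)⁻¹ = y * ((y' * g) * z * (y' * g)⁻¹) * y⁻¹
    group
  have hX'Y : Y ≤ normalizer ((L ⊔ X : Subgroup G) : Set G) := by
    intro y hy
    refine mem_normalizer_of_le_comap ?_
    refine sup_le ?_ ?_
    · intro x hx
      have h1 := (mem_normalizer_iff.mp (hLY hy) x).mp hx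
      exact (le_sup_left : L ≤ L ⊔ X) h1
    · intro x hx
      have h1 := (mem_normalizer_iff.mp (hXY hy) x).mp hx
      exact (le_sup_right : X ≤ L ⊔ X) h1
  have hX'W : sSup (cs (L ⊔ X)) = L ⊔ X := by
    refine le_antisymm (hcsle _) (sup_le ?_ ?_)
    · refine iSup₂_le fun y hy => le_sSup ?_
      have h1 : MulAut.conj (y * g) • Z ≤ L := le_iSup₂_of_le y hy le_rfl
      exact ⟨⟨y * g, rfl⟩, h1.trans le_sup_left⟩
    · conv_lhs => rw [← hXW]
      refine sSup_le_sSup ?_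
      exact fun C hC => ⟨hC.1, hC.2.trans le_sup_right⟩
  have hle : L ⊔ X ≤ X := hXmax ⟨hX'p, hX'Y, hX'W⟩ le_sup_right
  exact hCn ⟨⟨g, rfl⟩, hCL.trans (le_sup_left.trans hle)⟩

end Cfsg.Agent.Lib.Basic
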