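/-
If the Sylow `p`-subgroups of `O^p(G)` are abelian then `O^p(G)` has a complement in `G`.
-/
import Cfsg.Agent.Lib.Basic.CoprimeAction
import Cfsg.Agent.Lib.Coprime.SZ
import Cfsg.Agent.Lib.Fusion.Hyperfocal
import Cfsg.Agent.Lib.PGroups.Parts

set_option autoImplicit false

namespace Cfsg.Agent.Lib.Basic

open Subgroup Cfsg Cfsg.Agent.Lib.Transfer
open scoped commutatorElement

theorem exists_complement_pResidual {G : Type*} [Group G] [Finite G] {p : ℕ} [Fact p.Prime]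
    (h : ∀ Q : Sylow p (pResidual p G), IsMulCommutative Q) :
    ∃ K : Subgroup G, K.IsComplement' (pResidual p G) := by
  classical
  have hpp : p.Prime := Fact.out
  set N : Subgroup G := pResidual p G with hNdef
  haveI hNn : N.Normal := pResidual_normal p G
  obtain ⟨S⟩ : Nonempty (Sylow p N) := inferInstance
  haveI hSab : IsMulCommutative S := h S
  obtain ⟨P₁, hP₁⟩ : ∃ P₁ : Subgroup G, P₁ = (S : Subgroup N).map N.subtype := ⟨_, rfl⟩
  have hP₁N : P₁ ≤ N := by rw [hP₁]; exact map_subtype_le _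
  have hP₁p : IsPGroup p P₁ := by rw [hP₁]; exact S.isPGroup'.map _
  have hcomm : ∀ x ∈ P₁, ∀ y ∈ P₁, x * y = y * x := by
    rw [hP₁]
    rintro _ ⟨x, hx, rfl⟩ _ ⟨y, hy, rfl⟩
    have := hSab.is_comm.comm (⟨x, hx⟩ : S) ⟨y, hy⟩
    exact congrArg (fun t : S => ((t : N) : G)) this
  haveI hP₁ab : IsMulCommutative P₁ := ⟨⟨fun a b => Subtype.ext (hcomm _ a.2 _ b.2)⟩⟩
  obtain ⟨M₀, hM₀⟩ : ∃ M₀ : Subgroup G, M₀ = normalizer (P₁ : Set G) := ⟨_, rfl⟩
  have hsup : M₀ ⊔ N = ⊤ := by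
    rw [hM₀, hP₁]
    exact Sylow.normalizer_sup_eq_top S
  obtain ⟨D, hDdef⟩ : ∃ D : Subgroup G, D = N ⊓ M₀ := ⟨_, rfl⟩
  have hDN : D ≤ N := hDdef ▸ inf_le_left
  have hDM : D ≤ M₀ := hDdef ▸ inf_le_right
  have hP₁D : P₁ ≤ D := by
    rw [hDdef, hM₀]
    exact le_inf hP₁N Subgroup.le_normalizer
  obtain ⟨A, hAdef⟩ : ∃ A : Subgroup D, A = P₁.subgroupOf D := ⟨_, rfl⟩
  have hAm : A.map D.subtype = P₁ := by
    rw [hAdef]; exact Subgroup.map_subgroupOf_eq_of_le hP₁D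
  haveI hAn : A.Normal := by
    rw [hAdef]
    refine ⟨fun x hx g => ?_⟩
    have hg : (g : G) ∈ normalizer (P₁ : Set G) := hM₀ ▸ hDM g.2
    exact (mem_normalizer_iff.1 hg x).1 hx
  have hAmem : ∀ x : D, x ∈ A ↔ (x : G) ∈ P₁ := by
    intro x; rw [hAdef]; exact Iff.rfl
  haveI hAab : IsMulCommutative A :=
    ⟨⟨fun a b => Subtype.ext (Subtype.ext (hcomm _ ((hAmem _).1 a.2) _ ((hAmem _).1 b.2)))⟩⟩
  have hAcard : Nat.card A = Nat.card P₁ := by
    rw [hAdef]; exact Nat.card_congr (Subgroup.subgroupOfEquivOfLe hP₁D).toEquiv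
  have hidx : ¬ p ∣ A.index := by
    intro hd
    apply S.not_dvd_index
    have e1 : (S : Subgroup N) = P₁.subgroupOf N := by
      rw [hP₁]
      exact (Subgroup.comap_map_eq_self_of_injective N.subtype_injective _).symm
    have e2 : (S : Subgroup N).index = P₁.relIndex N := by rw [e1]; rfl
    have e3 := Subgroup.relIndex_mul_relIndex P₁ D N hP₁D hDN
    rw [e2, ← e3]
    have e4 : A.index = P₁.relIndex D := by rw [hAdef]; rfl
    rw [← e4]
    exact hd.trans (dvd_mul_right _ _)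
  have hcop : Nat.Coprime (Nat.card A) A.index := by
    obtain ⟨k, hk⟩ := IsPGroup.iff_card.1 hP₁p
    rw [hAcard, hk]
    exact ((hpp.coprime_iff_not_dvd).2 hidx).pow_left k
  obtain ⟨H₀, hc⟩ := Subgroup.exists_right_complement'_of_coprime hcop
  obtain ⟨R, hR⟩ : ∃ R : Subgroup G, R = H₀.map D.subtype := ⟨_, rfl⟩
  have hRD : R ≤ D := by rw [hR]; exact map_subtype_le _
  have hRH₀ : R.subgroupOf D = H₀ := by
    rw [hR]
    exact Subgroup.comap_map_eq_self_of_injective D.subtype_injective _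
  have hcardR : Nat.card R = A.index := by
    rw [hR, Subgroup.card_map_of_injective D.subtype_injective]
    exact hc.symm.index_eq_card.symm
  have hcopR : Nat.Coprime (Nat.card R) (Nat.card P₁) := by
    rw [hcardR, ← hAcard]
    exact hcop.symm
  -- `D = P₁ R`
  have hdecomp : ∀ d ∈ D, ∃ a ∈ P₁, ∃ r ∈ R, d = a * r := by
    intro d hd
    have h1 : (⟨d, hd⟩ : D) ∈ A ⊔ H₀ := by
      rw [hc.sup_eq_top]; exact mem_top _
    obtain ⟨a, ha, r, hr, he⟩ := Subgroup.mem_sup_of_normal_left.1 h1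
    refine ⟨a, (hAmem a).1 ha, r, ?_, ?_⟩
    · rw [hR]; exact ⟨r, hr, rfl⟩
    · exact (congrArg Subtype.val he).symm
  have hRN : R ≤ normalizer (P₁ : Set G) := fun r hr => hM₀ ▸ hDM (hRD hr)
  have hdisj : Disjoint R P₁ := Subgroup.disjoint_of_coprime_natCard hcopR
  -- the focal computation: `P₁ ≤ [P₁, R]`
  have hfoc : P₁ ≤ ⁅P₁, R⁆ := by
    have hres : pResidual p N = ⊤ := Cfsg.Agent.Lib.Fusion.pResidual_pResidual
    have h1 := inf_pResidual_le_focal S
    rw [hres, inf_top_eq] at h1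
    have hctrl : ∀ x ∈ (S : Subgroup N), ∀ u : N, u * x * u⁻¹ ∈ (S : Subgroup N) →
        ∃ n ∈ R.subgroupOf N, n * x * n⁻¹ = u * x * u⁻¹ := by
      intro x hx u hu
      obtain ⟨n, hn, hne⟩ := exists_normalizer_conj_of_abelian S hx u hu
      have hnG : (n : G) ∈ D := by
        rw [hDdef, hM₀, hP₁]
        exact ⟨n.2, Subgroup.le_normalizer_map N.subtype ⟨n, hn, rfl⟩⟩
      obtain ⟨a, ha, r, hr, hear⟩ := hdecomp _ hnG
      have hrN : r ∈ N := hDN (hRD hr)
      refine ⟨⟨r, hrN⟩, hr, ?_⟩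
      rw [← hne]
      apply Subtype.ext
      have hxP : (x : G) ∈ P₁ := by rw [hP₁]; exact ⟨x, hx, rfl⟩
      have h2 : r * (x : G) * r⁻¹ ∈ P₁ := (mem_normalizer_iff.1 (hRN hr) x).1 hxP
      have h3 := hcomm a ha _ h2
      show r * (x : G) * r⁻¹ = (n : G) * x * (n : G)⁻¹
      rw [hear]
      calc r * (x : G) * r⁻¹ = a * (r * (x : G) * r⁻¹) * a⁻¹ := by rw [h3]; group
        _ = _ := by group
    have h2 := focalSubgroup_le_commutator_of_control (S : Subgroup N) (R.subgroupOf N) hctrl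
    have h3 : (S : Subgroup N) ≤ ⁅(S : Subgroup N), R.subgroupOf N⁆ := h1.trans h2
    have h4 := Subgroup.map_mono (f := N.subtype) h3
    rw [Subgroup.map_commutator, ← hP₁, Subgroup.map_subgroupOf_eq_of_le (hRD.trans hDN)] at h4
    exact h4
  -- no fixed points of `R` on `P₁`
  have hfix : ∀ a ∈ P₁, a ∈ centralizer (R : Set G) → a = 1 := by
    intro a ha hac
    have h1 := centralizer_inf_commutator_eq_bot (A := R) (V := P₁) hRN hcopR
    have h2 : a ∈ (P₁ ⊓ centralizer (R : Set G)) ⊓ ⁅P₁, R⁆ := ⟨⟨ha, hac⟩, hfoc ha⟩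
    rw [h1] at h2
    exact Subgroup.mem_bot.1 h2
  obtain ⟨T₀, hT₀⟩ : ∃ T₀ : Subgroup G, T₀ = M₀ ⊓ normalizer (R : Set G) := ⟨_, rfl⟩
  -- Frattini
  have hfrat : ∀ g ∈ M₀, ∃ a ∈ P₁, ∃ t ∈ T₀, g = a * t := by
    intro g hg
    have hgN : g ∈ normalizer (P₁ : Set G) := hM₀ ▸ hg
    have hgD : ∀ d ∈ D, g * d * g⁻¹ ∈ D := by
      intro d hd
      rw [hDdef] at hd ⊢
      exact ⟨hNn.conj_mem d hd.1 g, M₀.mul_mem (M₀.mul_mem hg hd.2) (M₀.inv_mem hg)⟩
    have hKD : R.map (MulAut.conj g).toMonoidHom ≤ D := by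
      rintro _ ⟨r, hr, rfl⟩
      exact hgD r (hRD hr)
    have hcH : Nat.card (R.subgroupOf D) = A.index := by
      rw [hRH₀]; exact hc.symm.index_eq_card.symm
    have hcK : Nat.card ((R.map (MulAut.conj g).toMonoidHom).subgroupOf D) = A.index := by
      rw [Nat.card_congr (Subgroup.subgroupOfEquivOfLe hKD).toEquiv,
        Subgroup.card_map_of_injective (MulEquiv.injective _), hcardR]
    obtain ⟨m, hmA, hm⟩ := Cfsg.Agent.Lib.Coprime.conj_of_abelian A hcop (R.subgroupOf D) _ hcH hcK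
    have h1 := Cfsg.Agent.Lib.Coprime.conj_of_subgroupOf hRD hKD m hm
    refine ⟨m, (hAmem m).1 hmA, (m : G)⁻¹ * g, ?_, by group⟩
    rw [hT₀]
    refine ⟨M₀.mul_mem (M₀.inv_mem (hDM m.2)) hg, ?_⟩
    apply Cfsg.Agent.Lib.PGroups.mem_normalizer_of_conj_le'
    intro r hr
    have h2 : g * r * g⁻¹ ∈ R.map (MulAut.conj (m : G)).toMonoidHom := by
      rw [← h1]
      exact ⟨r, hr, rfl⟩
    obtain ⟨r', hr', he⟩ := h2
    have he' : (m : G) * r' * (m : G)⁻¹ = g * r * g⁻¹ := he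
    have e1 : (m : G)⁻¹ * g * r * ((m : G)⁻¹ * g)⁻¹ = r' := by
      calc (m : G)⁻¹ * g * r * ((m : G)⁻¹ * g)⁻¹ = (m : G)⁻¹ * (g * r * g⁻¹) * (m : G) := by group
        _ = (m : G)⁻¹ * ((m : G) * r' * (m : G)⁻¹) * (m : G) := by rw [he']
        _ = r' := by group
    rw [e1]
    exact hr'
  have hT₀sup : N ⊔ T₀ = ⊤ := by
    rw [eq_top_iff]
    intro g _
    have hg : g ∈ M₀ ⊔ N := by rw [hsup]; exact mem_top g
    obtain ⟨m, hm, n, hn, rfl⟩ := Subgroup.mem_sup_of_normal_right.1 hg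
    obtain ⟨a, ha, t, ht, rfl⟩ := hfrat m hm
    have e1 : a * t * n = (a * (t * n * t⁻¹)) * t := by group
    rw [e1]
    refine mul_mem_sup (N.mul_mem (hP₁N ha) (hNn.conj_mem n hn t)) ht
  have hRT₀ : R ≤ T₀ := by
    rw [hT₀]
    exact le_inf (hRD.trans hDM) Subgroup.le_normalizer
  have hT₀N : T₀ ⊓ N = R := by
    apply le_antisymm
    · rintro x ⟨hxT, hxN⟩
      rw [hT₀] at hxT
      have hxD : x ∈ D := by rw [hDdef]; exact ⟨hxN, hxT.1⟩
      obtain ⟨a, ha, r, hr, rfl⟩ := hdecomp x hxD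
      have haN : a ∈ normalizer (R : Set G) := by
        have e1 : a = (a * r) * r⁻¹ := by group
        rw [e1]
        exact mul_mem hxT.2 (Subgroup.le_normalizer (R.inv_mem hr))
      have hac : a ∈ centralizer (R : Set G) :=
        mem_centralizer_of_mem_normalizer hRN hdisj ha haN
      rw [hfix a ha hac, one_mul]
      exact hr
    · exact le_inf hRT₀ (hRD.trans hDN)
  -- the index of `N` is a power of `p`
  have hNq : IsPGroup p (G ⧸ N) := isPGroup_quotient_pResidual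
  obtain ⟨a, ha⟩ := IsPGroup.iff_card.1 hNq
  have hNidx : N.index = p ^ a := by rw [Subgroup.index_eq_card]; exact ha
  have hT₀card : Nat.card T₀ = Nat.card R * p ^ a := by
    have h1 : N.relIndex T₀ = p ^ a := by
      rw [← Subgroup.relIndex_sup_left, hT₀sup, Subgroup.relIndex_top_right, hNidx]
    have h3 := Subgroup.card_mul_index (N.subgroupOf T₀)
    have h5 : (N.subgroupOf T₀).map T₀.subtype = T₀ ⊓ N := by
      rw [Subgroup.subgroupOf_map_subtype, inf_comm]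
    have h4 : Nat.card (N.subgroupOf T₀) = Nat.card R := by
      rw [← hT₀N, ← h5, Subgroup.card_map_of_injective T₀.subtype_injective]
    rw [h4] at h3
    have h6 : (N.subgroupOf T₀).index = p ^ a := h1
    rw [h6] at h3
    exact h3.symm
  obtain ⟨T⟩ : Nonempty (Sylow p T₀) := inferInstance
  obtain ⟨b, hb⟩ := IsPGroup.iff_card.1 T.isPGroup'
  have hTidx : ¬ p ∣ (T : Subgroup T₀).index := T.not_dvd_index
  have hTcard : Nat.card T * (T : Subgroup T₀).index = Nat.card T₀ :=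
    Subgroup.card_mul_index _
  have hRcop : Nat.Coprime p (Nat.card R) := by
    rw [hcardR]; exact (hpp.coprime_iff_not_dvd).2 hidx
  have hab : b = a := by
    have h1 : p ^ b ∣ p ^ a := by
      have h2 : p ^ b ∣ Nat.card R * p ^ a := by
        rw [← hT₀card, ← hTcard, hb]; exact dvd_mul_right _ _
      exact (hRcop.pow_left b).dvd_of_dvd_mul_left h2
    have h3 : p ^ a ∣ p ^ b := by
      have h2 : p ^ a ∣ p ^ b * (T : Subgroup T₀).index := by
        rw [← hb, hTcard, hT₀card]; exact dvd_mul_left _ _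
      exact (((hpp.coprime_iff_not_dvd).2 hTidx).pow_left a).dvd_of_dvd_mul_right h2
    exact Nat.pow_right_injective hpp.two_le (Nat.dvd_antisymm h1 h3)
  refine ⟨(T : Subgroup T₀).map T₀.subtype, ?_⟩
  apply Subgroup.isComplement'_of_card_mul_and_disjoint
  · rw [Subgroup.card_map_of_injective T₀.subtype_injective, hb, hab, ← hNidx]
    exact N.index_mul_card
  · rw [Subgroup.disjoint_def]
    intro x hxT hxN
    have hxT₀ : x ∈ T₀ := (map_subtype_le _) hxT
    have hxR : x ∈ R := hT₀N ▸ ⟨hxT₀, hxN⟩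
    have hxp : IsPGroup p ((T : Subgroup T₀).map T₀.subtype) := T.isPGroup'.map _
    obtain ⟨m, hm⟩ := hxp ⟨x, hxT⟩
    have h1 : x ^ p ^ m = 1 := congrArg Subtype.val hm
    have h2 : orderOf x ∣ Nat.card R := by
      have := orderOf_dvd_natCard (⟨x, hxR⟩ : R)
      rwa [Subgroup.orderOf_mk] at this
    have h3 := Nat.eq_one_of_dvd_coprimes (hRcop.pow_left m).symm h2 (orderOf_dvd_of_pow_eq_one h1)
    exact orderOf_eq_one_iff.1 h3

end Cfsg.Agent.Lib.Basic
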