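import Cfsg.Agent.Lib.Basic.Carter2
import Cfsg.Agent.Lib.Basic.MinNormal
import Cfsg.Prelude.Def_SolvableStructure

/-!
# Hall complement systems: conjugacy, images, system normalizers.
-/

set_option autoImplicit false

namespace Cfsg.Agent.Lib.Basic

open Subgroup Cfsg

open scoped Pointwise commutatorElement

variable {G : Type*} [Group G]

/-- In a complement system the `p`-member has order prime to `p`. -/
theorem complement_card_coprime [Finite G] {K : Nat.Primes → Subgroup G} (hK : IsComplementSystem K)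
    (p : Nat.Primes) : (Nat.card (K p)).Coprime p := by
  have hp : (p : ℕ).Prime := p.2
  have h1 := Subgroup.card_mul_index (K p)
  rw [hK p] at h1
  have hpos : 0 < Nat.card (K p) := Nat.card_pos
  have hG : Nat.card G ≠ 0 := Nat.card_pos.ne'
  refine Nat.Coprime.symm ((Nat.Prime.coprime_iff_not_dvd hp).mpr ?_)
  intro hdvd
  have h2 : (p : ℕ) ^ ((Nat.card G).factorization p + 1) ∣ Nat.card G := by
    have h3 : Nat.card G = (p : ℕ) ^ ((Nat.card G).factorization p) * Nat.card (K p) := by
      conv_lhs => rw [← h1]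
      exact mul_comm _ _
    rw [pow_succ]
    conv_rhs => rw [h3]
    exact Nat.mul_dvd_mul (dvd_refl _) hdvd
  exact Nat.pow_succ_factorization_not_dvd hG hp h2

/-- A recognition criterion for complement systems. -/
theorem isComplementSystem_of [Finite G] {K : Nat.Primes → Subgroup G}
    (h : ∀ p : Nat.Primes, (∃ k : ℕ, (K p).index = (p : ℕ) ^ k) ∧ (Nat.card (K p)).Coprime p) :
    IsComplementSystem K := by
  intro p
  obtain ⟨⟨k, hk⟩, hc⟩ := h p
  have hp : (p : ℕ).Prime := p.2
  have h1 := Subgroup.card_mul_index (K p)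
  rw [hk] at h1
  have hpos : Nat.card (K p) ≠ 0 := Nat.card_pos.ne'
  have h3 : (Nat.card (K p)).factorization p = 0 :=
    Nat.factorization_eq_zero_of_not_dvd (fun hd => by
      have := Nat.dvd_gcd hd (dvd_refl (p : ℕ))
      rw [Nat.Coprime.gcd_eq_one hc] at this
      exact hp.one_lt.ne' (Nat.dvd_one.mp this))
  rw [hk, ← h1, Nat.factorization_mul hpos (pow_ne_zero _ hp.ne_zero)]
  simp [h3, hp.factorization_self]

/-- The conjugate of a complement system is a complement system. -/
theorem isComplementSystem_conj {K : Nat.Primes → Subgroup G} (hK : IsComplementSystem K) (g : G) :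
    IsComplementSystem (fun p => MulAut.conj g • K p) := by
  intro p
  rw [index_conj_smul]
  exact hK p

/-- The image of a complement system under a surjection is a complement system. -/
theorem isComplementSystem_map [Finite G] {Q : Type*} [Group Q] [Finite Q] (f : G →* Q)
    (hf : Function.Surjective f) {K : Nat.Primes → Subgroup G} (hK : IsComplementSystem K) :
    IsComplementSystem (fun p => (K p).map f) := by
  refine isComplementSystem_of (fun p => ⟨?_, ?_⟩)
  · have h1 := Subgroup.index_map_dvd (K p) hf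
    rw [hK p] at h1
    obtain ⟨k, -, hk⟩ := (Nat.dvd_prime_pow p.2).mp h1
    exact ⟨k, hk⟩
  · exact Nat.Coprime.coprime_dvd_left (Subgroup.card_map_dvd (K p) f) (complement_card_coprime hK p)

/-- A normal `r`-subgroup lies in every `p`-member with `p ≠ r`. -/
theorem normal_pGroup_le_complement [Finite G] {K : Nat.Primes → Subgroup G} (hK : IsComplementSystem K)
    {M : Subgroup G} [hM : M.Normal] {r : ℕ} (hr : r.Prime) (hMr : IsPGroup r M) (p : Nat.Primes)
    (hpr : (p : ℕ) ≠ r) : M ≤ K p := by
  set X : Subgroup G := K p ⊔ M with hX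
  have h1 : (K p).subgroupOf X ⊔ M.subgroupOf X = ⊤ := by
    rw [eq_top_iff]
    rintro ⟨x, hx⟩ -
    obtain ⟨a, ha, b, hb, hab⟩ := Subgroup.mem_sup_of_normal_right.mp hx
    have hax : a ∈ X := le_sup_left (α := Subgroup G) ha
    have hbx : b ∈ X := le_sup_right (α := Subgroup G) hb
    have : (⟨x, hx⟩ : X) = ⟨a, hax⟩ * ⟨b, hbx⟩ := Subtype.ext hab.symm
    rw [this]
    exact Subgroup.mul_mem _ (Subgroup.mem_sup_left (by simpa [Subgroup.mem_subgroupOf] using ha))
      (Subgroup.mem_sup_right (by simpa [Subgroup.mem_subgroupOf] using hb))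
  haveI hNM : (M.subgroupOf X).Normal := inferInstance
  have h2 := index_dvd_card_of_sup_eq_top h1
  have h3 : (K p).relIndex X = ((K p).subgroupOf X).index := rfl
  have h4 : (K p).relIndex X * X.index = (K p).index :=
    Subgroup.relIndex_mul_index le_sup_left
  have h5 : (K p).relIndex X ∣ (p : ℕ) ^ (Nat.card G).factorization p := by
    rw [← hK p, ← h4]
    exact Dvd.intro _ rfl
  have h6 : Nat.card (M.subgroupOf X) = Nat.card M := card_subgroupOf_of_le le_sup_right
  rw [h6] at h2
  haveI : Fact r.Prime := ⟨hr⟩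
  obtain ⟨k, hk⟩ := hMr.exists_card_eq
  rw [hk] at h2
  rw [← h3] at h2
  have hcop : Nat.Coprime ((p : ℕ) ^ (Nat.card G).factorization p) (r ^ k) :=
    Nat.Coprime.pow _ _ ((Nat.coprime_primes p.2 hr).mpr hpr)
  have h7 : (K p).relIndex X = 1 := Nat.eq_one_of_dvd_coprimes hcop h5 h2
  have h8 : X ≤ K p := Subgroup.relIndex_eq_one.mp h7
  exact le_sup_right.trans h8

/-- The base case of the conjugacy of systems: the two systems agree modulo a normal `r`-subgroup. -/
theorem systems_conj_of_pGroup [Finite G] [Group.IsSolvable G] {K L : Nat.Primes → Subgroup G}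
    (hK : IsComplementSystem K) (hL : IsComplementSystem L)
    {M : Subgroup G} [hM : M.Normal] {r : ℕ} (hr : r.Prime) (hMr : IsPGroup r M)
    (h : ∀ p, K p ⊔ M = L p ⊔ M) :
    ∃ m ∈ M, ∀ p, MulAut.conj m • K p = L p := by
  let R : Nat.Primes := ⟨r, hr⟩
  have hKle : ∀ p : Nat.Primes, (p : ℕ) ≠ r → M ≤ K p := fun p hp =>
    normal_pGroup_le_complement hK hr hMr p hp
  have hLle : ∀ p : Nat.Primes, (p : ℕ) ≠ r → M ≤ L p := fun p hp =>
    normal_pGroup_le_complement hL hr hMr p hp
  have heq : ∀ p : Nat.Primes, (p : ℕ) ≠ r → K p = L p := by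
    intro p hp
    have := h p
    rwa [sup_eq_left.mpr (hKle p hp), sup_eq_left.mpr (hLle p hp)] at this
  set X : Subgroup G := K R ⊔ M with hX
  have hKX : K R ≤ X := le_sup_left
  have hLX : L R ≤ X := by rw [hX, h R]; exact le_sup_left
  -- card
  have hcardKL : Nat.card (K R) = Nat.card (L R) := by
    have h1 := Subgroup.card_mul_index (K R)
    have h2 := Subgroup.card_mul_index (L R)
    rw [hK R] at h1
    rw [hL R] at h2
    have h3 : 0 < (R : ℕ) ^ (Nat.card G).factorization R := pow_pos (R.2.pos) _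
    exact Nat.eq_of_mul_eq_mul_right h3 (h1.trans h2.symm)
  have hcop : (Nat.card ((K R).subgroupOf X)).Coprime ((K R).subgroupOf X).index := by
    rw [card_subgroupOf_of_le hKX]
    have h4 : ((K R).subgroupOf X).index * X.index = (K R).index :=
      Subgroup.relIndex_mul_index hKX
    have h5 : ((K R).subgroupOf X).index ∣ (R : ℕ) ^ (Nat.card G).factorization R := by
      rw [← hK R, ← h4]
      exact Dvd.intro _ rfl
    refine Nat.Coprime.coprime_dvd_right h5 (Nat.Coprime.pow_right _ ?_)
    exact complement_card_coprime hK R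
  obtain ⟨x, hx⟩ := hall_conj ((K R).subgroupOf X) ((L R).subgroupOf X) hcop
    (by rw [card_subgroupOf_of_le hKX, card_subgroupOf_of_le hLX, hcardKL])
  have hx2 : MulAut.conj (x : G) • K R = L R := by
    have := conj_smul_of_subgroupOf hKX hLX x hx
    exact this
  have hx3 : (x : G) ∈ M ⊔ K R := by
    rw [sup_comm]
    exact x.2
  obtain ⟨m, hm, k, hk, hmk⟩ := Subgroup.mem_sup_of_normal_left.mp hx3
  refine ⟨m, hm, fun p => ?_⟩
  by_cases hp : (p : ℕ) = r
  · have hpR : p = R := Subtype.ext hp
    subst hpR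
    rw [← hx2, ← hmk, conj_smul_mul, conj_smul_le_of_normalizer (Subgroup.le_normalizer hk)]
  · rw [conj_smul_le_of_normalizer (Subgroup.le_normalizer (hKle p hp hm))]
    exact heq p hp

/-- Conjugacy of complement systems, relative form. -/
theorem systems_conj_aux.{u} : ∀ (n : ℕ) {G : Type u} [Group G] [Finite G] [Group.IsSolvable G]
    (K L : Nat.Primes → Subgroup G) (N : Subgroup G) [N.Normal], Nat.card G = n →
    IsComplementSystem K → IsComplementSystem L → (∀ p, K p ⊔ N = L p ⊔ N) →
    ∃ x ∈ N, ∀ p, MulAut.conj x • K p = L p := by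
  intro n
  induction n using Nat.strong_induction_on with
  | _ n ih =>
  intro G _ _ _ K L N hN hn hK hL h
  by_cases hN0 : N = ⊥
  · subst hN0
    refine ⟨1, Subgroup.one_mem _, fun p => ?_⟩
    rw [conj_smul_one]
    simpa using h p
  obtain ⟨M, hM, hMN⟩ := exists_isMinNormal_le hN hN0
  obtain ⟨-, r, hr, hMr⟩ := hM.isPGroup
  haveI hMn : M.Normal := hM.1
  have hsurj : Function.Surjective (QuotientGroup.mk' M) := QuotientGroup.mk'_surjective M
  have hcard : Nat.card (G ⧸ M) < n := by
    rw [← hn]
    have h1 := Subgroup.card_mul_index M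
    have h2 : 1 < Nat.card M := by
      haveI : Nontrivial M := (Subgroup.nontrivial_iff_ne_bot M).mpr hM.2.1
      exact Finite.one_lt_card
    rw [← Subgroup.index_eq_card]
    have h3 : 0 < M.index := Nat.pos_of_ne_zero Subgroup.index_ne_zero_of_finite
    nlinarith
  haveI hNbar : (N.map (QuotientGroup.mk' M)).Normal := hN.map _ hsurj
  obtain ⟨y, hy, hyc⟩ := ih _ hcard (fun p => (K p).map (QuotientGroup.mk' M))
    (fun p => (L p).map (QuotientGroup.mk' M)) (N.map (QuotientGroup.mk' M)) rfl
    (isComplementSystem_map _ hsurj hK) (isComplementSystem_map _ hsurj hL)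
    (fun p => by rw [← Subgroup.map_sup, ← Subgroup.map_sup, h p])
  obtain ⟨t, ht, rfl⟩ := hy
  have hK' : IsComplementSystem (fun p => MulAut.conj t • K p) := isComplementSystem_conj hK t
  have hsup : ∀ p, MulAut.conj t • K p ⊔ M = L p ⊔ M := by
    intro p
    have h1 := hyc p
    change MulAut.conj (QuotientGroup.mk' M t) • (K p).map (QuotientGroup.mk' M) = (L p).map (QuotientGroup.mk' M) at h1
    rw [← map_conj_smul] at h1
    have h2 := congrArg (Subgroup.comap (QuotientGroup.mk' M)) h1
    rw [Subgroup.comap_map_eq, Subgroup.comap_map_eq, QuotientGroup.ker_mk'] at h2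
    exact h2
  obtain ⟨m, hm, hmc⟩ := systems_conj_of_pGroup hK' hL hr hMr hsup
  refine ⟨m * t, N.mul_mem (hMN hm) ht, fun p => ?_⟩
  rw [conj_smul_mul]
  exact hmc p

/-- **Any two complement systems of a finite solvable group are conjugate.** -/
theorem systems_conj [Finite G] [Group.IsSolvable G] {K L : Nat.Primes → Subgroup G}
    (hK : IsComplementSystem K) (hL : IsComplementSystem L) :
    ∃ g : G, ∀ p, MulAut.conj g • K p = L p := by
  obtain ⟨x, -, hx⟩ := systems_conj_aux _ K L ⊤ rfl hK hL (by simp)
  exact ⟨x, hx⟩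

theorem mem_systemNormalizer {K : Nat.Primes → Subgroup G} {x : G} :
    x ∈ systemNormalizer K ↔ ∀ p, MulAut.conj x • K p = K p := by
  unfold systemNormalizer
  rw [Subgroup.mem_iInf]
  exact forall_congr' (fun p => ⟨conj_smul_le_of_normalizer, mem_normalizer_of_conj_smul_eq⟩)

theorem systemNormalizer_conj (K : Nat.Primes → Subgroup G) (g : G) :
    systemNormalizer (fun p => MulAut.conj g • K p) = MulAut.conj g • systemNormalizer K := by
  ext x
  rw [mem_conj_smul, mem_systemNormalizer, mem_systemNormalizer]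
  refine forall_congr' (fun p => ?_)
  constructor
  · intro h
    have h1 := congrArg (fun H => MulAut.conj g⁻¹ • H) h
    simp only [← conj_smul_mul] at h1
    rw [show g⁻¹ * (x * g) = g⁻¹ * x * g by group, show g⁻¹ * g = 1 by group, conj_smul_one] at h1
    exact h1
  · intro h
    have h1 := congrArg (fun H => MulAut.conj g • H) h
    simp only [← conj_smul_mul] at h1
    rw [show g * (g⁻¹ * x * g) = x * g by group, conj_smul_mul] at h1
    exact h1

/-- **The system normalizer of the image is the image of the system normalizer.** -/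
theorem systemNormalizer_map [Finite G] [Group.IsSolvable G] {K : Nat.Primes → Subgroup G}
    (hK : IsComplementSystem K) (N : Subgroup G) [hN : N.Normal] :
    systemNormalizer (fun p => (K p).map (QuotientGroup.mk' N)) =
      (systemNormalizer K).map (QuotientGroup.mk' N) := by
  refine le_antisymm ?_ ?_
  · intro y hy
    obtain ⟨x, rfl⟩ := QuotientGroup.mk'_surjective N y
    rw [mem_systemNormalizer] at hy
    have hK' := isComplementSystem_conj hK x
    have hsup : ∀ p, MulAut.conj x • K p ⊔ N = K p ⊔ N := by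
      intro p
      have h1 := hy p
      rw [← map_conj_smul] at h1
      have h2 := congrArg (Subgroup.comap (QuotientGroup.mk' N)) h1
      rw [Subgroup.comap_map_eq, Subgroup.comap_map_eq, QuotientGroup.ker_mk'] at h2
      exact h2
    obtain ⟨n, hn, hnc⟩ := systems_conj_aux _ _ K N rfl hK' hK hsup
    refine ⟨n * x, ?_, ?_⟩
    · rw [SetLike.mem_coe, mem_systemNormalizer]
      intro p
      rw [conj_smul_mul]
      exact hnc p
    · have : QuotientGroup.mk' N n = 1 := (QuotientGroup.eq_one_iff n).mpr hn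
      rw [map_mul, this, one_mul]
  · rintro _ ⟨x, hx, rfl⟩
    rw [SetLike.mem_coe, mem_systemNormalizer] at hx
    rw [mem_systemNormalizer]
    intro p
    rw [← map_conj_smul, hx p]

/-- **The relative index of `H` in a subgroup normalizing it divides the index of `H`.** -/
theorem relIndex_dvd_index_of_le_normalizer [Finite G] {H K : Subgroup G}
    (hK : K ≤ normalizer (H : Set G)) : H.relIndex K ∣ H.index := by
  set N : Subgroup G := normalizer (H : Set G) with hN
  have hHN : H ≤ N := Subgroup.le_normalizer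
  haveI h1 : (H.subgroupOf N).Normal := Subgroup.normal_subgroupOf_iff_le_normalizer hHN |>.mpr le_rfl
  have h2 := Subgroup.relIndex_dvd_index_of_normal (H.subgroupOf N) (K.subgroupOf N)
  rw [Subgroup.relIndex_subgroupOf hK] at h2
  have h3 : H.relIndex N * N.index = H.index := Subgroup.relIndex_mul_index hHN
  exact h2.trans (Dvd.intro _ h3)

/-- **System normalizers are nilpotent.** -/
theorem isNilpotent_systemNormalizer [Finite G] {K : Nat.Primes → Subgroup G}
    (hK : IsComplementSystem K) : Group.IsNilpotent (systemNormalizer K) := by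
  classical
  set D : Subgroup G := systemNormalizer K with hD
  have hDN : ∀ p, D ≤ normalizer (K p : Set G) := fun p => iInf_le _ p
  haveI hnorm : ∀ p : Nat.Primes, ((K p).subgroupOf D).Normal := fun p => by
    refine ⟨fun n hn g => ?_⟩
    rw [Subgroup.mem_subgroupOf] at hn ⊢
    have := (Subgroup.mem_normalizer_iff.mp (hDN p g.2) (n : G)).mp hn
    simpa using this
  let I := {p : Nat.Primes // (p : ℕ) ∣ Nat.card G}
  haveI : Finite I := by
    refine Finite.of_injective (β := {q : ℕ // q ∈ (Nat.card G).primeFactors})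
      (fun p => ⟨(p.1 : ℕ), Nat.mem_primeFactors.mpr ⟨p.1.2, p.2, Nat.card_pos.ne'⟩⟩) ?_
    intro a b hab
    apply Subtype.ext
    apply Subtype.ext
    simpa using hab
  haveI hpg : ∀ p : I, Group.IsNilpotent (D ⧸ (K p.1).subgroupOf D) := fun p => by
    haveI : Fact (p.1 : ℕ).Prime := ⟨p.1.2⟩
    have h1 : IsPGroup (p.1 : ℕ) (D ⧸ (K p.1).subgroupOf D) := by
      have h2 : (K p.1).relIndex D ∣ (p.1 : ℕ) ^ (Nat.card G).factorization p.1 := by
        rw [← hK p.1]
        exact relIndex_dvd_index_of_le_normalizer (hDN p.1)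
      obtain ⟨k, -, hk⟩ := (Nat.dvd_prime_pow p.1.2).mp h2
      exact IsPGroup.of_card (n := k) hk
    exact h1.isNilpotent
  let F : D →* ∀ p : I, D ⧸ (K p.1).subgroupOf D :=
    MonoidHom.mk' (fun x p => QuotientGroup.mk x) (fun a b => rfl)
  refine isNilpotent_of_injective' F ?_ inferInstance
  rw [injective_iff_map_eq_one]
  intro x hx
  by_contra hne
  have hne' : orderOf x ≠ 1 := by rwa [Ne, orderOf_eq_one_iff]
  obtain ⟨q, hq, hqd⟩ := Nat.exists_prime_and_dvd hne'
  have hqD : q ∣ Nat.card G :=
    (hqd.trans (orderOf_dvd_natCard x)).trans (Subgroup.card_subgroup_dvd_card D)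
  have hxq := congrFun hx ⟨⟨q, hq⟩, hqD⟩
  have hxK : (x : G) ∈ K ⟨q, hq⟩ := by
    have h1 : x ∈ (K ⟨q, hq⟩).subgroupOf D := by
      haveI := hnorm ⟨q, hq⟩
      exact (QuotientGroup.eq_one_iff x).mp hxq
    exact Subgroup.mem_subgroupOf.mp h1
  have h2 : orderOf (x : G) ∣ Nat.card (K ⟨q, hq⟩) := by
    have := orderOf_dvd_natCard (⟨x, hxK⟩ : K ⟨q, hq⟩)
    rwa [Subgroup.orderOf_mk] at this
  have h3 : q ∣ orderOf (x : G) := by rwa [Subgroup.orderOf_coe]
  have h4 := complement_card_coprime hK ⟨q, hq⟩
  have h5 := Nat.dvd_gcd (h3.trans h2) (dvd_refl q)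
  change q ∣ Nat.gcd (Nat.card (K ⟨q, hq⟩)) q at h5
  rw [Nat.Coprime.gcd_eq_one h4] at h5
  exact hq.one_lt.ne' (Nat.dvd_one.mp h5)

/-- A complement system exists in every finite solvable group. -/
theorem exists_complementSystem [Finite G] [Group.IsSolvable G] :
    ∃ K : Nat.Primes → Subgroup G, IsComplementSystem K := by
  have h : ∀ p : Nat.Primes, ∃ H : Subgroup G, H.index = (p : ℕ) ^ (Nat.card G).factorization p := by
    intro p
    have hG : Nat.card G ≠ 0 := Nat.card_pos.ne'
    have hp := p.2
    have h1 := Nat.ordProj_mul_ordCompl_eq_self (Nat.card G) p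
    obtain ⟨H, hH⟩ := hall_exists _ (Nat.card G / (p : ℕ) ^ (Nat.card G).factorization p)
      ((p : ℕ) ^ (Nat.card G).factorization p) rfl (by rw [mul_comm]; exact h1.symm)
      (Nat.Coprime.pow_right _ (Nat.Coprime.symm (Nat.coprime_ordCompl hp hG)))
    refine ⟨H, ?_⟩
    have h2 := Subgroup.card_mul_index H
    rw [hH] at h2
    have h3 : 0 < Nat.card G / (p : ℕ) ^ (Nat.card G).factorization p :=
      Nat.pos_of_ne_zero (by
        intro h0
        rw [h0, mul_zero] at h1
        exact hG h1.symm)
    refine Nat.eq_of_mul_eq_mul_left h3 ?_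
    rw [h2, mul_comm]
    exact h1.symm
  choose K hK using h
  exact ⟨K, hK⟩

/-- **The normal closure of a system normalizer is the whole group.** -/
theorem normalClosure_systemNormalizer [Finite G] [Group.IsSolvable G] {K : Nat.Primes → Subgroup G}
    (hK : IsComplementSystem K) :
    Subgroup.normalClosure ((systemNormalizer K : Subgroup G) : Set G) = ⊤ := by
  set R := Subgroup.normalClosure ((systemNormalizer K : Subgroup G) : Set G) with hR
  have hDR : systemNormalizer K ≤ R := Subgroup.subset_normalClosure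
  set N : Subgroup G := R ⊔ _root_.commutator G with hN
  haveI hNn : N.Normal := Subgroup.sup_normal _ _
  have hcomm : ∀ a b : G ⧸ N, a * b = b * a := by
    intro a b
    obtain ⟨x, rfl⟩ := QuotientGroup.mk'_surjective N a
    obtain ⟨y, rfl⟩ := QuotientGroup.mk'_surjective N b
    have h1 : ⁅x, y⁆ ∈ N := Subgroup.mem_sup_right (Subgroup.commutator_mem_commutator (Subgroup.mem_top x) (Subgroup.mem_top y))
    have h2 : QuotientGroup.mk' N ⁅x, y⁆ = 1 := (QuotientGroup.eq_one_iff _).mpr h1
    rw [commutatorElement_def, map_mul, map_mul, map_inv, map_inv] at h2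
    have h3 := mul_inv_eq_one.mp h2
    rw [mul_inv_eq_iff_eq_mul] at h3
    exact h3
  have h1 := systemNormalizer_map hK N
  have hD : (systemNormalizer K).map (QuotientGroup.mk' N) = ⊥ := by
    rw [Subgroup.map_eq_bot_iff, QuotientGroup.ker_mk']
    exact hDR.trans le_sup_left
  have hT : systemNormalizer (fun p => (K p).map (QuotientGroup.mk' N)) = ⊤ := by
    rw [eq_top_iff]
    intro y _
    rw [mem_systemNormalizer]
    intro p
    refine conj_smul_le_of_normalizer ?_
    rw [Subgroup.mem_normalizer_iff]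
    intro h
    have : y * h * y⁻¹ = h := by rw [hcomm y h]; group
    rw [this]
  rw [hD, hT] at h1
  have hNt : N = ⊤ := by
    have h2 : ∀ x : G, x ∈ N := by
      intro x
      have h3 : QuotientGroup.mk' N x ∈ (⊥ : Subgroup (G ⧸ N)) := h1 ▸ Subgroup.mem_top _
      exact (QuotientGroup.eq_one_iff x).mp (Subgroup.mem_bot.mp h3)
    exact eq_top_iff.mpr (fun x _ => h2 x)
  by_contra hne
  haveI : R.Normal := Subgroup.normalClosure_normal
  have hnt : Nontrivial (G ⧸ R) := by
    refine QuotientGroup.nontrivial_iff.mpr ?_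
    exact hne
  have h4 := Group.IsSolvable.commutator_lt_top_of_nontrivial (G ⧸ R)
  apply h4.ne
  rw [eq_top_iff]
  intro y _
  obtain ⟨x, rfl⟩ := QuotientGroup.mk'_surjective R y
  have hx : x ∈ N := by rw [hNt]; exact Subgroup.mem_top x
  obtain ⟨a, ha, b, hb, rfl⟩ := Subgroup.mem_sup_of_normal_left.mp hx
  have h5 : QuotientGroup.mk' R a = 1 := (QuotientGroup.eq_one_iff a).mpr ha
  rw [map_mul, h5, one_mul]
  have h6 : (_root_.commutator G).map (QuotientGroup.mk' R) = _root_.commutator (G ⧸ R) := by
    rw [_root_.commutator_def, Subgroup.map_commutator, _root_.commutator_def]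
    rw [Subgroup.map_top_of_surjective _ (QuotientGroup.mk'_surjective R)]
  rw [← h6]
  exact ⟨b, hb, rfl⟩

end Cfsg.Agent.Lib.Basic
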