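import Cfsg.Agent.Lib.Basic.Sys1

/-!
# System normalizers cover central chief factors and avoid noncentral ones.
-/

set_option autoImplicit false

namespace Cfsg.Agent.Lib.Basic

open Subgroup Cfsg

open scoped Pointwise commutatorElement

variable {G : Type*} [Group G]

/-- A nilpotent group: a nontrivial normal subgroup is not its own commutator with the group. -/
theorem commutator_top_ne_of_isNilpotent [Group.IsNilpotent G] {M : Subgroup G} (hne : M ≠ ⊥) :
    ⁅M, (⊤ : Subgroup G)⁆ ≠ M := by
  intro h
  apply hne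
  obtain ⟨n, hn⟩ := _root_.nilpotent_iff_lowerCentralSeries.mp (inferInstance : Group.IsNilpotent G)
  have key : ∀ k, M ≤ (⊤ : Subgroup G).lowerCentralSeries k := by
    intro k
    induction k with
    | zero => simp
    | succ k ih =>
      rw [← h]
      exact Subgroup.commutator_mono ih le_rfl
  exact eq_bot_iff.mpr (hn ▸ key n)

/-- A Sylow subgroup and a `p`-complement have product the whole group. -/
theorem exists_sylow_mul_complement [Finite G] {K : Nat.Primes → Subgroup G} (hK : IsComplementSystem K)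
    (p : Nat.Primes) [Fact (p : ℕ).Prime] (S : Sylow p G) (g : G) :
    ∃ s ∈ (S : Subgroup G), ∃ k ∈ K p, g = s * k := by
  have h1 : Nat.card (S : Subgroup G) = (p : ℕ) ^ (Nat.card G).factorization p := S.card_eq_multiplicity
  have h2 := Subgroup.card_mul_index (K p)
  rw [hK p] at h2
  have h3 : Nat.card (S : Subgroup G) * Nat.card (K p) = Nat.card G := by
    rw [h1, mul_comm]
    exact h2
  have h4 : (Nat.card (S : Subgroup G)).Coprime (Nat.card (K p)) := by
    rw [h1]
    exact Nat.Coprime.pow_left _ (Nat.Coprime.symm (complement_card_coprime hK p))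
  have hc : Subgroup.IsComplement' (S : Subgroup G) (K p) := Subgroup.isComplement'_of_coprime h3 h4
  obtain ⟨y, hy, -⟩ := hc.existsUnique g
  exact ⟨y.1, y.1.2, y.2, y.2.2, hy.symm⟩

/-- A central minimal normal subgroup lies in every system normalizer. -/
theorem le_systemNormalizer_of_le_center {K : Nat.Primes → Subgroup G} {M : Subgroup G}
    (h : M ≤ Subgroup.center G) : M ≤ systemNormalizer K := by
  intro x hx
  rw [mem_systemNormalizer]
  intro p
  refine conj_smul_le_of_normalizer ?_
  rw [Subgroup.mem_normalizer_iff]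
  intro y
  have h1 : x * y * x⁻¹ = y := by
    have := (Subgroup.mem_center_iff.mp (h hx) y)
    rw [← this]
    group
  rw [h1]

/-- A noncentral minimal normal subgroup meets every system normalizer trivially. -/
theorem minNormal_inf_systemNormalizer [Finite G] [Group.IsSolvable G] {K : Nat.Primes → Subgroup G}
    (hK : IsComplementSystem K) {M : Subgroup G} (hM : IsMinNormal M) (hnc : ¬ M ≤ Subgroup.center G) :
    M ⊓ systemNormalizer K = ⊥ := by
  obtain ⟨hab, r, hr, hMr⟩ := hM.isPGroup
  haveI hMn : M.Normal := hM.1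
  haveI : Fact r.Prime := ⟨hr⟩
  let R : Nat.Primes := ⟨r, hr⟩
  haveI : Fact (R : ℕ).Prime := ⟨hr⟩
  rw [eq_bot_iff]
  rintro x ⟨hxM, hxD⟩
  rw [Subgroup.mem_bot]
  by_contra hx1
  replace hxD : x ∈ systemNormalizer K := hxD
  replace hxM : x ∈ M := hxM
  rw [mem_systemNormalizer] at hxD
  -- x centralizes K_r
  have hxcent : ∀ k ∈ K R, k * x * k⁻¹ = x := by
    intro k hk
    have hn : x ∈ normalizer (K R : Set G) := mem_normalizer_of_conj_smul_eq (hxD R)
    have h1 : x * k * x⁻¹ ∈ K R := (Subgroup.mem_normalizer_iff.mp hn k).mp hk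
    have h2 : x * k * x⁻¹ * k⁻¹ ∈ K R := (K R).mul_mem h1 ((K R).inv_mem hk)
    have h3 : x * k * x⁻¹ * k⁻¹ ∈ M := by
      have : k * x⁻¹ * k⁻¹ ∈ M := hMn.conj_mem _ (M.inv_mem hxM) k
      have h4 : x * k * x⁻¹ * k⁻¹ = x * (k * x⁻¹ * k⁻¹) := by group
      rw [h4]
      exact M.mul_mem hxM this
    have hdisj : Disjoint M (K R) := by
      refine Subgroup.disjoint_of_coprime_natCard ?_
      obtain ⟨n, hn⟩ := hMr.exists_card_eq
      rw [hn]
      exact Nat.Coprime.pow_left _ (Nat.Coprime.symm (complement_card_coprime hK R))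
    have h5 : x * k * x⁻¹ * k⁻¹ = 1 := Subgroup.disjoint_def.mp hdisj h3 h2
    have h6 : x * k = k * x := by
      have := mul_inv_eq_one.mp h5
      exact mul_inv_eq_iff_eq_mul.mp this
    rw [← h6]
    group
  -- the subgroup generated by the commutators
  set W : Subgroup G := Subgroup.closure (Set.range fun g : G => ⁅g, x⁆) with hW
  have hWn : W.Normal := by
    refine ⟨fun n hn h => ?_⟩
    have h1 : W ≤ W.comap (MulAut.conj h).toMonoidHom := by
      rw [hW, Subgroup.closure_le]
      rintro _ ⟨g, rfl⟩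
      rw [SetLike.mem_coe, Subgroup.mem_comap]
      change h * ⁅g, x⁆ * h⁻¹ ∈ _
      have h2 : h * ⁅g, x⁆ * h⁻¹ = ⁅h * g, x⁆ * ⁅h, x⁆⁻¹ := by
        simp only [commutatorElement_def]
        group
      rw [h2]
      exact Subgroup.mul_mem _ (Subgroup.subset_closure ⟨_, rfl⟩)
        (Subgroup.inv_mem _ (Subgroup.subset_closure ⟨_, rfl⟩))
    exact h1 hn
  have hWM : W ≤ M := by
    rw [hW, Subgroup.closure_le]
    rintro _ ⟨g, rfl⟩
    show ⁅g, x⁆ ∈ M
    rw [commutatorElement_def]
    exact M.mul_mem (hMn.conj_mem _ hxM g) (M.inv_mem hxM)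
  obtain ⟨S⟩ : Nonempty (Sylow r G) := inferInstance
  have hMS : M ≤ S := normal_pGroup_le_sylow hMn hMr S
  -- `W` is a proper subgroup of `M`.
  have hne : W ≠ M := by
    intro hWeq
    haveI hSn : Group.IsNilpotent (S : Subgroup G) := S.isPGroup'.isNilpotent
    have hMne : M.subgroupOf (S : Subgroup G) ≠ ⊥ := by
      intro h0
      rw [Subgroup.subgroupOf_eq_bot] at h0
      exact hM.2.1 (by
        rw [eq_bot_iff]
        intro y hy
        exact (Subgroup.disjoint_def.mp h0) hy (hMS hy))
    apply commutator_top_ne_of_isNilpotent hMne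
    refine le_antisymm ?_ ?_
    · rw [Subgroup.commutator_le]
      intro a ha b _
      rw [Subgroup.mem_subgroupOf] at ha ⊢
      have : ((⁅a, b⁆ : (S : Subgroup G)) : G) = (a : G) * ((b : G) * (a : G)⁻¹ * (b : G)⁻¹) := by
        simp only [commutatorElement_def, Subgroup.coe_mul, Subgroup.coe_inv]
        group
      rw [this]
      exact M.mul_mem ha (hMn.conj_mem _ (M.inv_mem ha) _)
    · intro y hy
      rw [Subgroup.mem_subgroupOf, ← hWeq] at hy
      have hW2 : W ≤ (⁅M.subgroupOf (S : Subgroup G), (⊤ : Subgroup (S : Subgroup G))⁆).map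
          (S : Subgroup G).subtype := by
        rw [hW, Subgroup.closure_le]
        rintro _ ⟨g, rfl⟩
        obtain ⟨t, ht, k, hk, rfl⟩ := exists_sylow_mul_complement hK R S g
        have h1 : ⁅t * k, x⁆ = ⁅t, x⁆ := by
          simp only [commutatorElement_def]
          have := hxcent k hk
          calc t * k * x * (t * k)⁻¹ * x⁻¹ = t * (k * x * k⁻¹) * t⁻¹ * x⁻¹ := by group
            _ = t * x * t⁻¹ * x⁻¹ := by rw [this]
        show ⁅t * k, x⁆ ∈ _
        rw [h1]
        refine ⟨⁅(⟨x, hMS hxM⟩ : (S : Subgroup G)), (⟨t, ht⟩ : (S : Subgroup G))⁆⁻¹, ?_, ?_⟩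
        · exact Subgroup.inv_mem _ (Subgroup.commutator_mem_commutator
            (Subgroup.mem_subgroupOf.mpr hxM) (Subgroup.mem_top _))
        · simp only [Subgroup.coe_subtype, Subgroup.coe_inv, commutatorElement_def, Subgroup.coe_mul]
          group
      obtain ⟨z, hz, hzy⟩ := hW2 hy
      have : z = y := Subtype.ext hzy
      exact this ▸ hz
  have hW1 : W = ⊥ := by
    rcases hM.2.2 W hWn hWM with h | h
    · exact h
    · exact absurd h hne
  have hxc : x ∈ Subgroup.center G := by
    rw [Subgroup.mem_center_iff]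
    intro g
    have h1 : ⁅g, x⁆ ∈ W := Subgroup.subset_closure ⟨g, rfl⟩
    rw [hW1, Subgroup.mem_bot, commutatorElement_def] at h1
    have h2 := mul_inv_eq_one.mp h1
    exact mul_inv_eq_iff_eq_mul.mp h2
  have hzn : (Subgroup.zpowers x).Normal := by
    refine ⟨fun n hn g => ?_⟩
    have hnc' : n ∈ Subgroup.center G :=
      (Subgroup.zpowers_le.mpr hxc) hn
    have : g * n * g⁻¹ = n := by
      rw [(Subgroup.mem_center_iff.mp hnc') g]
      group
    rwa [this]
  rcases hM.2.2 _ hzn (Subgroup.zpowers_le.mpr hxM) with h | h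
  · exact hx1 (Subgroup.zpowers_eq_bot.mp h)
  · apply hnc
    rw [← h]
    exact Subgroup.zpowers_le.mpr hxc

/-- **A system normalizer covers the central chief factors and avoids the others.** -/
theorem systemNormalizer_chief [Finite G] [Group.IsSolvable G] {K : Nat.Primes → Subgroup G}
    (hK : IsComplementSystem K) (A B : Subgroup G) [hA : A.Normal] [hB : B.Normal] (hAB : A < B)
    (hchief : ∀ N : Subgroup G, N.Normal → A ≤ N → N ≤ B → N = A ∨ N = B) :
    (⁅B, (⊤ : Subgroup G)⁆ ≤ A → B ≤ A ⊔ systemNormalizer K) ∧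
      (¬ ⁅B, (⊤ : Subgroup G)⁆ ≤ A → B ⊓ systemNormalizer K ≤ A) := by
  set π := QuotientGroup.mk' A with hπ
  have hsurj : Function.Surjective π := QuotientGroup.mk'_surjective A
  have hmemker : ∀ y, π y = 1 ↔ y ∈ A := fun y => QuotientGroup.eq_one_iff y
  set M : Subgroup (G ⧸ A) := B.map π with hM
  have hMmin : IsMinNormal M := by
    refine ⟨hB.map _ hsurj, ?_, ?_⟩
    · intro h0
      obtain ⟨b, hb, hbA⟩ := SetLike.exists_of_lt hAB
      apply hbA
      rw [← hmemker]
      have : π b ∈ M := ⟨b, hb, rfl⟩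
      rw [h0] at this
      exact Subgroup.mem_bot.mp this
    · intro L hL hLM
      have hker : π.ker = A := QuotientGroup.ker_mk' A
      have h1 : A ≤ L.comap π := fun a ha => by
        rw [Subgroup.mem_comap, (hmemker a).mpr ha]
        exact L.one_mem
      have h2 : L.comap π ≤ B := by
        intro y hy
        obtain ⟨b, hb, hby⟩ := hLM hy
        have h3 : b⁻¹ * y ∈ A := by
          rw [← hmemker, map_mul, map_inv, hby, inv_mul_cancel]
        have h4 : y = b * (b⁻¹ * y) := by group
        rw [h4]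
        exact B.mul_mem hb (hAB.le h3)
      rcases hchief _ (hL.comap π) h1 h2 with h | h
      · left
        have h5 := Subgroup.map_comap_eq_self_of_surjective hsurj L
        rw [h] at h5
        rw [← h5, Subgroup.map_eq_bot_iff, hker]
      · right
        have h5 := Subgroup.map_comap_eq_self_of_surjective hsurj L
        rw [h] at h5
        exact h5.symm
  have hcenter : ⁅B, (⊤ : Subgroup G)⁆ ≤ A ↔ M ≤ Subgroup.center (G ⧸ A) := by
    constructor
    · intro h
      rintro _ ⟨b, hb, rfl⟩
      rw [Subgroup.mem_center_iff]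
      intro q
      obtain ⟨g, rfl⟩ := hsurj q
      have h1 := (hmemker _).mpr (h (Subgroup.commutator_mem_commutator hb (Subgroup.mem_top g)))
      rw [commutatorElement_def, map_mul, map_mul, map_inv, map_inv] at h1
      have h2 := mul_inv_eq_one.mp h1
      have h3 := mul_inv_eq_iff_eq_mul.mp h2
      exact h3.symm
    · intro h
      rw [Subgroup.commutator_le]
      intro b hb g _
      rw [← hmemker, commutatorElement_def, map_mul, map_mul, map_mul, map_inv, map_inv]
      have h1 := (Subgroup.mem_center_iff.mp (h ⟨b, hb, rfl⟩)) (π g)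
      have h2 : π g * π b = π b * π g := h1
      rw [← h2]
      group
  have hDmap := systemNormalizer_map hK A
  constructor
  · intro hcent
    intro b hb
    have h1 : π b ∈ systemNormalizer (fun p => (K p).map π) :=
      le_systemNormalizer_of_le_center (hcenter.mp hcent) ⟨b, hb, rfl⟩
    rw [hDmap] at h1
    obtain ⟨d, hd, hdb⟩ := h1
    have h3 : b * d⁻¹ ∈ A := by
      rw [← hmemker, map_mul, map_inv, ← hdb, mul_inv_cancel]
    have h4 : b = (b * d⁻¹) * d := by group
    rw [h4]
    exact Subgroup.mul_mem_sup h3 hd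
  · intro hncent
    rintro x ⟨hxB, hxD⟩
    have h1 : M ⊓ systemNormalizer (fun p => (K p).map π) = ⊥ :=
      minNormal_inf_systemNormalizer (isComplementSystem_map _ hsurj hK) hMmin
        (fun h => hncent (hcenter.mpr h))
    have h2 : π x ∈ M ⊓ systemNormalizer (fun p => (K p).map π) := by
      refine ⟨⟨x, hxB, rfl⟩, ?_⟩
      show π x ∈ systemNormalizer (fun p => (K p).map π)
      rw [hDmap]
      exact ⟨x, hxD, rfl⟩
    rw [h1] at h2
    exact (hmemker x).mp (Subgroup.mem_bot.mp h2)

end Cfsg.Agent.Lib.Basic
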