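import Cfsg.Agent.Lib.Coprime.Wielandt
import Mathlib.GroupTheory.IsSubnormal

/-!
# Wielandt-type lemmas: S0539, S0540.
-/

set_option autoImplicit false

namespace Cfsg.Agent.Lib.Basic

open Subgroup Cfsg.Agent.Lib.Coprime.Wielandt

open scoped Pointwise

variable {G : Type*} [Group G]

theorem conj_smul_eq_cj (g : G) (U : Subgroup G) : MulAut.conj g • U = Cj g U := rfl

variable [Finite G]

/-- Ambient version of S0539. -/
theorem exists_member_normalizes_sSup (L : Subgroup G) (S S₀ : Set (Subgroup G))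
    (hS : ∀ U ∈ S, SnIn L U) (hconj : ∀ U ∈ S, ∀ g ∈ L, Cj g U ∈ S) (h₀ : S₀ ⊂ S) :
    ∃ X ∈ S, X ∉ S₀ ∧ X ≤ normalizer ((sSup S₀ : Subgroup G) : Set G) := by
  classical
  have hJ : SnIn L (sSup S₀) := by
    rw [sSup_eq_iSup']
    exact SnIn.iSup _ (fun i => hS _ (h₀.subset i.2))
  obtain ⟨X₀, hX₀, hX₀n⟩ := Set.exists_of_ssubset h₀
  have hne : {K : Subgroup G | SnIn K (sSup S₀) ∧ K ≤ L ∧ ∃ X ∈ S, X ∉ S₀ ∧ X ≤ K}.Nonempty :=
    ⟨L, hJ, le_rfl, X₀, hX₀, hX₀n, (hS _ hX₀).le⟩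
  obtain ⟨K, ⟨hKJ, hKL, X, hX, hXn, hXK⟩, hmin⟩ := (Set.toFinite _).exists_minimal hne
  refine ⟨X, hX, hXn, ?_⟩
  by_cases hJK : sSup S₀ = K
  · rw [hJK]
    exact hXK.trans Subgroup.le_normalizer
  obtain ⟨W, hJW, hWK, hKW⟩ := hKJ.exists_normal hJK
  have hWJ : SnIn W (sSup S₀) := hKJ.of_le hJW hWK.le
  have hall : ∀ U ∈ S, U ≤ W → U ∈ S₀ := by
    intro U hU hUW
    by_contra hUn
    have h1 : K ≤ W := hmin (show W ∈ {K : Subgroup G | SnIn K (sSup S₀) ∧ K ≤ L ∧ ∃ X ∈ S, X ∉ S₀ ∧ X ≤ K}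
      from ⟨hWJ, hWK.le.trans hKL, U, hU, hUn, hUW⟩) hWK.le
    exact hWK.not_ge h1
  intro x hx
  refine mem_normalizer_of_le_comap ?_
  refine sSup_le fun U hU => ?_
  rw [← Subgroup.map_le_iff_le_comap]
  have hUW : U ≤ W := (le_sSup hU).trans hJW
  have hxK : x ∈ K := hXK hx
  have h1 : Cj x U ∈ S := hconj U (h₀.subset hU) x (hKL hxK)
  have h2 : Cj x U ≤ W := by
    intro y hy
    obtain ⟨u, hu, rfl⟩ := hy
    exact (mem_normalizer_iff.mp (hKW hxK) u).mp (hUW hu)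
  exact le_sSup (hall _ h1 h2)

/-- **S0539**. -/
theorem exists_member_normalizes_sSup_top (S S₀ : Set (Subgroup G))
    (hS : ∀ U ∈ S, U.IsSubnormal) (hconj : ∀ U ∈ S, ∀ g : G, MulAut.conj g • U ∈ S) (h₀ : S₀ ⊂ S) :
    ∃ X ∈ S, X ∉ S₀ ∧ X ≤ normalizer ((sSup S₀ : Subgroup G) : Set G) :=
  exists_member_normalizes_sSup ⊤ S S₀ (fun U hU => snIn_top_iff.mpr (hS U hU))
    (fun U hU g _ => hconj U hU g) h₀

/-- **S0540**, the zipper-type uniqueness lemma. -/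
theorem zipper_unique (A : Subgroup G) (U : Set (Subgroup G)) (hU : U.Nonempty)
    (S : Subgroup G → Set (Subgroup G))
    (hS : ∀ V B : Subgroup G, B ∈ S V ↔ (∃ g : G, B = MulAut.conj g • A) ∧ B ≤ V ∧ (B.subgroupOf V).IsSubnormal)
    (h1 : ∀ V ∈ U, A ∈ S V) (h2 : ∀ V ∈ U, ∀ W ∈ U, ∀ B ∈ S W, B ≤ V → B ∈ S V)
    (h3 : ∀ V ∈ U, ∀ W ∈ U, ∃ X ∈ U, normalizer ((sSup (S V ∩ S W) : Subgroup G) : Set G) ≤ X) :
    ∃ M ∈ U, ∀ V ∈ U, V ≤ M := by
  classical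
  -- maximal members
  have hmaxex : ∀ V ∈ U, ∃ M, M ∈ U ∧ V ≤ M ∧ ∀ W ∈ U, M ≤ W → W ≤ M := by
    intro V hV
    obtain ⟨M, hVM, hM⟩ := (Set.toFinite U).exists_le_maximal hV
    exact ⟨M, hM.1, hVM, fun W hW hMW => hM.2 hW hMW⟩
  by_contra hno
  -- two different maximal members
  obtain ⟨V₀, hV₀⟩ := hU
  obtain ⟨M₀, hM₀, -, hM₀m⟩ := hmaxex V₀ hV₀
  have htwo : ∃ M₁ ∈ U, (∀ W ∈ U, M₁ ≤ W → W ≤ M₁) ∧ M₁ ≠ M₀ := by
    by_contra hh
    push Not at hh
    apply hno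
    refine ⟨M₀, hM₀, fun V hV => ?_⟩
    obtain ⟨M, hM, hVM, hMm⟩ := hmaxex V hV
    rw [← hh M hM hMm]
    exact hVM
  -- the pair with the largest intersection
  let T : Set (Subgroup G × Subgroup G) :=
    {x | x.1 ∈ U ∧ x.2 ∈ U ∧ (∀ W ∈ U, x.1 ≤ W → W ≤ x.1) ∧ (∀ W ∈ U, x.2 ≤ W → W ≤ x.2) ∧ x.1 ≠ x.2}
  have hTne : T.Nonempty := by
    obtain ⟨M₁, h11, h12, h13⟩ := htwo
    exact ⟨(M₁, M₀), h11, hM₀, h12, hM₀m, h13⟩
  let f : Subgroup G × Subgroup G → ℕ := fun x => (Set.toFinite (S x.1 ∩ S x.2)).toFinset.card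
  obtain ⟨⟨V, W⟩, ⟨hV, hW, hVm, hWm, hVW⟩, hfmax⟩ := Set.exists_max_image T f (Set.toFinite T) hTne
  simp only at hV hW hVm hWm hVW
  -- the subgroup `D`
  set D : Subgroup G := sSup (S V ∩ S W) with hD
  obtain ⟨M', hM', hDM'⟩ := h3 V hV W hW
  obtain ⟨M, hM, hM'M, hMm⟩ := hmaxex M' hM'
  have hDM : normalizer (D : Set G) ≤ M := hDM'.trans hM'M
  have hleN : D ≤ normalizer (D : Set G) := Subgroup.le_normalizer
  -- the main claim, symmetric in `V`, `W`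
  have main : ∀ V' ∈ U, ∀ W' ∈ U, (∀ W ∈ U, V' ≤ W → W ≤ V') → (∀ W ∈ U, W' ≤ W → W ≤ W') → V' ≠ W' →
      (∀ x ∈ T, f x ≤ f (V', W')) → normalizer ((sSup (S V' ∩ S W') : Subgroup G) : Set G) ≤ M →
      (∀ W ∈ U, M ≤ W → W ≤ M) → M ∈ U → V' = M := by
    intro V' hV' W' hW' hV'm hW'm hne hf hN hMm hM
    set D' : Subgroup G := sSup (S V' ∩ S W') with hD'
    by_cases heq : S V' ∩ S W' = S V'
    · -- `D'` is normal in `V'`
      have hnor : V' ≤ normalizer (D' : Set G) := by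
        intro x hx
        refine mem_normalizer_of_le_comap ?_
        refine sSup_le fun B hB => ?_
        rw [← Subgroup.map_le_iff_le_comap]
        refine le_sSup ?_
        rw [heq] at hB ⊢
        obtain ⟨⟨g, hg⟩, hBV, hBs⟩ := (hS _ _).mp hB
        refine (hS _ _).mpr ⟨⟨x * g, ?_⟩, ?_, ?_⟩
        · rw [hg, map_mul, mul_smul]
          rfl
        · rintro _ ⟨y, hy, rfl⟩
          exact V'.mul_mem (V'.mul_mem hx (hBV hy)) (V'.inv_mem hx)
        · have h4 : SnIn V' B := (snIn_iff hBV).mpr hBs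
          have h5 := h4.conj_of_mem hx
          exact snIn_subgroupOf h5
      have h6 : V' ≤ M := hnor.trans hN
      exact le_antisymm h6 (hV'm M hM h6)
    · -- a new member
      have hss : S V' ∩ S W' ⊂ S V' := by
        refine ⟨Set.inter_subset_left, fun h => heq (le_antisymm Set.inter_subset_left h)⟩
      obtain ⟨X, hX, hXn, hXN⟩ := exists_member_normalizes_sSup V' (S V') (S V' ∩ S W')
        (fun B hB => by
          obtain ⟨-, hBV, hBs⟩ := (hS _ _).mp hB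
          exact (snIn_iff hBV).mpr hBs)
        (fun B hB x hx => by
          obtain ⟨⟨g, hg⟩, hBV, hBs⟩ := (hS _ _).mp hB
          refine (hS _ _).mpr ⟨⟨x * g, ?_⟩, ?_, ?_⟩
          · rw [hg, map_mul, mul_smul]
            rfl
          · rintro _ ⟨y, hy, rfl⟩
            exact V'.mul_mem (V'.mul_mem hx (hBV hy)) (V'.inv_mem hx)
          · have h4 : SnIn V' B := (snIn_iff hBV).mpr hBs
            have h5 := h4.conj_of_mem hx
            exact snIn_subgroupOf h5) hss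
      by_contra hne2
      have hXM : X ≤ M := hXN.trans hN
      have hXSM : X ∈ S M := h2 M hM V' hV' X hX hXM
      have hXW : X ∉ S W' := fun h => hXn ⟨hX, h⟩
      have hsub : S V' ∩ S W' ⊂ S V' ∩ S M := by
        refine ⟨?_, fun h => hXW (h ⟨hX, hXSM⟩).2⟩
        rintro B ⟨hB1, hB2⟩
        refine ⟨hB1, h2 M hM W' hW' B hB2 ?_⟩
        exact (le_sSup (show B ∈ S V' ∩ S W' from ⟨hB1, hB2⟩)).trans (Subgroup.le_normalizer.trans hN)
      have hcard : f (V', W') < f (V', M) := by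
        apply Finset.card_lt_card
        rw [Set.Finite.toFinset_ssubset_toFinset]
        exact hsub
      have hmem : (V', M) ∈ T := ⟨hV', hM, hV'm, hMm, hne2⟩
      exact absurd (hf _ hmem) (not_le.mpr hcard)
  have e1 : V = M := main V hV W hW hVm hWm hVW hfmax hDM hMm hM
  have hfsymm : ∀ x ∈ T, f x ≤ f (W, V) := by
    intro x hx
    have h4 := hfmax x hx
    have h5 : f (W, V) = f (V, W) := by
      show (Set.toFinite (S W ∩ S V)).toFinset.card = (Set.toFinite (S V ∩ S W)).toFinset.card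
      congr 1
      ext B
      simp only [Set.Finite.mem_toFinset, Set.mem_inter_iff, and_comm]
    rw [h5]
    exact h4
  have hDM2 : normalizer ((sSup (S W ∩ S V) : Subgroup G) : Set G) ≤ M := by
    rw [Set.inter_comm]
    exact hDM
  have e2 : W = M := main W hW V hV hWm hVm hVW.symm hfsymm hDM2 hMm hM
  exact hVW (e1.trans e2.symm)

end Cfsg.Agent.Lib.Basic
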